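import Mathlib
import Cfsg.Prelude.Def_GeometricClasses
import Cfsg.Agent.Lib.Helper13.Herm
import Cfsg.Agent.Lib.Helper94.Transfer

set_option autoImplicit false
set_option linter.unusedSimpArgs false
set_option linter.unusedVariables false
set_option linter.unusedSectionVars false

/-! Membership in `Cfsg.Geo.subfieldSubgroup`, and the semilinear involution attached to a rational structure
over the subfield of index two. -/

namespace Cfsg.Agent.Lib.Helper99

open Matrix
open Cfsg.Agent.Lib.Helper94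
open Cfsg.Agent.Lib.Helper13 (frobQ frobQ_apply frobQ_ne_id pow_q_pow_q add_pow_q sum_pow_q two_le_of_card_sq)

section general

variable {ι : Type} [Fintype ι] [DecidableEq ι] {F : Type*} [Field F]

/-- membership in the subfield subgroup: some non-zero multiple of `P⁻¹ g P` has all entries in `F₀` -/
lemma mem_subfieldSubgroup_iff (F₀ : Subfield F) (P g : Matrix.GeneralLinearGroup ι F) :
    g ∈ Cfsg.Geo.subfieldSubgroup F₀ P ↔
      ∃ c : F, c ≠ 0 ∧ ∀ i j, (c • (((P⁻¹ * g * P : Matrix.GeneralLinearGroup ι F)) : Matrix ι ι F)) i j ∈ F₀ := by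
  unfold Cfsg.Geo.subfieldSubgroup
  rw [Subgroup.mem_map]
  constructor
  · rintro ⟨m, hm, rfl⟩
    rw [← SetLike.mem_coe, Subgroup.mul_normal, Set.mem_mul] at hm
    obtain ⟨a, ⟨M₀, rfl⟩, b, hb, rfl⟩ := hm
    obtain ⟨c, hc⟩ := (Cfsg.Geo.mem_scalars_iff b).1 hb
    refine ⟨(c : F)⁻¹, inv_ne_zero c.ne_zero, fun i j => ?_⟩
    have e : P⁻¹ * ((MulAut.conj P).toMonoidHom ((Matrix.GeneralLinearGroup.map F₀.subtype) M₀ * b)) * P
        = (Matrix.GeneralLinearGroup.map F₀.subtype) M₀ * b := by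
      simp only [MulEquiv.coe_toMonoidHom, MulAut.conj_apply]
      group
    rw [e, Units.val_mul, hc, Matrix.mul_smul, mul_one, smul_smul, inv_mul_cancel₀ c.ne_zero, one_smul,
      Matrix.GeneralLinearGroup.map_apply]
    exact (M₀.1 i j).2
  · rintro ⟨c, hc0, hc⟩
    set A : Matrix ι ι F := c • (((P⁻¹ * g * P : Matrix.GeneralLinearGroup ι F)) : Matrix ι ι F) with hA
    let M₀ : Matrix ι ι F₀ := fun i j => ⟨A i j, hc i j⟩
    have hM : F₀.subtype.mapMatrix M₀ = A := by
      ext i j; rfl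
    have hdetA : A.det ≠ 0 := by
      rw [hA, Matrix.det_smul]
      refine mul_ne_zero (pow_ne_zero _ hc0) ?_
      exact (Matrix.GeneralLinearGroup.det (P⁻¹ * g * P)).ne_zero
    have hdet : M₀.det ≠ 0 := by
      intro h0
      apply hdetA
      rw [← hM, ← RingHom.map_det, h0, map_zero]
    refine ⟨Matrix.GeneralLinearGroup.map F₀.subtype (Matrix.GeneralLinearGroup.mkOfDetNeZero M₀ hdet) *
      Units.map (Matrix.scalar ι : F →+* Matrix ι ι F).toMonoidHom (Units.mk0 c⁻¹ (inv_ne_zero hc0)), ?_, ?_⟩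
    · rw [← SetLike.mem_coe, Subgroup.mul_normal, Set.mem_mul]
      exact ⟨_, ⟨_, rfl⟩, _, ⟨_, rfl⟩, rfl⟩
    · have e : Matrix.GeneralLinearGroup.map F₀.subtype (Matrix.GeneralLinearGroup.mkOfDetNeZero M₀ hdet) *
          Units.map (Matrix.scalar ι : F →+* Matrix ι ι F).toMonoidHom (Units.mk0 c⁻¹ (inv_ne_zero hc0))
          = P⁻¹ * g * P := by
        apply Units.ext
        rw [Units.val_mul]
        have e1 : ((Matrix.GeneralLinearGroup.map F₀.subtype
            (Matrix.GeneralLinearGroup.mkOfDetNeZero M₀ hdet) : Matrix.GeneralLinearGroup ι F) : Matrix ι ι F)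
            = A := by
          ext i j
          rw [Matrix.GeneralLinearGroup.map_apply]
          rfl
        have e2 : ((Units.map (Matrix.scalar ι : F →+* Matrix ι ι F).toMonoidHom
            (Units.mk0 c⁻¹ (inv_ne_zero hc0)) : Matrix.GeneralLinearGroup ι F) : Matrix ι ι F)
            = c⁻¹ • (1 : Matrix ι ι F) := by
          simp [Matrix.smul_one_eq_diagonal]
        rw [e1, e2, Matrix.mul_smul, mul_one, hA, smul_smul, inv_mul_cancel₀ hc0, one_smul]
      rw [e]
      simp only [MulEquiv.coe_toMonoidHom, MulAut.conj_apply]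
      group

end general

section quadratic

variable {F : Type*} [Field F] [Fintype F] {n q : ℕ}

lemma card_subfield_eq (hF : Fintype.card F = q ^ 2) (F₀ : Subfield F)
    (hcard : Fintype.card F = Nat.card F₀ ^ 2) : Nat.card F₀ = q := by
  rw [hF] at hcard
  exact (Nat.pow_left_injective (n := 2) (by norm_num) hcard).symm

lemma mem_subfield_iff (hF : Fintype.card F = q ^ 2) (F₀ : Subfield F)
    (hcard : Fintype.card F = Nat.card F₀ ^ 2) (x : F) : x ∈ F₀ ↔ x ^ q = x := by
  classical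
  have hq : Nat.card F₀ = q := card_subfield_eq hF F₀ hcard
  have hq2 := two_le_of_card_sq hF
  have hfwd : ∀ x : F, x ∈ F₀ → x ^ q = x := by
    intro x hx
    have := FiniteField.pow_card (⟨x, hx⟩ : F₀)
    rw [← Nat.card_eq_fintype_card, hq] at this
    exact congrArg Subtype.val this
  refine ⟨hfwd x, fun hx => ?_⟩
  open Polynomial in
  set p : F[X] := X ^ q - X with hp
  have hp0 : p ≠ 0 := FiniteField.X_pow_card_sub_X_ne_zero F (by omega)
  have hdeg : p.natDegree = q := FiniteField.X_pow_card_sub_X_natDegree_eq F (by omega)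
  set T : Finset F := Finset.univ.filter (· ∈ F₀) with hT
  have hTS : T ⊆ p.roots.toFinset := by
    intro y hy
    rw [hT, Finset.mem_filter] at hy
    rw [Multiset.mem_toFinset, Polynomial.mem_roots hp0, Polynomial.IsRoot, hp]
    simp [hfwd y hy.2]
  have hTc : T.card = q := by
    rw [← hq, Nat.card_eq_fintype_card, hT, ← Fintype.card_subtype]
  have hSc : p.roots.toFinset.card ≤ T.card := by
    rw [hTc]
    exact (Multiset.toFinset_card_le _).trans ((Polynomial.card_roots' p).trans hdeg.le)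
  have hEq := Finset.eq_of_subset_of_card_le hTS hSc
  have : x ∈ T := by
    rw [hEq, Multiset.mem_toFinset, Polynomial.mem_roots hp0, Polynomial.IsRoot, hp]
    simp [hx]
  rw [hT, Finset.mem_filter] at this
  exact this.2

/-- the semilinear involution fixing the `F₀`-span of the columns of `P` -/
noncomputable def tauP (hF : Fintype.card F = q ^ 2) (P : Matrix.GeneralLinearGroup (Fin n) F) :
    (Fin n → F) →ₛₗ[frobQ hF] (Fin n → F) where
  toFun x := (P : Matrix (Fin n) (Fin n) F) *ᵥ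
    (fun i => (((P⁻¹ : Matrix.GeneralLinearGroup (Fin n) F) : Matrix (Fin n) (Fin n) F) *ᵥ x) i ^ q)
  map_add' x y := by
    rw [← Matrix.mulVec_add]
    congr 1
    funext i
    rw [Matrix.mulVec_add, Pi.add_apply, Pi.add_apply, add_pow_q hF]
  map_smul' c x := by
    rw [← Matrix.mulVec_smul]
    congr 1
    funext i
    rw [Matrix.mulVec_smul, Pi.smul_apply, Pi.smul_apply, smul_eq_mul, smul_eq_mul, mul_pow, frobQ_apply]

lemma tauP_apply (hF : Fintype.card F = q ^ 2) (P : Matrix.GeneralLinearGroup (Fin n) F) (x : Fin n → F) :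
    tauP hF P x = (P : Matrix (Fin n) (Fin n) F) *ᵥ
    (fun i => (((P⁻¹ : Matrix.GeneralLinearGroup (Fin n) F) : Matrix (Fin n) (Fin n) F) *ᵥ x) i ^ q) := rfl

lemma inv_mulVec_mulVec (P : Matrix.GeneralLinearGroup (Fin n) F) (u : Fin n → F) :
    ((P⁻¹ : Matrix.GeneralLinearGroup (Fin n) F) : Matrix (Fin n) (Fin n) F) *ᵥ
      ((P : Matrix (Fin n) (Fin n) F) *ᵥ u) = u := by
  rw [Matrix.mulVec_mulVec, ← Units.val_mul, inv_mul_cancel, Units.val_one, Matrix.one_mulVec]

lemma mulVec_inv_mulVec (P : Matrix.GeneralLinearGroup (Fin n) F) (u : Fin n → F) :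
    (P : Matrix (Fin n) (Fin n) F) *ᵥ
      (((P⁻¹ : Matrix.GeneralLinearGroup (Fin n) F) : Matrix (Fin n) (Fin n) F) *ᵥ u) = u := by
  rw [Matrix.mulVec_mulVec, ← Units.val_mul, mul_inv_cancel, Units.val_one, Matrix.one_mulVec]

lemma tauP_mulVec (hF : Fintype.card F = q ^ 2) (P : Matrix.GeneralLinearGroup (Fin n) F) (u : Fin n → F) :
    tauP hF P ((P : Matrix (Fin n) (Fin n) F) *ᵥ u) = (P : Matrix (Fin n) (Fin n) F) *ᵥ (fun i => u i ^ q) := by
  rw [tauP_apply, inv_mulVec_mulVec]

lemma tauP_invol (hF : Fintype.card F = q ^ 2) (P : Matrix.GeneralLinearGroup (Fin n) F) (x : Fin n → F) :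
    tauP hF P (tauP hF P x) = x := by
  rw [tauP_apply hF P x, tauP_mulVec]
  simp only [pow_q_pow_q hF]
  exact mulVec_inv_mulVec P x

lemma mulVec_injective (P : Matrix.GeneralLinearGroup (Fin n) F) {u w : Fin n → F}
    (h : (P : Matrix (Fin n) (Fin n) F) *ᵥ u = (P : Matrix (Fin n) (Fin n) F) *ᵥ w) : u = w := by
  rw [← inv_mulVec_mulVec P u, h, inv_mulVec_mulVec]

/-- the fixed points of `tauP` -/
lemma tauP_eq_self_iff (hF : Fintype.card F = q ^ 2) (F₀ : Subfield F)
    (hcard : Fintype.card F = Nat.card F₀ ^ 2) (P : Matrix.GeneralLinearGroup (Fin n) F) (x : Fin n → F) :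
    tauP hF P x = x ↔ ∃ u : Fin n → F, (∀ i, u i ∈ F₀) ∧ x = (P : Matrix (Fin n) (Fin n) F) *ᵥ u := by
  constructor
  · intro h
    refine ⟨((P⁻¹ : Matrix.GeneralLinearGroup (Fin n) F) : Matrix (Fin n) (Fin n) F) *ᵥ x, fun i => ?_,
      (mulVec_inv_mulVec P x).symm⟩
    rw [mem_subfield_iff hF F₀ hcard]
    have h1 : (P : Matrix (Fin n) (Fin n) F) *ᵥ
        (fun i => (((P⁻¹ : Matrix.GeneralLinearGroup (Fin n) F) : Matrix (Fin n) (Fin n) F) *ᵥ x) i ^ q) =
        (P : Matrix (Fin n) (Fin n) F) *ᵥ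
          (((P⁻¹ : Matrix.GeneralLinearGroup (Fin n) F) : Matrix (Fin n) (Fin n) F) *ᵥ x) := by
      rw [mulVec_inv_mulVec]; exact h
    exact congrFun (mulVec_injective P h1) i
  · rintro ⟨u, hu, rfl⟩
    rw [tauP_mulVec]
    congr 1
    funext i
    exact (mem_subfield_iff hF F₀ hcard _).1 (hu i)

end quadratic

end Cfsg.Agent.Lib.Helper99
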