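import Mathlib
import Cfsg.Agent.Lib.Helper83.ExtBase
import Cfsg.Agent.Lib.Helper94.Symp

set_option autoImplicit false
set_option linter.unusedSectionVars false
set_option linter.unusedVariables false

/-! Extension-field subgroups of symplectic groups (`Sp_{2m/r}(q^r).r < Sp_{2m}(q)`): base file.
`V` is a `K`-space with a `K`-bilinear alternating form `BK`; `ξ : K → F` is a non-zero `F`-linear map and
`fd BK ξ = ξ ∘ BK` is the `F`-form. -/

namespace Cfsg.Agent.Lib.Helper99.Spx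

open Module
open LinearMap (BilinForm)
open Cfsg.Agent.Lib.Helper83.Ext
open Cfsg.Agent.Lib.Helper94 (IsIsom st st_apply st_isIsom alt_swap exists_move)

variable {F K V : Type*} [Field F] [Field K] [Algebra F K] [AddCommGroup V] [Module F V] [Module K V]
  [IsScalarTower F K V]

lemma BK_smulF_left (BK : BilinForm K V) (c : F) (x y : V) : BK (c • x) y = c • BK x y := by
  rw [← algebraMap_smul K c x, map_smul, LinearMap.smul_apply, smul_eq_mul, Algebra.smul_def]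

lemma BK_smulF_right (BK : BilinForm K V) (c : F) (x y : V) : BK x (c • y) = c • BK x y := by
  rw [← algebraMap_smul K c y, map_smul, smul_eq_mul, Algebra.smul_def]

/-- the `F`-bilinear form `ξ ∘ BK`. -/
noncomputable def fd (BK : BilinForm K V) (ξ : K →ₗ[F] F) : BilinForm F V :=
  LinearMap.mk₂ F (fun x y => ξ (BK x y))
    (by intro a b c; simp)
    (by intro c a b; rw [BK_smulF_left, map_smul])
    (by intro a b c; simp)
    (by intro c a b; rw [BK_smulF_right, map_smul])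

@[simp] lemma fd_apply (BK : BilinForm K V) (ξ : K →ₗ[F] F) (x y : V) : fd BK ξ x y = ξ (BK x y) := rfl

lemma fd_isAlt {BK : BilinForm K V} (hA : BK.IsAlt) (ξ : K →ₗ[F] F) : (fd BK ξ).IsAlt := by
  intro x
  rw [fd_apply, hA x, map_zero]

/-- `ξ ≠ 0` separates points of `K` after multiplication. -/
lemma eq_zero_of_xi {ξ : K →ₗ[F] F} (hξ : ξ ≠ 0) {a : K} (h : ∀ t, ξ (t * a) = 0) : a = 0 := by
  by_contra ha
  apply hξ
  ext k
  have := h (k / a)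
  rwa [div_mul_cancel₀ _ ha] at this

lemma eq_of_xi {ξ : K →ₗ[F] F} (hξ : ξ ≠ 0) {a b : K} (h : ∀ t, ξ (t * a) = ξ (t * b)) : a = b := by
  rw [← sub_eq_zero]
  apply eq_zero_of_xi hξ
  intro t
  rw [mul_sub, map_sub, h, sub_self]

lemma exists_xi_ne {ξ : K →ₗ[F] F} (hξ : ξ ≠ 0) {a : K} (ha : a ≠ 0) : ∃ t, ξ (t * a) ≠ 0 := by
  by_contra hcon
  push Not at hcon
  exact ha (eq_zero_of_xi hξ hcon)

lemma fd_nondegenerate {BK : BilinForm K V} (hA : BK.IsAlt) (hN : BK.Nondegenerate) {ξ : K →ₗ[F] F}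
    (hξ : ξ ≠ 0) : (fd BK ξ).Nondegenerate := by
  have key : ∀ x : V, (∀ y, fd BK ξ x y = 0) → x = 0 := by
    intro x hx
    apply hN.1 x
    intro y
    apply eq_zero_of_xi hξ
    intro t
    have := hx (t • y)
    rwa [fd_apply, map_smul, smul_eq_mul] at this
  refine ⟨key, ?_⟩
  intro y hy
  apply key
  intro x
  rw [alt_swap (fd_isAlt hA ξ), hy, neg_zero]

/-- `x ↦ ρ (BK x v) • v`. -/
noncomputable def TT (BK : BilinForm K V) (v : V) (ρ : K →ₗ[F] K) : Module.End F V where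
  toFun x := ρ (BK x v) • v
  map_add' := by intro x y; simp [add_smul]
  map_smul' := by
    intro c x
    rw [BK_smulF_left, map_smul, RingHom.id_apply, smul_assoc]

@[simp] lemma TT_apply (BK : BilinForm K V) (v : V) (ρ : K →ₗ[F] K) (x : V) :
    TT BK v ρ x = ρ (BK x v) • v := rfl

lemma TT_mul_of_perp (BK : BilinForm K V) {v v' : V} (h : BK v' v = 0) (ρ ρ' : K →ₗ[F] K) :
    TT BK v ρ * TT BK v' ρ' = 0 := by
  ext x
  simp [h]

lemma TT_mul_self {BK : BilinForm K V} (hA : BK.IsAlt) (v : V) (ρ ρ' : K →ₗ[F] K) :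
    TT BK v ρ * TT BK v ρ' = 0 := TT_mul_of_perp BK (hA v) ρ ρ'

lemma TT_add (BK : BilinForm K V) (v : V) (ρ ρ' : K →ₗ[F] K) :
    TT BK v (ρ + ρ') = TT BK v ρ + TT BK v ρ' := by
  ext x; simp [add_smul]

lemma TT_neg (BK : BilinForm K V) (v : V) (ρ : K →ₗ[F] K) : TT BK v (-ρ) = - TT BK v ρ := by
  ext x; simp

lemma TT_sub (BK : BilinForm K V) (v : V) (ρ ρ' : K →ₗ[F] K) :
    TT BK v (ρ - ρ') = TT BK v ρ - TT BK v ρ' := by
  ext x; simp [sub_smul]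

lemma TT_zero (BK : BilinForm K V) (v : V) : TT BK v (0 : K →ₗ[F] K) = 0 := by
  ext x; simp

lemma TT_smulF (BK : BilinForm K V) (v : V) (c : F) (ρ : K →ₗ[F] K) :
    TT BK v (c • ρ) = c • TT BK v ρ := by
  ext x; simp

/-- scaling the vector. -/
lemma TT_smul_vec (BK : BilinForm K V) (v : V) (α : K) (ρ : K →ₗ[F] K) :
    TT BK (α • v) ρ = TT BK v (LinearMap.mulLeft F α ∘ₗ ρ ∘ₗ LinearMap.mulLeft F α) := by
  ext x
  simp [smul_smul, mul_comm]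

/-- the rank one map `b ↦ ξ (c b) c`; `1 + TT BK v (l • br ξ 1)` is the `F`-transvection
`x ↦ x + l ξ(BK x v) v`. -/
noncomputable def br (ξ : K →ₗ[F] F) (c : K) : K →ₗ[F] K :=
  (ξ ∘ₗ LinearMap.mulLeft F c).smulRight c

@[simp] lemma br_apply (ξ : K →ₗ[F] F) (c b : K) : br ξ c b = ξ (c * b) • c := by
  simp [br]

lemma mul_br_mul (ξ : K →ₗ[F] F) (α c : K) :
    LinearMap.mulLeft F α ∘ₗ br ξ c ∘ₗ LinearMap.mulLeft F α = br ξ (α * c) := by
  ext b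
  simp [mul_comm, mul_left_comm]

lemma TT_smul_br (BK : BilinForm K V) (ξ : K →ₗ[F] F) (v : V) (α c : K) (l : F) :
    TT BK (α • v) (l • br ξ c) = TT BK v (l • br ξ (α * c)) := by
  rw [TT_smulF, TT_smulF, TT_smul_vec, mul_br_mul]

/-- standing hypotheses: `G` is a group of isometries of `fd BK ξ` containing all the `K`-semilinear ones. -/
structure Hyp (BK : BilinForm K V) (ξ : K →ₗ[F] F) (G : Subgroup (V ≃ₗ[F] V)) : Prop where
  alt : BK.IsAlt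
  nd : BK.Nondegenerate
  xi : ξ ≠ 0
  iso : ∀ g ∈ G, IsIsom (fd BK ξ) g
  semi : ∀ g : V ≃ₗ[F] V, IsSemi K g → IsIsom (fd BK ξ) g → g ∈ G

/-- `G` contains a non-trivial `F`-transvection. -/
def HasSt (BK : BilinForm K V) (ξ : K →ₗ[F] F) (G : Subgroup (V ≃ₗ[F] V)) : Prop :=
  ∃ (v : V) (l : F), v ≠ 0 ∧ l ≠ 0 ∧ 1 + TT BK v (l • br ξ 1) ∈ MS G

/-- `G` contains all `F`-transvections. -/
def AllSt (BK : BilinForm K V) (ξ : K →ₗ[F] F) (G : Subgroup (V ≃ₗ[F] V)) : Prop :=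
  ∀ (v : V) (l : F), 1 + TT BK v (l • br ξ 1) ∈ MS G

variable {BK : BilinForm K V} {ξ : K →ₗ[F] F} {G : Subgroup (V ≃ₗ[F] V)}

lemma st_coe (hA : BK.IsAlt) (v : V) (l : F) :
    ((st (fd BK ξ) (fd_isAlt hA ξ) v l : V ≃ₗ[F] V) : V →ₗ[F] V) = 1 + TT BK v (l • br ξ 1) := by
  ext x
  simp [st_apply, mul_smul]

lemma T_zero (v : V) : 1 + TT BK v (0 : K →ₗ[F] K) ∈ MS G := by
  rw [TT_zero, add_zero]; exact MS_one

lemma T_add (hA : BK.IsAlt) {v : V} {ρ ρ' : K →ₗ[F] K} (h : 1 + TT BK v ρ ∈ MS G)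
    (h' : 1 + TT BK v ρ' ∈ MS G) : 1 + TT BK v (ρ + ρ') ∈ MS G := by
  have := MS_mul h h'
  have e : (1 + TT BK v ρ) * (1 + TT BK v ρ') = 1 + TT BK v (ρ + ρ') + TT BK v ρ * TT BK v ρ' := by
    rw [TT_add]; noncomm_ring
  rwa [e, TT_mul_self hA, add_zero] at this

lemma T_neg (hA : BK.IsAlt) {v : V} {ρ : K →ₗ[F] K} (h : 1 + TT BK v ρ ∈ MS G) :
    1 + TT BK v (-ρ) ∈ MS G := by
  rw [TT_neg, ← sub_eq_add_neg]
  exact MS_sub_of_sq h (TT_mul_self hA v ρ ρ)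

lemma T_sub (hA : BK.IsAlt) {v : V} {ρ ρ' : K →ₗ[F] K} (h : 1 + TT BK v ρ ∈ MS G)
    (h' : 1 + TT BK v ρ' ∈ MS G) : 1 + TT BK v (ρ - ρ') ∈ MS G := by
  rw [sub_eq_add_neg]
  exact T_add hA h (T_neg hA h')

/-- a `K`-linear isometry of `BK` is an isometry of `fd BK ξ`. -/
lemma isIsom_restrict {e : V ≃ₗ[K] V} (he : IsIsom BK e) : IsIsom (fd BK ξ) (e.restrictScalars F) := by
  intro x y
  simp only [fd_apply, LinearEquiv.restrictScalars_apply]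
  rw [he]

lemma mem_of_kisom (hyp : Hyp BK ξ G) {e : V ≃ₗ[K] V} (he : IsIsom BK e) : e.restrictScalars F ∈ G :=
  hyp.semi _ (isSemi_restrictScalars e) (isIsom_restrict he)

/-- the `K`-transvections `x ↦ x + c BK(x,v) v` lie in `G`. -/
lemma T_mulLeft (hyp : Hyp BK ξ G) (v : V) (c : K) : 1 + TT BK v (LinearMap.mulLeft F c) ∈ MS G := by
  refine ⟨_, mem_of_kisom hyp (st_isIsom BK hyp.alt v c), ?_⟩
  ext x
  simp [st_apply]

/-- conjugating `1 + TT v ρ` by a `K`-linear isometry. -/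
lemma T_move (hyp : Hyp BK ξ G) {e : V ≃ₗ[K] V} (he : IsIsom BK e) {v : V} {ρ : K →ₗ[F] K}
    (h : 1 + TT BK v ρ ∈ MS G) : 1 + TT BK (e v) ρ ∈ MS G := by
  have := MS_conj (mem_of_kisom hyp he) h
  convert this using 1
  ext x
  have h1 : BK x (e v) = BK (e.symm x) v := by
    conv_lhs => rw [← e.apply_symm_apply x]
    rw [he]
  simp [h1]

/-- the isometry group of `BK` is transitive on non-zero vectors. -/
lemma exists_kmove [FiniteDimensional K V] (hA : BK.IsAlt) (hN : BK.Nondegenerate) {x y : V} (hx : x ≠ 0)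
    (hy : y ≠ 0) : ∃ e : V ≃ₗ[K] V, IsIsom BK e ∧ e x = y := by
  obtain ⟨t, -, ht, -, hxy⟩ := exists_move hA hN (⊤ : Subgroup (V ≃ₗ[K] V)) ⊥ (fun _ _ _ => trivial) y x
    (by simpa using hy) (by simpa using hx) (by intro u hu; simp [(Submodule.mem_bot K).1 hu])
  exact ⟨t, ht, hxy⟩

/-- the set of `ρ` with `1 + TT v ρ ∈ G` does not depend on `v ≠ 0`. -/
lemma T_trans [FiniteDimensional K V] (hyp : Hyp BK ξ G) {x y : V} (hx : x ≠ 0) (hy : y ≠ 0)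
    {ρ : K →ₗ[F] K} (h : 1 + TT BK x ρ ∈ MS G) : 1 + TT BK y ρ ∈ MS G := by
  obtain ⟨e, he, rfl⟩ := exists_kmove hyp.alt hyp.nd hx hy
  exact T_move hyp he h

/-- closure under `ρ ↦ α ρ α`. -/
lemma T_scale [FiniteDimensional K V] (hyp : Hyp BK ξ G) {v : V} (hv : v ≠ 0) {α : K} (hα : α ≠ 0)
    {ρ : K →ₗ[F] K} (h : 1 + TT BK v ρ ∈ MS G) :
    1 + TT BK v (LinearMap.mulLeft F α ∘ₗ ρ ∘ₗ LinearMap.mulLeft F α) ∈ MS G := by
  rw [← TT_smul_vec]
  exact T_trans hyp hv (smul_ne_zero hα hv) h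

/-- conjugating an `F`-transvection by an element of `G`. -/
lemma T_conj_br (hyp : Hyp BK ξ G) {g : V ≃ₗ[F] V} (hg : g ∈ G) (v : V) (l : F) :
    (g : V →ₗ[F] V) ∘ₗ (1 + TT BK v (l • br ξ 1)) ∘ₗ (g.symm : V →ₗ[F] V)
      = 1 + TT BK (g v) (l • br ξ 1) := by
  ext x
  have h1 : ξ (BK x (g v)) = ξ (BK (g.symm x) v) := by
    have := hyp.iso g hg (g.symm x) v
    simpa using this
  simp [h1]

/-- the output of step 1: a square-zero `A` with `1 + l A ∈ G`, acting on the `K`-point `K v` by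
`t v ↦ ξ (n₀ t) v`. -/
def Out (BK : BilinForm K V) (ξ : K →ₗ[F] F) (G : Subgroup (V ≃ₗ[F] V)) (v : V) (n₀ : K) : Prop :=
  v ≠ 0 ∧ n₀ ≠ 0 ∧ ξ n₀ = 0 ∧ ∃ A : Module.End F V, A * A = 0 ∧ (∀ l : F, 1 + l • A ∈ MS G) ∧
    ∀ t : K, A (t • v) = ξ (n₀ * t) • v

/-- `b ↦ l ξ(b) y + (l ξ(y b) + l² ξ(n₀ y) ξ(b)) 1` -/
noncomputable def Wr (ξ : K →ₗ[F] F) (n₀ : K) (l : F) (y : K) : K →ₗ[F] K :=
  (l • ξ).smulRight y + (l • (ξ ∘ₗ LinearMap.mulLeft F y) + (l ^ 2 * ξ (n₀ * y)) • ξ).smulRight 1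

lemma Wr_apply (ξ : K →ₗ[F] F) (n₀ : K) (l : F) (y b : K) :
    Wr ξ n₀ l y b = (l * ξ b) • y + (l * ξ (y * b) + l ^ 2 * ξ (n₀ * y) * ξ b) • (1 : K) := by
  simp [Wr]

/-- the relation `τ_x τ_y ∈ G` (`τ_x = 1 + TT BK x (br ξ 1)` the `F`-transvection `z ↦ z + ξ(BK z x) x`). -/
def Rel (BK : BilinForm K V) (ξ : K →ₗ[F] F) (G : Subgroup (V ≃ₗ[F] V)) (x y : V) : Prop :=
  (1 + TT BK x (br ξ 1)) * (1 + TT BK y (br ξ 1)) ∈ MS G

end Cfsg.Agent.Lib.Helper99.Spx
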