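import Mathlib

set_option autoImplicit false
set_option linter.unusedSimpArgs false
set_option linter.unusedVariables false
set_option linter.unusedSectionVars false

/-! Basic calculus for the tensor decomposition `F^(A × B) = F^A ⊗ F^B`:
rectangular matrices `col A y = 1 ⊗ y`, `row A ψ = 1 ⊗ ψ`. -/

namespace Cfsg.Agent.Lib.Helper99.Tens

open Matrix
open scoped Kronecker

variable {A B : Type} [Fintype A] [DecidableEq A] [Fintype B] [DecidableEq B] {F : Type*} [Field F]

/-- `1_A ⊗ y`. -/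
def col (A : Type) [DecidableEq A] {B : Type} {F : Type*} [Field F] (y : B → F) : Matrix (A × B) A F := fun p j => if p.1 = j then y p.2 else 0

/-- `1_A ⊗ ψ`. -/
def row (A : Type) [DecidableEq A] {B : Type} {F : Type*} [Field F] (ψ : B → F) : Matrix A (A × B) F := fun i p => if i = p.1 then ψ p.2 else 0

omit [Fintype A] [Fintype B] [DecidableEq B] in
lemma col_apply (y : B → F) (i j : A) (t : B) : col A y (i, t) j = if i = j then y t else 0 := rfl

omit [Fintype A] [Fintype B] [DecidableEq B] in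
lemma row_apply (ψ : B → F) (i j : A) (t : B) : row A ψ i (j, t) = if i = j then ψ t else 0 := rfl

omit [DecidableEq B] in
lemma row_mul_col (ψ y : B → F) : row A ψ * col A y = (ψ ⬝ᵥ y) • (1 : Matrix A A F) := by
  ext i j
  simp only [Matrix.mul_apply, Fintype.sum_prod_type, row_apply, col_apply, Matrix.smul_apply,
    Matrix.one_apply, smul_eq_mul, dotProduct]
  by_cases hij : i = j
  · subst hij
    rw [Finset.sum_eq_single i]
    · simp
    · intro k _ hk
      simp [Ne.symm hk]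
    · simp
  · rw [Finset.sum_eq_zero]
    · simp [hij]
    · intro k _
      by_cases hk : i = k
      · subst hk
        simp [hij]
      · simp [hk]

omit [DecidableEq B] in
lemma row_col_assoc {m : Type*} (ψ y : B → F) (X : Matrix A m F) :
    row A ψ * (col A y * X) = (ψ ⬝ᵥ y) • X := by
  rw [← Matrix.mul_assoc, row_mul_col, Matrix.smul_mul, Matrix.one_mul]

omit [Fintype B] [DecidableEq B] in
lemma col_mul_apply {m : Type*} (y : B → F) (X : Matrix A m F) (i : A) (t : B) (k : m) :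
    (col A y * X) (i, t) k = y t * X i k := by
  simp only [Matrix.mul_apply, col_apply]
  rw [Finset.sum_eq_single i]
  · simp
  · intro j _ hj
    simp [Ne.symm hj]
  · simp

omit [Fintype B] [DecidableEq B] in
lemma mul_row_apply {m : Type*} (ψ : B → F) (X : Matrix m A F) (k : m) (j : A) (u : B) :
    (X * row A ψ) k (j, u) = X k j * ψ u := by
  simp only [Matrix.mul_apply, row_apply]
  rw [Finset.sum_eq_single j]
  · simp
  · intro i _ hi
    simp [hi]
  · simp

omit [Fintype B] [DecidableEq B] in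
lemma col_mul_row (y ψ : B → F) (κ : Matrix A A F) :
    col A y * κ * row A ψ = κ ⊗ₖ vecMulVec y ψ := by
  ext ⟨i, t⟩ ⟨j, u⟩
  rw [mul_row_apply, col_mul_apply, Matrix.kroneckerMap_apply, vecMulVec_apply]
  ring

omit [DecidableEq B] in
lemma kron_mul_col (α : Matrix A A F) (β : Matrix B B F) (y : B → F) :
    (α ⊗ₖ β) * col A y = col A (β *ᵥ y) * α := by
  ext ⟨i, t⟩ j
  rw [col_mul_apply]
  simp only [Matrix.mul_apply, Fintype.sum_prod_type, Matrix.kroneckerMap_apply, col_apply,
    Matrix.mulVec, dotProduct]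
  rw [Finset.sum_eq_single j]
  · simp [Finset.mul_sum, Finset.sum_mul, mul_comm, mul_assoc, mul_left_comm]
  · intro k _ hk
    simp [hk]
  · simp

omit [DecidableEq B] in
lemma row_mul_kron (α : Matrix A A F) (β : Matrix B B F) (ψ : B → F) :
    row A ψ * (α ⊗ₖ β) = α * row A (ψ ᵥ* β) := by
  ext i ⟨j, u⟩
  rw [mul_row_apply]
  simp only [Matrix.mul_apply, Fintype.sum_prod_type, Matrix.kroneckerMap_apply, row_apply,
    Matrix.vecMul, dotProduct]
  rw [Finset.sum_eq_single i]
  · simp [Finset.mul_sum, Finset.sum_mul, mul_comm, mul_assoc, mul_left_comm]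
  · intro k _ hk
    simp [Ne.symm hk]
  · simp

omit [Fintype A] [Fintype B] [DecidableEq B] in
lemma col_add (y y' : B → F) : (col A (y + y') : Matrix (A × B) A F) = col A y + col A y' := by
  ext ⟨i, t⟩ j
  simp only [col_apply, Matrix.add_apply, Pi.add_apply]
  split_ifs <;> simp

omit [Fintype A] [Fintype B] [DecidableEq B] in
lemma col_smul (c : F) (y : B → F) : (col A (c • y) : Matrix (A × B) A F) = c • col A y := by
  ext ⟨i, t⟩ j
  simp only [col_apply, Matrix.smul_apply, Pi.smul_apply]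
  split_ifs <;> simp

omit [Fintype A] [Fintype B] [DecidableEq B] in
lemma col_zero : (col A (0 : B → F) : Matrix (A × B) A F) = 0 := by
  ext ⟨i, t⟩ j
  simp [col_apply]

omit [Fintype A] [Fintype B] [DecidableEq B] in
lemma row_add (y y' : B → F) : (row A (y + y') : Matrix A (A × B) F) = row A y + row A y' := by
  ext i ⟨j, t⟩
  simp only [row_apply, Matrix.add_apply, Pi.add_apply]
  split_ifs <;> simp

omit [Fintype A] [Fintype B] [DecidableEq B] in
lemma row_smul (c : F) (y : B → F) : (row A (c • y) : Matrix A (A × B) F) = c • row A y := by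
  ext i ⟨j, t⟩
  simp only [row_apply, Matrix.smul_apply, Pi.smul_apply]
  split_ifs <;> simp

omit [Fintype A] [Fintype B] [DecidableEq B] in
lemma row_zero : (row A (0 : B → F) : Matrix A (A × B) F) = 0 := by
  ext i ⟨j, t⟩
  simp [row_apply]

lemma sum_col_row :
    ∑ u : B, (col A (Pi.single u (1 : F)) : Matrix (A × B) A F) * row A (Pi.single u (1 : F)) = 1 := by
  ext ⟨i, t⟩ ⟨j, u⟩
  rw [Matrix.sum_apply]
  simp only [col_mul_apply, row_apply, Matrix.one_apply, Prod.mk.injEq, Pi.single_apply]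
  by_cases hij : i = j
  · subst hij
    by_cases htu : t = u
    · subst htu
      simp
    · simp [htu]
  · simp [hij]

/-- expansion of a "row type" matrix. -/
lemma eq_sum_mul_col_row {m : Type*} (R : Matrix m (A × B) F) :
    R = ∑ u : B, (R * col A (Pi.single u (1 : F))) * row A (Pi.single u (1 : F)) := by
  conv_lhs => rw [← Matrix.mul_one R, ← sum_col_row, Matrix.mul_sum]
  simp only [Matrix.mul_assoc]

lemma eq_sum_col_row_mul {m : Type*} (C : Matrix (A × B) m F) :
    C = ∑ u : B, col A (Pi.single u (1 : F)) * (row A (Pi.single u (1 : F)) * C) := by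
  conv_lhs => rw [← Matrix.one_mul C, ← sum_col_row, Matrix.sum_mul]
  simp only [Matrix.mul_assoc]

lemma row_eq_sum (ψ : B → F) :
    (row A ψ : Matrix A (A × B) F) = ∑ u : B, ψ u • row A (Pi.single u (1 : F)) := by
  ext i ⟨j, t⟩
  rw [Matrix.sum_apply]
  simp only [Matrix.smul_apply, row_apply, Pi.single_apply, smul_eq_mul]
  by_cases hij : i = j
  · simp [hij]
  · simp [hij]

lemma col_eq_sum (y : B → F) :
    (col A y : Matrix (A × B) A F) = ∑ u : B, y u • col A (Pi.single u (1 : F)) := by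
  ext ⟨i, t⟩ j
  rw [Matrix.sum_apply]
  simp only [Matrix.smul_apply, col_apply, Pi.single_apply, smul_eq_mul]
  by_cases hij : i = j
  · simp [hij]
  · simp [hij]

omit [Fintype A] [Fintype B] [DecidableEq B] in
lemma col_eq_zero [Nonempty A] {y : B → F} (h : (col A y : Matrix (A × B) A F) = 0) : y = 0 := by
  obtain ⟨i⟩ := ‹Nonempty A›
  ext t
  have := congrFun (congrFun h (i, t)) i
  simpa [col_apply] using this

omit [Fintype A] [Fintype B] [DecidableEq B] in
lemma row_eq_zero [Nonempty A] {y : B → F} (h : (row A y : Matrix A (A × B) F) = 0) : y = 0 := by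
  obtain ⟨i⟩ := ‹Nonempty A›
  ext t
  have := congrFun (congrFun h i) (i, t)
  simpa [row_apply] using this

/-! ### the set of matrices of a subgroup -/

section MS

variable {ι : Type} [Fintype ι] [DecidableEq ι]

/-- matrices of the elements of a subgroup. -/
def MS (G : Subgroup (GL ι F)) : Set (Matrix ι ι F) := {X | ∃ g ∈ G, (g : Matrix ι ι F) = X}

variable {G : Subgroup (GL ι F)}

lemma MS_one : (1 : Matrix ι ι F) ∈ MS G := ⟨1, G.one_mem, rfl⟩

lemma MS_mul {X Y : Matrix ι ι F} (hX : X ∈ MS G) (hY : Y ∈ MS G) : X * Y ∈ MS G := by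
  obtain ⟨g, hg, rfl⟩ := hX
  obtain ⟨h, hh, rfl⟩ := hY
  exact ⟨g * h, G.mul_mem hg hh, rfl⟩

lemma MS_inv {X Y : Matrix ι ι F} (hX : X ∈ MS G) (h : X * Y = 1) : Y ∈ MS G := by
  obtain ⟨g, hg, rfl⟩ := hX
  refine ⟨g⁻¹, G.inv_mem hg, ?_⟩
  calc ((g⁻¹ : GL ι F) : Matrix ι ι F) = ((g⁻¹ : GL ι F) : Matrix ι ι F) * ((g : Matrix ι ι F) * Y) := by
        rw [h, mul_one]
    _ = Y := by rw [← mul_assoc, ← Units.val_mul, inv_mul_cancel, Units.val_one, one_mul]

lemma MS_coe {g : GL ι F} (hg : g ∈ G) : (g : Matrix ι ι F) ∈ MS G := ⟨g, hg, rfl⟩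

lemma MS_coe_inv {g : GL ι F} (hg : g ∈ G) : ((g⁻¹ : GL ι F) : Matrix ι ι F) ∈ MS G :=
  ⟨g⁻¹, G.inv_mem hg, rfl⟩

lemma unip_mul {N : Matrix ι ι F} (h : N * N = 0) : (1 + N) * (1 - N) = 1 := by
  have : (1 + N) * (1 - N) = 1 - N * N := by noncomm_ring
  rw [this, h, sub_zero]

lemma MS_sub {N : Matrix ι ι F} (h : N * N = 0) (hN : 1 + N ∈ MS G) : 1 - N ∈ MS G :=
  MS_inv hN (unip_mul h)

/-- commutator formula. -/
lemma MS_comm {M N : Matrix ι ι F} (hM : M * M = 0) (hN : N * N = 0) (hNM : N * M = 0)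
    (h1 : 1 + M ∈ MS G) (h2 : 1 + N ∈ MS G) : 1 + M * N ∈ MS G := by
  have e : (1 + M) * (1 + N) * (1 - M) * (1 - N) = 1 + M * N := by
    have e1 : (1 + N) * (1 - M) = 1 + N - M := by
      have : (1 + N) * (1 - M) = 1 + N - M - N * M := by noncomm_ring
      rw [this, hNM, sub_zero]
    have e2 : (1 + M) * (1 + N - M) = 1 + N + M * N := by
      have : (1 + M) * (1 + N - M) = 1 + N + M * N - M * M := by noncomm_ring
      rw [this, hM, sub_zero]
    have e3 : (1 + N + M * N) * (1 - N) = 1 + M * N := by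
      have : (1 + N + M * N) * (1 - N) = 1 + M * N - N * N - M * (N * N) := by noncomm_ring
      rw [this, hN, mul_zero, sub_zero, sub_zero]
    rw [mul_assoc (1 + M), e1, e2, e3]
  rw [← e]
  exact MS_mul (MS_mul (MS_mul h1 h2) (MS_sub hM h1)) (MS_sub hN h2)

lemma MS_conj {X X' N : Matrix ι ι F} (hX : X ∈ MS G) (hXX : X * X' = 1) (hN : 1 + N ∈ MS G) :
    1 + X * N * X' ∈ MS G := by
  have : 1 + X * N * X' = X * (1 + N) * X' := by
    rw [mul_add, add_mul, mul_one, hXX]
  rw [this]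
  exact MS_mul (MS_mul hX hN) (MS_inv hX hXX)

lemma MS_add {M N : Matrix ι ι F} (hMN : M * N = 0)
    (h1 : 1 + M ∈ MS G) (h2 : 1 + N ∈ MS G) : 1 + (M + N) ∈ MS G := by
  have : 1 + (M + N) = (1 + M) * (1 + N) := by
    have : (1 + M) * (1 + N) = 1 + (M + N) + M * N := by noncomm_ring
    rw [this, hMN, add_zero]
  rw [this]
  exact MS_mul h1 h2

end MS

/-! ### existence lemmas for dot products -/

section dot

variable {n : Type} [Fintype n] [DecidableEq n]

lemma exists_dot_one_zero {y u : n → F} (h : ∀ c : F, y ≠ c • u) :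
    ∃ ψ : n → F, ψ ⬝ᵥ y = 1 ∧ ψ ⬝ᵥ u = 0 := by
  by_cases hu : u = 0
  · have hy : y ≠ 0 := by
      intro h0
      exact h 0 (by rw [h0, zero_smul])
    obtain ⟨i, hi⟩ := Function.ne_iff.1 hy
    refine ⟨Pi.single i (y i)⁻¹, ?_, ?_⟩
    · rw [single_dotProduct]
      exact inv_mul_cancel₀ hi
    · rw [hu, dotProduct_zero]
  · obtain ⟨j, hj⟩ := Function.ne_iff.1 hu
    have hj' : u j ≠ 0 := hj
    have hy' : y - (y j / u j) • u ≠ 0 := by
      intro h0
      exact h _ (sub_eq_zero.1 h0)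
    obtain ⟨i, hi⟩ := Function.ne_iff.1 hy'
    have hi' : y i - y j / u j * u i ≠ 0 := by simpa using hi
    refine ⟨(y i - y j / u j * u i)⁻¹ • (Pi.single i 1 - (u i / u j) • Pi.single j 1), ?_, ?_⟩
    · rw [smul_dotProduct, sub_dotProduct, smul_dotProduct, single_dotProduct, single_dotProduct,
        smul_eq_mul, smul_eq_mul, one_mul, one_mul]
      have : y i - u i / u j * y j = y i - y j / u j * u i := by
        field_simp
      rw [this]
      exact inv_mul_cancel₀ hi'
    · rw [smul_dotProduct, sub_dotProduct, smul_dotProduct, single_dotProduct, single_dotProduct,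
        smul_eq_mul, smul_eq_mul, one_mul, one_mul]
      have : u i - u i / u j * u j = 0 := by
        field_simp
        ring
      rw [this, mul_zero]

lemma exists_dot_one {y : n → F} (hy : y ≠ 0) : ∃ ψ : n → F, ψ ⬝ᵥ y = 1 := by
  obtain ⟨ψ, h, _⟩ := exists_dot_one_zero (y := y) (u := 0) (fun c => by rwa [smul_zero])
  exact ⟨ψ, h⟩

/-- kernel of a linear map into a smaller space. -/
lemma exists_ker {W : Type*} [AddCommGroup W] [Module F W] [FiniteDimensional F W]
    (L : (n → F) →ₗ[F] W) (h : Module.finrank F W < Fintype.card n) : ∃ u : n → F, u ≠ 0 ∧ L u = 0 := by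
  have := LinearMap.ker_ne_bot_of_finrank_lt (f := L) (by rwa [Module.finrank_fintype_fun_eq_card])
  obtain ⟨u, hu, hu0⟩ := Submodule.exists_mem_ne_zero_of_ne_bot this
  exact ⟨u, hu0, hu⟩

lemma exists_perp_two (h3 : 3 ≤ Fintype.card n) (ψ₀ ψ₁ : n → F) :
    ∃ u : n → F, u ≠ 0 ∧ ψ₀ ⬝ᵥ u = 0 ∧ ψ₁ ⬝ᵥ u = 0 := by
  let L : (n → F) →ₗ[F] (F × F) :=
    LinearMap.prod (dotProductBilin F F ψ₀) (dotProductBilin F F ψ₁)
  obtain ⟨u, hu, hL⟩ := exists_ker L (by rw [Module.finrank_prod, Module.finrank_self]; omega)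
  refine ⟨u, hu, ?_, ?_⟩
  · exact congrArg Prod.fst hL
  · exact congrArg Prod.snd hL

lemma exists_perp_not_span (h3 : 3 ≤ Fintype.card n) (ψ y : n → F) :
    ∃ u : n → F, ψ ⬝ᵥ u = 0 ∧ ∀ c : F, u ≠ c • y := by
  by_cases hy : y = 0
  · obtain ⟨u, hu, h1, _⟩ := exists_perp_two h3 ψ ψ
    exact ⟨u, h1, fun c => by rwa [hy, smul_zero]⟩
  · obtain ⟨η, hη⟩ := exists_dot_one hy
    obtain ⟨u, hu, h1, h2⟩ := exists_perp_two h3 ψ η
    refine ⟨u, h1, fun c hc => hu ?_⟩
    rw [hc, dotProduct_smul, hη, smul_eq_mul, mul_one] at h2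
    rw [hc, h2, zero_smul]

end dot

end Cfsg.Agent.Lib.Helper99.Tens
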