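import Mathlib
import Cfsg.Agent.Lib.Helper99.TensA

set_option autoImplicit false
set_option linter.unusedSimpArgs false
set_option linter.unusedVariables false
set_option linter.unusedSectionVars false

/-! Step 1: the algebra `𝒦 = {κ : 1 + κ ⊗ yψ ∈ G}`. -/

namespace Cfsg.Agent.Lib.Helper99.Tens

open Matrix
open scoped Kronecker

variable {A B : Type} [Fintype A] [DecidableEq A] [Fintype B] [DecidableEq B] {F : Type*} [Field F]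

/-- `G` contains `SL(A) ⊗ SL(B)`. -/
def HasH (G : Subgroup (GL (A × B) F)) : Prop :=
  ∀ (α : Matrix A A F) (β : Matrix B B F), α.det = 1 → β.det = 1 → α ⊗ₖ β ∈ MS G

/-- `κ ⊗ yψ`. -/
def nn (y ψ : B → F) (κ : Matrix A A F) : Matrix (A × B) (A × B) F := col A y * κ * row A ψ

lemma nn_mul (y ψ y' ψ' : B → F) (κ κ' : Matrix A A F) :
    nn y ψ κ * nn y' ψ' κ' = (ψ ⬝ᵥ y') • nn y ψ' (κ * κ') := by
  unfold nn
  simp only [Matrix.mul_assoc, row_col_assoc, Matrix.mul_smul]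

lemma nn_add (y ψ : B → F) (κ κ' : Matrix A A F) : nn y ψ (κ + κ') = nn y ψ κ + nn y ψ κ' := by
  unfold nn
  rw [Matrix.mul_add, Matrix.add_mul]

lemma nn_neg (y ψ : B → F) (κ : Matrix A A F) : nn y ψ (-κ) = - nn y ψ κ := by
  unfold nn
  rw [Matrix.mul_neg, Matrix.neg_mul]

lemma nn_smul (y ψ : B → F) (c : F) (κ : Matrix A A F) : nn y ψ (c • κ) = c • nn y ψ κ := by
  unfold nn
  rw [Matrix.mul_smul, Matrix.smul_mul]

lemma nn_zero_left (ψ : B → F) (κ : Matrix A A F) : nn 0 ψ κ = 0 := by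
  unfold nn
  rw [col_zero, Matrix.zero_mul, Matrix.zero_mul]

lemma nn_zero_right (y : B → F) (κ : Matrix A A F) : nn y 0 κ = 0 := by
  unfold nn
  rw [row_zero, Matrix.mul_zero]

lemma nn_sq {y ψ : B → F} (h : ψ ⬝ᵥ y = 0) (κ κ' : Matrix A A F) : nn y ψ κ * nn y ψ κ' = 0 := by
  rw [nn_mul, h, zero_smul]

lemma nn_eq_kron (y ψ : B → F) (κ : Matrix A A F) : nn y ψ κ = κ ⊗ₖ vecMulVec y ψ :=
  col_mul_row y ψ κ

lemma det_one_add_vmv {n : Type} [Fintype n] [DecidableEq n] (v φ : n → F) :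
    (1 + vecMulVec v φ).det = 1 + φ ⬝ᵥ v := by
  rw [vecMulVec_eq Unit, det_one_add_replicateCol_mul_replicateRow]

/-- `𝒦(y, ψ)`. -/
def KK (G : Subgroup (GL (A × B) F)) (y ψ : B → F) : Set (Matrix A A F) := {κ | 1 + nn y ψ κ ∈ MS G}

variable {G : Subgroup (GL (A × B) F)}

lemma smul_one_mem_KK (hH : HasH G) {y ψ : B → F} (h : ψ ⬝ᵥ y = 0) (c : F) :
    (c • (1 : Matrix A A F)) ∈ KK G y ψ := by
  have e : 1 + nn y ψ (c • (1 : Matrix A A F)) = (1 : Matrix A A F) ⊗ₖ (1 + vecMulVec (c • y) ψ) := by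
    rw [nn_eq_kron, Matrix.kronecker_add, Matrix.one_kronecker_one, Matrix.smul_kronecker,
      smul_vecMulVec, Matrix.kronecker_smul]
  show 1 + nn y ψ (c • (1 : Matrix A A F)) ∈ MS G
  rw [e]
  refine hH _ _ Matrix.det_one ?_
  rw [det_one_add_vmv, dotProduct_smul, h, smul_zero, add_zero]

lemma one_mem_KK (hH : HasH G) {y ψ : B → F} (h : ψ ⬝ᵥ y = 0) : (1 : Matrix A A F) ∈ KK G y ψ := by
  have := smul_one_mem_KK hH h (1 : F)
  rwa [one_smul] at this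

lemma KK_mul {y ψ y' ψ' : B → F} (h : ψ ⬝ᵥ y = 0) (h' : ψ' ⬝ᵥ y' = 0) (h2 : ψ' ⬝ᵥ y = 0)
    {κ κ' : Matrix A A F} (hκ : κ ∈ KK G y ψ) (hκ' : κ' ∈ KK G y' ψ') :
    ((ψ ⬝ᵥ y') • (κ * κ')) ∈ KK G y ψ' := by
  have := MS_comm (G := G) (nn_sq h κ κ) (nn_sq h' κ' κ') (by rw [nn_mul, h2, zero_smul]) hκ hκ'
  rw [nn_mul, ← nn_smul] at this
  exact this

lemma KK_L (hH : HasH G) {y ψ y' ψ' : B → F} (h : ψ ⬝ᵥ y = 0) (h1 : ψ ⬝ᵥ y' = 0) (h2 : ψ' ⬝ᵥ y = 1)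
    (h3 : ψ' ⬝ᵥ y' = 0) {κ : Matrix A A F} (hκ : κ ∈ KK G y ψ) : κ ∈ KK G y' ψ := by
  have := KK_mul h3 h h1 (one_mem_KK hH h3) hκ
  rwa [h2, one_smul, one_mul] at this

lemma KK_R (hH : HasH G) {y ψ y' ψ' : B → F} (h : ψ ⬝ᵥ y = 0) (h1 : ψ' ⬝ᵥ y = 0) (h2 : ψ ⬝ᵥ y' = 1)
    (h3 : ψ' ⬝ᵥ y' = 0) {κ : Matrix A A F} (hκ : κ ∈ KK G y ψ) : κ ∈ KK G y ψ' := by
  have := KK_mul h h3 h1 hκ (one_mem_KK hH h3)
  rwa [h2, one_smul, mul_one] at this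

lemma KK_Lstep (hH : HasH G) (h3 : 3 ≤ Fintype.card B) {y ψ : B → F} (h : ψ ⬝ᵥ y = 0) (hy : y ≠ 0)
    {κ : Matrix A A F} (hκ : κ ∈ KK G y ψ) (u : B → F) (hu : ψ ⬝ᵥ u = 0) : κ ∈ KK G u ψ := by
  by_cases hyu : ∀ c : F, y ≠ c • u
  · obtain ⟨ψ', h1, h2⟩ := exists_dot_one_zero hyu
    exact KK_L hH h hu h1 h2 hκ
  · push Not at hyu
    obtain ⟨c, hc⟩ := hyu
    obtain ⟨u', hu', hn⟩ := exists_perp_not_span h3 ψ y
    have h1 : ∀ d : F, y ≠ d • u' := by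
      intro d hd
      have hd0 : d ≠ 0 := by
        rintro rfl
        rw [zero_smul] at hd
        exact hy hd
      apply hn d⁻¹
      rw [hd, smul_smul, inv_mul_cancel₀ hd0, one_smul]
    obtain ⟨ψ', h1a, h1b⟩ := exists_dot_one_zero h1
    have hκ' : κ ∈ KK G u' ψ := KK_L hH h hu' h1a h1b hκ
    have hc0 : c ≠ 0 := by
      rintro rfl
      rw [zero_smul] at hc
      exact hy hc
    have h2 : ∀ d : F, u' ≠ d • u := by
      intro d hd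
      apply hn (d * c⁻¹)
      rw [hd, hc, smul_smul, mul_assoc, inv_mul_cancel₀ hc0, mul_one]
    obtain ⟨ψ'', h2a, h2b⟩ := exists_dot_one_zero h2
    exact KK_L hH hu' hu h2a h2b hκ'

lemma KK_Rstep (hH : HasH G) (h3 : 3 ≤ Fintype.card B) {y ψ : B → F} (h : ψ ⬝ᵥ y = 0) (hψ : ψ ≠ 0)
    {κ : Matrix A A F} (hκ : κ ∈ KK G y ψ) (u : B → F) (hu : u ⬝ᵥ y = 0) : κ ∈ KK G y u := by
  by_cases hyu : ∀ c : F, ψ ≠ c • u
  · obtain ⟨y', h1, h2⟩ := exists_dot_one_zero hyu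
    rw [dotProduct_comm] at h1 h2
    exact KK_R hH h hu h1 h2 hκ
  · push Not at hyu
    obtain ⟨c, hc⟩ := hyu
    obtain ⟨u', hu', hn⟩ := exists_perp_not_span h3 y ψ
    rw [dotProduct_comm] at hu'
    have h1 : ∀ d : F, ψ ≠ d • u' := by
      intro d hd
      have hd0 : d ≠ 0 := by
        rintro rfl
        rw [zero_smul] at hd
        exact hψ hd
      apply hn d⁻¹
      rw [hd, smul_smul, inv_mul_cancel₀ hd0, one_smul]
    obtain ⟨y', h1a, h1b⟩ := exists_dot_one_zero h1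
    rw [dotProduct_comm] at h1a h1b
    have hκ' : κ ∈ KK G y u' := KK_R hH h hu' h1a h1b hκ
    have hc0 : c ≠ 0 := by
      rintro rfl
      rw [zero_smul] at hc
      exact hψ hc
    have h2 : ∀ d : F, u' ≠ d • u := by
      intro d hd
      apply hn (d * c⁻¹)
      rw [hd, hc, smul_smul, mul_assoc, inv_mul_cancel₀ hc0, mul_one]
    obtain ⟨y'', h2a, h2b⟩ := exists_dot_one_zero h2
    rw [dotProduct_comm] at h2a h2b
    exact KK_R hH hu' hu h2a h2b hκ'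

/-- `𝒦` does not depend on the flag. -/
lemma KK_all (hH : HasH G) (h3 : 3 ≤ Fintype.card B) {y ψ : B → F} (h : ψ ⬝ᵥ y = 0) (hy : y ≠ 0)
    (hψ : ψ ≠ 0) {κ : Matrix A A F} (hκ : κ ∈ KK G y ψ) (y₁ ψ₁ : B → F) (h₁ : ψ₁ ⬝ᵥ y₁ = 0) :
    κ ∈ KK G y₁ ψ₁ := by
  obtain ⟨u, hu, hu0, hu1⟩ := exists_perp_two h3 ψ ψ₁
  have a1 := KK_Lstep hH h3 h hy hκ u hu0
  have a2 := KK_Rstep hH h3 hu0 hψ a1 ψ₁ hu1
  exact KK_Lstep hH h3 hu1 hu a2 y₁ h₁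

/-- the flag-independent version. -/
def KS (G : Subgroup (GL (A × B) F)) : Set (Matrix A A F) :=
  {κ | ∀ y ψ : B → F, ψ ⬝ᵥ y = 0 → κ ∈ KK G y ψ}

lemma KS_add {κ κ' : Matrix A A F} (h : κ ∈ KS G) (h' : κ' ∈ KS G) : κ + κ' ∈ KS G := by
  intro y ψ hf
  have := MS_add (G := G) (nn_sq hf κ κ') (h y ψ hf) (h' y ψ hf)
  rw [← nn_add] at this
  exact this

lemma KS_neg {κ : Matrix A A F} (h : κ ∈ KS G) : -κ ∈ KS G := by
  intro y ψ hf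
  have := MS_sub (G := G) (nn_sq hf κ κ) (h y ψ hf)
  rw [sub_eq_add_neg, ← nn_neg] at this
  exact this

lemma KS_sub {κ κ' : Matrix A A F} (h : κ ∈ KS G) (h' : κ' ∈ KS G) : κ - κ' ∈ KS G := by
  rw [sub_eq_add_neg]
  exact KS_add h (KS_neg h')

lemma KS_mul (h3 : 3 ≤ Fintype.card B) {κ κ' : Matrix A A F} (h : κ ∈ KS G) (h' : κ' ∈ KS G) :
    κ * κ' ∈ KS G := by
  intro y ψ' hf
  obtain ⟨y', hy', hn⟩ := exists_perp_not_span h3 ψ' y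
  obtain ⟨ψ, h1, h2⟩ := exists_dot_one_zero hn
  have := KK_mul h2 hy' hf (h y ψ h2) (h' y' ψ' hy')
  rwa [h1, one_smul] at this

lemma KS_smul_one (hH : HasH G) (c : F) : (c • (1 : Matrix A A F)) ∈ KS G :=
  fun y ψ hf => smul_one_mem_KK hH hf c

lemma KS_smul (hH : HasH G) (h3 : 3 ≤ Fintype.card B) (c : F) {κ : Matrix A A F} (h : κ ∈ KS G) :
    c • κ ∈ KS G := by
  have := KS_mul h3 (KS_smul_one hH c) h
  rwa [Matrix.smul_mul, Matrix.one_mul] at this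

lemma vmv_mul_vmv {n : Type} [Fintype n] (z ζ z' ζ' : n → F) :
    vecMulVec z ζ * vecMulVec z' ζ' = (ζ ⬝ᵥ z') • vecMulVec z ζ' := by
  rw [vecMulVec_mul_vecMulVec, vecMulVec_smul]

lemma KS_conj (hH : HasH G) {κ : Matrix A A F} (h : κ ∈ KS G) {u ξ : A → F} (hu : ξ ⬝ᵥ u = 0) :
    (1 + vecMulVec u ξ) * κ * (1 - vecMulVec u ξ) ∈ KS G := by
  intro y ψ hf
  have hsq : vecMulVec u ξ * vecMulVec u ξ = 0 := by rw [vmv_mul_vmv, hu, zero_smul]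
  have h1 : ((1 + vecMulVec u ξ) ⊗ₖ (1 : Matrix B B F)) ∈ MS G :=
    hH _ _ (by rw [det_one_add_vmv, hu, add_zero]) Matrix.det_one
  have h2 : ((1 + vecMulVec u ξ) ⊗ₖ (1 : Matrix B B F)) * ((1 - vecMulVec u ξ) ⊗ₖ (1 : Matrix B B F)) = 1 := by
    rw [← Matrix.mul_kronecker_mul, unip_mul hsq, Matrix.one_mul, Matrix.one_kronecker_one]
  have := MS_conj h1 h2 (h y ψ hf)
  have e : ((1 + vecMulVec u ξ) ⊗ₖ (1 : Matrix B B F)) * nn y ψ κ * ((1 - vecMulVec u ξ) ⊗ₖ (1 : Matrix B B F))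
      = nn y ψ ((1 + vecMulVec u ξ) * κ * (1 - vecMulVec u ξ)) := by
    unfold nn
    rw [← Matrix.mul_assoc, ← Matrix.mul_assoc, kron_mul_col, Matrix.one_mulVec, Matrix.mul_assoc _ (row A ψ),
      row_mul_kron, Matrix.vecMul_one]
    simp only [Matrix.mul_assoc]
  rw [e] at this
  exact this

end Cfsg.Agent.Lib.Helper99.Tens
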