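import Mathlib
import Cfsg.Agent.Lib.Helper99.TensB

set_option autoImplicit false
set_option linter.unusedSimpArgs false
set_option linter.unusedVariables false
set_option linter.unusedSectionVars false

/-! Step 1 continued: a non-scalar element of `𝒦` gives all elementary transvections. -/

namespace Cfsg.Agent.Lib.Helper99.Tens

open Matrix
open scoped Kronecker

variable {A B : Type} [Fintype A] [DecidableEq A] [Fintype B] [DecidableEq B] {F : Type*} [Field F]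
variable {G : Subgroup (GL (A × B) F)}

lemma exists_not_eigen {κ : Matrix A A F} (h : ∀ c : F, κ ≠ c • 1) :
    ∃ z : A → F, ∀ c : F, κ *ᵥ z ≠ c • z := by
  by_contra hcon
  push Not at hcon
  have h1 : ∀ v : A → F, ¬ LinearIndependent F ![v, (Matrix.toLin' κ) v] := by
    intro v hli
    obtain ⟨c, hc⟩ := hcon v
    rw [LinearIndependent.pair_iff] at hli
    have := hli c (-1) (by rw [Matrix.toLin'_apply, hc]; simp)
    exact one_ne_zero (neg_eq_zero.1 this.2)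
  obtain ⟨a, ha⟩ := LinearMap.exists_eq_smul_id_of_forall_notLinearIndependent h1
  apply h a
  have : Matrix.toLin' κ = Matrix.toLin' (a • (1 : Matrix A A F)) := by
    rw [ha, map_smul, Matrix.toLin'_one]
    rfl
  exact Matrix.toLin'.injective this

lemma conj_expand {R : Type*} [Ring R] (M κ : R) : (1 + M) * κ * (1 - M) - κ = M * κ - κ * M - M * κ * M := by
  noncomm_ring

lemma exists_rank_one (hH : HasH G) (h3 : 3 ≤ Fintype.card B)
    (hex : 3 ≤ Fintype.card A ∨ ∃ c : F, c ≠ 0 ∧ c ≠ 1) {κ : Matrix A A F} (hκ : κ ∈ KS G)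
    (hns : ∀ c : F, κ ≠ c • 1) :
    ∃ z ζ : A → F, z ≠ 0 ∧ ζ ≠ 0 ∧ ζ ⬝ᵥ z = 0 ∧ vecMulVec z ζ ∈ KS G := by
  obtain ⟨z, hz⟩ := exists_not_eigen hns
  have hz0 : z ≠ 0 := by
    rintro rfl
    exact hz 0 (by simp)
  obtain ⟨ζ', hw', hz'⟩ := exists_dot_one_zero hz
  rcases hex with hA | ⟨c, hc0, hc1⟩
  · obtain ⟨ζ, hζ0, hζz, hζw⟩ := exists_perp_two hA z (κ *ᵥ z)
    rw [dotProduct_comm] at hζz hζw
    refine ⟨z, ζ, hz0, hζ0, hζz, ?_⟩
    have hD := KS_sub (KS_conj hH hκ hζz) hκ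
    rw [conj_expand] at hD
    have e1 : vecMulVec z ζ * κ * vecMulVec z ζ = 0 := by
      rw [Matrix.mul_assoc, mul_vecMulVec, vmv_mul_vmv, hζw, zero_smul]
    rw [e1, sub_zero] at hD
    have hD' := KS_sub (KS_conj hH hD hz') hD
    rw [conj_expand] at hD'
    have e2 : vecMulVec z ζ' * (vecMulVec z ζ * κ - κ * vecMulVec z ζ) = - vecMulVec z ζ := by
      rw [Matrix.mul_sub, ← Matrix.mul_assoc, vmv_mul_vmv, hz', zero_smul, Matrix.zero_mul, mul_vecMulVec,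
        vmv_mul_vmv, hw', one_smul, zero_sub]
    have e3 : (vecMulVec z ζ * κ - κ * vecMulVec z ζ) * vecMulVec z ζ' = 0 := by
      rw [Matrix.sub_mul, Matrix.mul_assoc, Matrix.mul_assoc, mul_vecMulVec, vmv_mul_vmv, hζw, zero_smul,
        vmv_mul_vmv, hζz, zero_smul, Matrix.mul_zero, sub_zero]
    rw [e2, e3, Matrix.neg_mul, vmv_mul_vmv, hζz, zero_smul, neg_zero, sub_zero, sub_zero] at hD'
    have := KS_neg hD'
    rwa [neg_neg] at this
  · have hζ0 : ζ' ≠ 0 := by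
      rintro rfl
      rw [zero_dotProduct] at hw'
      exact zero_ne_one hw'
    refine ⟨z, ζ', hz0, hζ0, hz', ?_⟩
    set N := vecMulVec z ζ' with hN
    have e1 : N * κ * N = N := by
      rw [hN, Matrix.mul_assoc, mul_vecMulVec, vmv_mul_vmv, hw', one_smul]
    have hD : ∀ l : F, l • (N * κ - κ * N) - (l * l) • N ∈ KS G := by
      intro l
      have hl : (l • ζ') ⬝ᵥ z = 0 := by rw [smul_dotProduct, hz', smul_zero]
      have hD := KS_sub (KS_conj hH hκ hl) hκ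
      rw [conj_expand, vecMulVec_smul, ← hN] at hD
      have : l • N * κ - κ * (l • N) - l • N * κ * (l • N) = l • (N * κ - κ * N) - (l * l) • N := by
        rw [Matrix.smul_mul, Matrix.mul_smul, Matrix.smul_mul, Matrix.mul_smul, e1, smul_smul, smul_sub]
      rwa [this] at hD
    have h1 := KS_sub (hD c) (KS_smul hH h3 c (hD 1))
    have e2 : c • (N * κ - κ * N) - (c * c) • N - c • ((1 : F) • (N * κ - κ * N) - ((1 : F) * 1) • N)
        = (c * (1 - c)) • N := by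
      module
    rw [e2] at h1
    have h2 := KS_smul hH h3 (c * (1 - c))⁻¹ h1
    have hne : c * (1 - c) ≠ 0 := mul_ne_zero hc0 (sub_ne_zero.2 (Ne.symm hc1))
    rwa [smul_smul, inv_mul_cancel₀ hne, one_smul] at h2

lemma KS_left (hH : HasH G) (h3 : 3 ≤ Fintype.card B) {z₀ ζ₀ : A → F} (hz : z₀ ≠ 0)
    (hf : ζ₀ ⬝ᵥ z₀ = 0) (h : vecMulVec z₀ ζ₀ ∈ KS G) (z : A → F) : vecMulVec z ζ₀ ∈ KS G := by
  obtain ⟨ξ₀, hξ⟩ := exists_dot_one hz
  have key : ∀ u : A → F, ξ₀ ⬝ᵥ u = 0 → vecMulVec u ζ₀ ∈ KS G := by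
    intro u hu
    have hc := KS_sub (KS_conj hH h hu) h
    rw [conj_expand] at hc
    have e1 : vecMulVec u ξ₀ * vecMulVec z₀ ζ₀ = vecMulVec u ζ₀ := by rw [vmv_mul_vmv, hξ, one_smul]
    have e2 : vecMulVec z₀ ζ₀ * vecMulVec u ξ₀ = (ζ₀ ⬝ᵥ u) • vecMulVec z₀ ξ₀ := vmv_mul_vmv _ _ _ _
    have e3 : vecMulVec u ζ₀ * vecMulVec u ξ₀ = (ζ₀ ⬝ᵥ u) • vecMulVec u ξ₀ := vmv_mul_vmv _ _ _ _
    rw [e1, e2, e3] at hc
    by_cases hs : ζ₀ ⬝ᵥ u = 0
    · rwa [hs, zero_smul, zero_smul, sub_zero, sub_zero] at hc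
    · have hm := KS_mul h3 hc h
      have e4 : (vecMulVec u ζ₀ - (ζ₀ ⬝ᵥ u) • vecMulVec z₀ ξ₀ - (ζ₀ ⬝ᵥ u) • vecMulVec u ξ₀) * vecMulVec z₀ ζ₀
          = - (ζ₀ ⬝ᵥ u) • (vecMulVec z₀ ζ₀ + vecMulVec u ζ₀) := by
        rw [Matrix.sub_mul, Matrix.sub_mul, Matrix.smul_mul, Matrix.smul_mul, vmv_mul_vmv, vmv_mul_vmv,
          vmv_mul_vmv, hf, hξ]
        module
      rw [e4] at hm
      have h5 := KS_smul hH h3 (- (ζ₀ ⬝ᵥ u))⁻¹ hm
      rw [smul_smul, inv_mul_cancel₀ (neg_ne_zero.2 hs), one_smul] at h5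
      have := KS_sub h5 h
      rwa [add_sub_cancel_left] at this
  have e : vecMulVec z ζ₀ = vecMulVec (z - (ξ₀ ⬝ᵥ z) • z₀) ζ₀ + (ξ₀ ⬝ᵥ z) • vecMulVec z₀ ζ₀ := by
    rw [sub_vecMulVec, smul_vecMulVec, sub_add_cancel]
  rw [e]
  refine KS_add (key _ ?_) (KS_smul hH h3 _ h)
  rw [dotProduct_sub, dotProduct_smul, hξ, smul_eq_mul, mul_one, sub_self]

lemma KS_vmv (hH : HasH G) (h3 : 3 ≤ Fintype.card B) {z₀ ζ₀ : A → F} (hz : z₀ ≠ 0) (hζ : ζ₀ ≠ 0)
    (hf : ζ₀ ⬝ᵥ z₀ = 0) (h : vecMulVec z₀ ζ₀ ∈ KS G) (z ξ : A → F) : vecMulVec z ξ ∈ KS G := by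
  have hL := KS_left hH h3 hz hf h
  by_cases hc : ∀ c : F, ζ₀ ≠ c • ξ
  · obtain ⟨u, hu1, hu2⟩ := exists_dot_one_zero hc
    rw [dotProduct_comm] at hu1 hu2
    have hc := KS_sub (KS_conj hH (hL (z - (ξ ⬝ᵥ z) • u)) hu2) (hL (z - (ξ ⬝ᵥ z) • u))
    rw [conj_expand] at hc
    have hz' : ξ ⬝ᵥ (z - (ξ ⬝ᵥ z) • u) = ξ ⬝ᵥ z := by
      rw [dotProduct_sub, dotProduct_smul, hu2, smul_zero, sub_zero]
    have e1 : vecMulVec u ξ * vecMulVec (z - (ξ ⬝ᵥ z) • u) ζ₀ = (ξ ⬝ᵥ z) • vecMulVec u ζ₀ := by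
      rw [vmv_mul_vmv, hz']
    have e2 : vecMulVec (z - (ξ ⬝ᵥ z) • u) ζ₀ * vecMulVec u ξ = vecMulVec (z - (ξ ⬝ᵥ z) • u) ξ := by
      rw [vmv_mul_vmv, hu1, one_smul]
    rw [e1, e2, Matrix.smul_mul, vmv_mul_vmv, hu1, one_smul] at hc
    have h2 := KS_sub (KS_smul hH h3 (ξ ⬝ᵥ z) (hL u)) hc
    have e3 : (ξ ⬝ᵥ z) • vecMulVec u ζ₀ -
        ((ξ ⬝ᵥ z) • vecMulVec u ζ₀ - vecMulVec (z - (ξ ⬝ᵥ z) • u) ξ - (ξ ⬝ᵥ z) • vecMulVec u ξ)
        = vecMulVec z ξ := by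
      rw [sub_vecMulVec, smul_vecMulVec]
      abel
    rwa [e3] at h2
  · push Not at hc
    obtain ⟨c, hc⟩ := hc
    have hc0 : c ≠ 0 := by
      rintro rfl
      rw [zero_smul] at hc
      exact hζ hc
    have : vecMulVec z ξ = c⁻¹ • vecMulVec z ζ₀ := by
      rw [hc, vecMulVec_smul, smul_smul, inv_mul_cancel₀ hc0, one_smul]
    rw [this]
    exact KS_smul hH h3 _ (hL z)

lemma single_eq_nn (i j : A) (t u : B) (c : F) :
    Matrix.single (i, t) (j, u) c = nn (Pi.single t 1) (Pi.single u 1) (Matrix.single i j c) := by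
  rw [nn_eq_kron]
  ext ⟨i', t'⟩ ⟨j', u'⟩
  simp only [Matrix.single_apply, Matrix.kroneckerMap_apply, vecMulVec_apply, Pi.single_apply, Prod.mk.injEq]
  by_cases h1 : i = i' <;> by_cases h2 : t = t' <;> by_cases h3 : j = j' <;> by_cases h4 : u = u' <;>
    simp [h1, h2, h3, h4, eq_comm]

lemma single_eq_vmv (i j : A) (c : F) :
    Matrix.single i j c = vecMulVec (Pi.single i c) (Pi.single j (1 : F)) := by
  ext i' j'
  simp only [Matrix.single_apply, vecMulVec_apply, Pi.single_apply]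
  by_cases h1 : i = i' <;> by_cases h3 : j = j' <;> simp [h1, h3, eq_comm]

/-- a non-scalar element of `𝒦` gives all elementary transvections. -/
theorem elem_mem (hH : HasH G) (h3 : 3 ≤ Fintype.card B)
    (hex : 3 ≤ Fintype.card A ∨ ∃ c : F, c ≠ 0 ∧ c ≠ 1) {y ψ : B → F} (hf : ψ ⬝ᵥ y = 0) (hy : y ≠ 0)
    (hψ : ψ ≠ 0) {κ : Matrix A A F} (hκ : κ ∈ KK G y ψ) (hns : ∀ c : F, κ ≠ c • 1)
    (p q : A × B) (hpq : p ≠ q) (c : F) : 1 + Matrix.single p q c ∈ MS G := by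
  have hκS : κ ∈ KS G := fun y₁ ψ₁ h₁ => KK_all hH h3 hf hy hψ hκ y₁ ψ₁ h₁
  obtain ⟨z, ζ, hz, hζ, hzζ, hr⟩ := exists_rank_one hH h3 hex hκS hns
  have hall : ∀ (i j : A) (c : F), Matrix.single i j c ∈ KS G := by
    intro i j c
    rw [single_eq_vmv]
    exact KS_vmv hH h3 hz hζ hzζ hr _ _
  obtain ⟨i, t⟩ := p
  obtain ⟨j, u⟩ := q
  by_cases htu : t = u
  · subst htu
    have hij : i ≠ j := by
      rintro rfl
      exact hpq rfl
    have : ∃ v : B, v ≠ t := by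
      by_contra hcon
      push Not at hcon
      have : Fintype.card B ≤ 1 := Fintype.card_le_one_iff.2 (fun a b => by rw [hcon a, hcon b])
      omega
    obtain ⟨v, hv⟩ := this
    have f1 : (Pi.single v (1 : F) : B → F) ⬝ᵥ Pi.single t 1 = 0 := by
      rw [single_dotProduct, Pi.single_apply, if_neg hv, mul_zero]
    have f2 : (Pi.single t (1 : F) : B → F) ⬝ᵥ Pi.single v 1 = 0 := by
      rw [single_dotProduct, Pi.single_apply, if_neg (Ne.symm hv), mul_zero]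
    have f3 : (Pi.single v (1 : F) : B → F) ⬝ᵥ Pi.single v 1 = 1 := by
      rw [single_dotProduct, Pi.single_apply, if_pos rfl, mul_one]
    have f4 : (Pi.single t (1 : F) : B → F) ⬝ᵥ Pi.single t 1 = 1 := by
      rw [single_dotProduct, Pi.single_apply, if_pos rfl, mul_one]
    have := MS_comm (G := G) (nn_sq f1 (Matrix.single i i (1 : F)) (Matrix.single i i (1 : F)))
      (nn_sq f2 (Matrix.single i j c) (Matrix.single i j c))
      (by rw [nn_mul, f4, one_smul, Matrix.single_mul_single_of_ne _ _ _ _ (Ne.symm hij)]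
          unfold nn
          rw [Matrix.mul_zero, Matrix.zero_mul])
      (hall i i 1 _ _ f1) (hall i j c _ _ f2)
    rw [nn_mul, f3, one_smul, Matrix.single_mul_single_same, one_mul, ← single_eq_nn] at this
    exact this
  · rw [single_eq_nn]
    refine hall i j c _ _ ?_
    rw [single_dotProduct, Pi.single_apply, if_neg (Ne.symm htu), mul_zero]

end Cfsg.Agent.Lib.Helper99.Tens
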