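import Mathlib
import Cfsg.Agent.Lib.Helper99.TensC

set_option autoImplicit false
set_option linter.unusedSimpArgs false
set_option linter.unusedVariables false
set_option linter.unusedSectionVars false

/-! Step 2: if `𝒦 = F` then `G` stabilises the tensor decomposition. -/

namespace Cfsg.Agent.Lib.Helper99.Tens

open Matrix
open scoped Kronecker

variable {A B : Type} [Fintype A] [DecidableEq A] [Fintype B] [DecidableEq B] {F : Type*} [Field F]
variable {G : Subgroup (GL (A × B) F)}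

/-- `𝒦 = F`. -/
def KF (G : Subgroup (GL (A × B) F)) : Prop :=
  ∀ y ψ : B → F, ψ ⬝ᵥ y = 0 → y ≠ 0 → ψ ≠ 0 → ∀ κ ∈ KK G y ψ, ∃ c : F, κ = c • (1 : Matrix A A F)

/-- Kronecker products. -/
def IsKr (X : Matrix (A × B) (A × B) F) : Prop :=
  ∃ (α : Matrix A A F) (β : Matrix B B F), X = α ⊗ₖ β

lemma root_mem (hH : HasH G) {y ψ : B → F} (h : ψ ⬝ᵥ y = 0) :
    1 + nn y ψ (1 : Matrix A A F) ∈ MS G := one_mem_KK hH h

lemma row_of_mem (hH : HasH G) (hK : KF G) (h3 : 3 ≤ Fintype.card B) {y : B → F} (hy : y ≠ 0)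
    (R : Matrix A (A × B) F) (hR : R * col A y = 0) (hm : 1 + col A y * R ∈ MS G) :
    ∃ ψ₁ : B → F, R = row A ψ₁ := by
  have key : ∀ y₁ : B → F, ∃ c : F, R * col A y₁ = c • (1 : Matrix A A F) := by
    intro y₁
    obtain ⟨ψ, hψ, h1, h2⟩ := exists_perp_two h3 y y₁
    rw [dotProduct_comm] at h1 h2
    have hMM : (col A y * R) * (col A y * R) = 0 := by
      rw [Matrix.mul_assoc, ← Matrix.mul_assoc R, hR, Matrix.zero_mul, Matrix.mul_zero]
    have hNM : nn y₁ ψ (1 : Matrix A A F) * (col A y * R) = 0 := by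
      unfold nn
      rw [Matrix.mul_assoc, row_col_assoc, h1, zero_smul, Matrix.mul_zero]
    have := MS_comm hMM (nn_sq h2 1 1) hNM hm (root_mem hH h2)
    have e : (col A y * R) * nn y₁ ψ (1 : Matrix A A F) = nn y ψ (R * col A y₁) := by
      unfold nn
      simp only [Matrix.mul_assoc, Matrix.one_mul]
    rw [e] at this
    exact hK y ψ h1 hy hψ _ this
  choose c hc using key
  refine ⟨fun u => c (Pi.single u 1), ?_⟩
  conv_lhs => rw [eq_sum_mul_col_row R]
  rw [row_eq_sum]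
  refine Finset.sum_congr rfl (fun u _ => ?_)
  rw [hc, Matrix.smul_mul, Matrix.one_mul]

lemma col_of_mem (hH : HasH G) (hK : KF G) (h3 : 3 ≤ Fintype.card B) {ψ : B → F} (hψ : ψ ≠ 0)
    (C : Matrix (A × B) A F) (hC : row A ψ * C = 0) (hm : 1 + C * row A ψ ∈ MS G) :
    ∃ y₁ : B → F, C = col A y₁ := by
  have key : ∀ ψ₁ : B → F, ∃ c : F, row A ψ₁ * C = c • (1 : Matrix A A F) := by
    intro ψ₁
    obtain ⟨y, hy, h1, h2⟩ := exists_perp_two h3 ψ ψ₁
    have hMM : (C * row A ψ) * (C * row A ψ) = 0 := by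
      rw [Matrix.mul_assoc, ← Matrix.mul_assoc (row A ψ), hC, Matrix.zero_mul, Matrix.mul_zero]
    have hNM : (C * row A ψ) * nn y ψ₁ (1 : Matrix A A F) = 0 := by
      unfold nn
      rw [Matrix.mul_assoc, Matrix.mul_assoc (col A y), row_col_assoc, h1, zero_smul, Matrix.mul_zero]
    have := MS_comm (nn_sq h2 1 1) hMM hNM (root_mem hH h2) hm
    have e : nn y ψ₁ (1 : Matrix A A F) * (C * row A ψ) = nn y ψ (row A ψ₁ * C) := by
      unfold nn
      simp only [Matrix.mul_assoc, Matrix.one_mul]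
    rw [e] at this
    exact hK y ψ h1 hy hψ _ this
  choose c hc using key
  refine ⟨fun u => c (Pi.single u 1), ?_⟩
  conv_lhs => rw [eq_sum_col_row_mul C]
  rw [col_eq_sum]
  refine Finset.sum_congr rfl (fun u _ => ?_)
  rw [hc, Matrix.mul_smul, Matrix.mul_one]

section TI

variable {g g' : Matrix (A × B) (A × B) F}

lemma TI_b (hH : HasH G) (hK : KF G) (h3 : 3 ≤ Fintype.card B) (hg : g ∈ MS G) (h1 : g * g' = 1)
    (h2 : g' * g = 1) {y' y₁ ψ' : B → F} {α α' : Matrix A A F} (hα : α * α' = 1)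
    (hy₁ : y₁ ≠ 0) (he : g * col A y' = col A y₁ * α) (hf : ψ' ⬝ᵥ y' = 0) :
    ∃ ψ₁ : B → F, α * row A ψ' * g' = row A ψ₁ := by
  have hm := MS_conj hg h1 (root_mem (A := A) hH hf)
  have e : g * nn y' ψ' (1 : Matrix A A F) * g' = col A y₁ * (α * row A ψ' * g') := by
    unfold nn
    rw [Matrix.mul_one, ← Matrix.mul_assoc, he]
    simp only [Matrix.mul_assoc]
  rw [e] at hm
  refine row_of_mem hH hK h3 hy₁ _ ?_ hm
  have : α * row A ψ' * g' * col A y₁ * α = 0 := by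
    rw [Matrix.mul_assoc _ (col A y₁), ← he]
    rw [Matrix.mul_assoc _ g', ← Matrix.mul_assoc g', h2, Matrix.one_mul, Matrix.mul_assoc, row_mul_col, hf,
      zero_smul, Matrix.mul_zero]
  calc α * row A ψ' * g' * col A y₁ = α * row A ψ' * g' * col A y₁ * (α * α') := by
        rw [hα, Matrix.mul_one]
    _ = 0 := by rw [← Matrix.mul_assoc, this, Matrix.zero_mul]

lemma TI_a (hH : HasH G) (hK : KF G) (h3 : 3 ≤ Fintype.card B) (hg : g ∈ MS G) (h1 : g * g' = 1)
    (h2 : g' * g = 1) {y'' ψ₁ ψ' : B → F} {α α' : Matrix A A F} (hα : α * α' = 1) (hα' : α' * α = 1)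
    (hψ₁ : ψ₁ ≠ 0) (he : row A ψ₁ * g = α * row A ψ') (hf : ψ' ⬝ᵥ y'' = 0) :
    ∃ y₂ : B → F, g * col A y'' = col A y₂ * α := by
  have hm := MS_conj hg h1 (root_mem (A := A) hH hf)
  have e0 : row A ψ' * g' = α' * row A ψ₁ := by
    calc row A ψ' * g' = α' * (α * row A ψ') * g' := by
          rw [← Matrix.mul_assoc, hα', Matrix.one_mul]
      _ = α' * row A ψ₁ := by
          rw [← he, Matrix.mul_assoc, Matrix.mul_assoc, h1, Matrix.mul_one]
  have e : g * nn y'' ψ' (1 : Matrix A A F) * g' = (g * col A y'' * α') * row A ψ₁ := by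
    unfold nn
    rw [Matrix.mul_one, Matrix.mul_assoc, Matrix.mul_assoc, e0]
    simp only [Matrix.mul_assoc]
  rw [e] at hm
  obtain ⟨y₂, hy₂⟩ := col_of_mem hH hK h3 hψ₁ _ (by
    rw [← Matrix.mul_assoc, ← Matrix.mul_assoc, he, Matrix.mul_assoc α, row_mul_col, hf, zero_smul,
      Matrix.mul_zero, Matrix.zero_mul]) hm
  refine ⟨y₂, ?_⟩
  rw [← hy₂, Matrix.mul_assoc, hα', Matrix.mul_one]

lemma TI [Nonempty A] (hH : HasH G) (hK : KF G) (h3 : 3 ≤ Fintype.card B) (hg : g ∈ MS G)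
    (h1 : g * g' = 1) (h2 : g' * g = 1) {y' y₁ : B → F} {α : Matrix A A F} (hy' : y' ≠ 0)
    (he : g * col A y' = col A y₁ * α) : IsKr g := by
  obtain ⟨η, hη⟩ := exists_dot_one hy'
  have hα' : (row A η * g' * col A y₁) * α = 1 := by
    rw [Matrix.mul_assoc, ← he, Matrix.mul_assoc, ← Matrix.mul_assoc g', h2, Matrix.one_mul, row_mul_col, hη,
      one_smul]
  have hα : α * (row A η * g' * col A y₁) = 1 := mul_eq_one_comm.1 hα'
  have hy₁ : y₁ ≠ 0 := by
    rintro rfl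
    rw [col_zero, Matrix.mul_zero, Matrix.zero_mul] at hα'
    exact zero_ne_one hα'
  have key : ∀ u : B, ∃ y₂ : B → F, g * col A (Pi.single u (1 : F)) = col A y₂ * α := by
    intro u
    obtain ⟨ψ', hψ', hp1, hp2⟩ := exists_perp_two h3 y' (Pi.single u (1 : F))
    rw [dotProduct_comm] at hp1 hp2
    obtain ⟨ψ₁, hψ₁⟩ := TI_b hH hK h3 hg h1 h2 hα hy₁ he hp1
    have he' : row A ψ₁ * g = α * row A ψ' := by
      rw [← hψ₁, Matrix.mul_assoc, h2, Matrix.mul_one]
    have hψ₁0 : ψ₁ ≠ 0 := by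
      rintro rfl
      rw [row_zero, Matrix.zero_mul] at he'
      have : row A ψ' = 0 := by
        calc row A ψ' = (row A η * g' * col A y₁) * (α * row A ψ') := by
              rw [← Matrix.mul_assoc, hα', Matrix.one_mul]
          _ = 0 := by rw [← he', Matrix.mul_zero]
      exact hψ' (row_eq_zero this)
    exact TI_a hH hK h3 hg h1 h2 hα hα' hψ₁0 he' hp2
  choose β hβ using key
  refine ⟨α, ∑ u, vecMulVec (β u) (Pi.single u (1 : F)), ?_⟩
  conv_lhs => rw [eq_sum_mul_col_row g]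
  have : α ⊗ₖ (∑ u, vecMulVec (β u) (Pi.single u (1 : F))) =
      ∑ u, α ⊗ₖ vecMulVec (β u) (Pi.single u (1 : F)) := by
    ext ⟨i, t⟩ ⟨j, u⟩
    simp only [Matrix.kroneckerMap_apply, Matrix.sum_apply, Finset.mul_sum]
  rw [this]
  refine Finset.sum_congr rfl (fun u _ => ?_)
  rw [hβ, col_mul_row]

lemma TI' [Nonempty A] (hH : HasH G) (hK : KF G) (h3 : 3 ≤ Fintype.card B) (hg : g ∈ MS G)
    (h1 : g * g' = 1) (h2 : g' * g = 1) {y' y₁ : B → F} {Q : Matrix A A F} (hy₁ : y₁ ≠ 0)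
    (he : g * col A y' * Q = col A y₁) : IsKr g := by
  obtain ⟨η, hη⟩ := exists_dot_one hy₁
  have hQ' : (row A η * g * col A y') * Q = 1 := by
    rw [Matrix.mul_assoc (row A η), Matrix.mul_assoc (row A η), he, row_mul_col, hη, one_smul]
  have hQ : Q * (row A η * g * col A y') = 1 := mul_eq_one_comm.1 hQ'
  have hy' : y' ≠ 0 := by
    rintro rfl
    rw [col_zero, Matrix.mul_zero, Matrix.zero_mul] at hQ'
    exact zero_ne_one hQ'
  refine TI hH hK h3 hg h1 h2 hy' (y₁ := y₁) (α := row A η * g * col A y') ?_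
  rw [← he, Matrix.mul_assoc, hQ, Matrix.mul_one]

lemma dualTI [Nonempty A] (hH : HasH G) (hK : KF G) (h3 : 3 ≤ Fintype.card B) (hg : g ∈ MS G)
    (h1 : g * g' = 1) (h2 : g' * g = 1) {ψ₁ ψ' : B → F} {α : Matrix A A F} (hψ₁ : ψ₁ ≠ 0)
    (he : row A ψ₁ * g = α * row A ψ') : IsKr g := by
  obtain ⟨η, hη⟩ := exists_dot_one hψ₁
  rw [dotProduct_comm] at hη
  have hα : α * (row A ψ' * g' * col A η) = 1 := by
    rw [← Matrix.mul_assoc, ← Matrix.mul_assoc, ← he, Matrix.mul_assoc (row A ψ₁), h1, Matrix.mul_one,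
      row_mul_col, hη, one_smul]
  have hα' := mul_eq_one_comm.1 hα
  obtain ⟨y'', hy'', hp, _⟩ := exists_perp_two h3 ψ' ψ'
  obtain ⟨y₂, hy₂⟩ := TI_a hH hK h3 hg h1 h2 hα hα' hψ₁ he hp
  exact TI hH hK h3 hg h1 h2 hy'' hy₂

end TI

end Cfsg.Agent.Lib.Helper99.Tens
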