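import Mathlib
import Cfsg.Agent.Lib.Helper99.TensD

set_option autoImplicit false
set_option linter.unusedSimpArgs false
set_option linter.unusedVariables false
set_option linter.unusedSectionVars false

/-! Step 2 continued: the minimal rank argument. -/

namespace Cfsg.Agent.Lib.Helper99.Tens

open Matrix
open scoped Kronecker

variable {A B : Type} [Fintype A] [DecidableEq A] [Fintype B] [DecidableEq B] {F : Type*} [Field F]
variable {G : Subgroup (GL (A × B) F)}

lemma kr_units [Nonempty A] [Nonempty B] {α : Matrix A A F} {β : Matrix B B F}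
    {X' : Matrix (A × B) (A × B) F} (h : (α ⊗ₖ β) * X' = 1) : IsUnit α.det ∧ IsUnit β.det := by
  have hd : (α ⊗ₖ β).det * X'.det = 1 := by rw [← Matrix.det_mul, h, Matrix.det_one]
  rw [Matrix.det_kronecker] at hd
  constructor
  · rw [isUnit_iff_ne_zero]
    intro h0
    rw [h0, zero_pow Fintype.card_ne_zero, zero_mul, zero_mul] at hd
    exact zero_ne_one hd
  · rw [isUnit_iff_ne_zero]
    intro h0
    rw [h0, zero_pow Fintype.card_ne_zero, mul_zero, zero_mul] at hd
    exact zero_ne_one hd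

lemma IsKr_inv [Nonempty A] [Nonempty B] {X X' : Matrix (A × B) (A × B) F} (hX : IsKr X)
    (h : X * X' = 1) : IsKr X' := by
  obtain ⟨α, β, rfl⟩ := hX
  obtain ⟨hα, hβ⟩ := kr_units h
  refine ⟨α⁻¹, β⁻¹, ?_⟩
  have h' : X' * (α ⊗ₖ β) = 1 := mul_eq_one_comm.1 h
  calc X' = X' * ((α ⊗ₖ β) * (α⁻¹ ⊗ₖ β⁻¹)) := by
        rw [← Matrix.mul_kronecker_mul, Matrix.mul_nonsing_inv _ hα, Matrix.mul_nonsing_inv _ hβ,
          Matrix.one_kronecker_one, Matrix.mul_one]
    _ = α⁻¹ ⊗ₖ β⁻¹ := by rw [← Matrix.mul_assoc, h', Matrix.one_mul]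

lemma col_sub (y y' : B → F) : col A (y - y') = col A y - col A y' := by
  have := col_add (A := A) (y - y') y'
  rw [sub_add_cancel] at this
  rw [this, add_sub_cancel_right]

lemma conj_sq {g g' N : Matrix (A × B) (A × B) F} (h2 : g' * g = 1) (hN : N * N = 0) :
    (g * N * g') * (g * N * g') = 0 := by
  calc (g * N * g') * (g * N * g') = g * N * (g' * g) * N * g' := by simp only [Matrix.mul_assoc]
    _ = 0 := by rw [h2, Matrix.mul_one, Matrix.mul_assoc g, hN, Matrix.mul_zero, Matrix.zero_mul]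

section

variable {g g' : Matrix (A × B) (A × B) F}

/-- `g (A ⊗ y') ⊆ A ⊗ ker ψ` forces `g` to be a Kronecker product. -/
lemma star [Nonempty A] [Nonempty B] (hH : HasH G) (hK : KF G) (h3 : 3 ≤ Fintype.card B)
    (hg : g ∈ MS G) (h1 : g * g' = 1) (h2 : g' * g = 1) {y' ψ : B → F} (hy' : y' ≠ 0) (hψ : ψ ≠ 0)
    (h0 : row A ψ * g * col A y' = 0) : IsKr g := by
  obtain ⟨ψ', hψ', hf', _⟩ := exists_perp_two h3 y' y'
  rw [dotProduct_comm] at hf'
  have hN'm := MS_conj hg h1 (root_mem (A := A) hH hf')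
  have hN'sq := conj_sq (g := g) (g' := g') h2 (nn_sq hf' (1 : Matrix A A F) 1)
  by_cases hall : ∀ y₁ : B → F, ψ ⬝ᵥ y₁ = 0 → row A ψ' * g' * col A y₁ = 0
  · obtain ⟨ys, hys⟩ := exists_dot_one hψ
    rw [dotProduct_comm] at hys
    have hu : ∀ u : B, row A ψ' * g' * col A (Pi.single u (1 : F)) = ψ u • (row A ψ' * g' * col A ys) := by
      intro u
      have hz := hall (Pi.single u (1 : F) - ψ u • ys) (by
        rw [dotProduct_sub, dotProduct_smul, hys, dotProduct_single, mul_one, smul_eq_mul, mul_one, sub_self])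
      rw [col_sub, col_smul, Matrix.mul_sub, Matrix.mul_smul, sub_eq_zero] at hz
      exact hz
    have he : row A ψ' * g' = (row A ψ' * g' * col A ys) * row A ψ := by
      conv_lhs => rw [eq_sum_mul_col_row (row A ψ' * g')]
      rw [row_eq_sum ψ, Matrix.mul_sum]
      refine Finset.sum_congr rfl (fun u _ => ?_)
      rw [hu, Matrix.smul_mul, Matrix.mul_smul]
    exact IsKr_inv (dualTI hH hK h3 (MS_inv hg h1) h2 h1 hψ' he) h2
  · push Not at hall
    obtain ⟨y₁, hy₁, hQ⟩ := hall
    have hNN : nn y₁ ψ (1 : Matrix A A F) * (g * nn y' ψ' (1 : Matrix A A F) * g') = 0 := by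
      have : nn y₁ ψ (1 : Matrix A A F) * (g * nn y' ψ' (1 : Matrix A A F) * g')
          = col A y₁ * (row A ψ * g * col A y') * row A ψ' * g' := by
        unfold nn
        simp only [Matrix.mul_assoc, Matrix.one_mul]
      rw [this, h0, Matrix.mul_zero, Matrix.zero_mul, Matrix.zero_mul]
    have hm := MS_comm hN'sq (nn_sq hy₁ (1 : Matrix A A F) 1) hNN hN'm (root_mem hH hy₁)
    have e : (g * nn y' ψ' (1 : Matrix A A F) * g') * nn y₁ ψ (1 : Matrix A A F)
        = (g * col A y' * (row A ψ' * g' * col A y₁)) * row A ψ := by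
      unfold nn
      simp only [Matrix.mul_assoc, Matrix.one_mul]
    rw [e] at hm
    obtain ⟨y₂, hy₂⟩ := col_of_mem hH hK h3 hψ _ (by
      rw [← Matrix.mul_assoc (row A ψ), ← Matrix.mul_assoc (row A ψ), h0, Matrix.zero_mul]) hm
    have hy₂0 : y₂ ≠ 0 := by
      rintro rfl
      rw [col_zero] at hy₂
      obtain ⟨η, hη⟩ := exists_dot_one hy'
      apply hQ
      calc row A ψ' * g' * col A y₁
          = (row A η * g') * (g * col A y' * (row A ψ' * g' * col A y₁)) := by
            rw [Matrix.mul_assoc g, ← Matrix.mul_assoc (row A η * g'), Matrix.mul_assoc (row A η), h2,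
              Matrix.mul_one, row_col_assoc, hη, one_smul]
        _ = 0 := by rw [hy₂, Matrix.mul_zero]
    exact TI' hH hK h3 hg h1 h2 hy₂0 hy₂

end

/-- `z ⊗ 1_B`. -/
def colA (B : Type) [DecidableEq B] {A : Type} {F : Type*} [Field F] (z : A → F) : Matrix (A × B) B F :=
  fun p u => if p.2 = u then z p.1 else 0

/-- `ζ ⊗ 1_B`. -/
def rowA (B : Type) [DecidableEq B] {A : Type} {F : Type*} [Field F] (ζ : A → F) : Matrix B (A × B) F :=
  fun t p => if t = p.2 then ζ p.1 else 0

lemma rowA_kron_colA (α : Matrix A A F) (β : Matrix B B F) (ζ z : A → F) :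
    rowA B ζ * (α ⊗ₖ β) * colA B z = (ζ ⬝ᵥ (α *ᵥ z)) • β := by
  ext t u
  simp only [Matrix.mul_apply, Fintype.sum_prod_type, rowA, colA, Matrix.kroneckerMap_apply,
    Matrix.smul_apply, smul_eq_mul, dotProduct, Matrix.mulVec]
  have h1 : ∀ (j : A) (v : B), (∑ i : A, ∑ w : B, (if t = w then ζ i else 0) * (α i j * β w v))
      = ∑ i : A, ζ i * (α i j * β t v) := by
    intro j v
    refine Finset.sum_congr rfl (fun i _ => ?_)
    rw [Finset.sum_eq_single t]
    · simp
    · intro w _ hw
      simp [Ne.symm hw]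
    · simp
  simp only [h1]
  have h2 : ∀ j : A, (∑ v : B, (∑ i : A, ζ i * (α i j * β t v)) * (if v = u then z j else 0))
      = (∑ i : A, ζ i * (α i j * β t u)) * z j := by
    intro j
    rw [Finset.sum_eq_single u]
    · simp
    · intro w _ hw
      simp [hw]
    · simp
  simp only [h2]
  simp only [Finset.sum_mul, Finset.mul_sum]
  rw [Finset.sum_comm]
  refine Finset.sum_congr rfl (fun i _ => Finset.sum_congr rfl (fun j _ => ?_))
  ring

section

variable {g g' : Matrix (A × B) (A × B) F}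

/-- a conjugate of a root element which is a Kronecker product. -/
lemma root_conj [Nonempty A] [Nonempty B] (hH : HasH G) (hK : KF G) (h3 : 3 ≤ Fintype.card B)
    (hAB : Fintype.card A < Fintype.card B)
    (hg : g ∈ MS G) (h1 : g * g' = 1) (h2 : g' * g = 1) {y' ψ' : B → F} (hf : ψ' ⬝ᵥ y' = 0)
    (hy' : y' ≠ 0) (hψ' : ψ' ≠ 0) (hk : IsKr (1 + g * nn y' ψ' (1 : Matrix A A F) * g')) : IsKr g := by
  obtain ⟨α, β, hαβ⟩ := hk
  have hsq := conj_sq (g := g) (g' := g') h2 (nn_sq hf (1 : Matrix A A F) 1)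
  have hun := unip_mul hsq
  rw [hαβ] at hun
  obtain ⟨hα, hβ⟩ := kr_units hun
  have hfac : g * nn y' ψ' (1 : Matrix A A F) * g' = (g * col A y') * (row A ψ' * g') := by
    unfold nn
    simp only [Matrix.mul_assoc, Matrix.one_mul]
  have hsc : ∃ c : F, α = c • 1 := by
    by_contra hcon
    push Not at hcon
    obtain ⟨z, hz⟩ := exists_not_eigen hcon
    obtain ⟨ζ, hζ1, hζ0⟩ := exists_dot_one_zero hz
    have e1 : rowA B ζ * (1 + g * nn y' ψ' (1 : Matrix A A F) * g') * colA B z = β := by
      rw [hαβ, rowA_kron_colA, hζ1, one_smul]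
    have e2 : rowA B ζ * (1 : Matrix (A × B) (A × B) F) * colA B z = 0 := by
      rw [← Matrix.one_kronecker_one, rowA_kron_colA, Matrix.one_mulVec, hζ0, zero_smul]
    rw [Matrix.mul_add, Matrix.add_mul, e2, zero_add, hfac] at e1
    have e3 : β = (rowA B ζ * (g * col A y')) * ((row A ψ' * g') * colA B z) := by
      rw [← e1]
      simp only [Matrix.mul_assoc]
    have r1 : β.rank ≤ Fintype.card A := by
      rw [e3]
      exact (Matrix.rank_mul_le_left _ _).trans (Matrix.rank_le_card_width _)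
    have r2 : β.rank = Fintype.card B :=
      Matrix.rank_of_isUnit _ ((Matrix.isUnit_iff_isUnit_det _).2 hβ)
    omega
  obtain ⟨c, rfl⟩ := hsc
  have hcol : ∀ u : B, g * col A y' * (row A ψ' * g' * col A (Pi.single u (1 : F)))
      = col A ((c • β) *ᵥ (Pi.single u (1 : F)) - Pi.single u (1 : F)) := by
    intro u
    have : g * col A y' * (row A ψ' * g' * col A (Pi.single u (1 : F)))
        = (1 + g * nn y' ψ' (1 : Matrix A A F) * g') * col A (Pi.single u (1 : F))
          - col A (Pi.single u (1 : F)) := by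
      rw [Matrix.add_mul, Matrix.one_mul, add_sub_cancel_left, hfac]
      simp only [Matrix.mul_assoc]
    rw [this, hαβ, Matrix.smul_kronecker, ← Matrix.kronecker_smul, kron_mul_col, Matrix.mul_one, col_sub]
  by_cases hall : ∀ u : B, (c • β) *ᵥ (Pi.single u (1 : F)) - Pi.single u (1 : F) = 0
  · exfalso
    have hM : (g * col A y') * (row A ψ' * g') = 0 := by
      rw [eq_sum_mul_col_row ((g * col A y') * (row A ψ' * g'))]
      refine Finset.sum_eq_zero (fun u _ => ?_)
      have := hcol u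
      rw [hall u, col_zero] at this
      rw [Matrix.mul_assoc (g * col A y'), this, Matrix.zero_mul]
    obtain ⟨η, hη⟩ := exists_dot_one hy'
    obtain ⟨η', hη'⟩ := exists_dot_one hψ'
    rw [dotProduct_comm] at hη'
    have : (row A η * g') * ((g * col A y') * (row A ψ' * g')) * (g * col A η') = (1 : Matrix A A F) := by
      calc (row A η * g') * ((g * col A y') * (row A ψ' * g')) * (g * col A η')
          = row A η * (g' * g) * col A y' * (row A ψ' * (g' * g) * col A η') := by
            simp only [Matrix.mul_assoc]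
        _ = 1 := by
            rw [h2, Matrix.mul_one, Matrix.mul_one, row_mul_col, row_mul_col, hη, hη', one_smul, Matrix.mul_one]
    rw [hM, Matrix.mul_zero, Matrix.zero_mul] at this
    exact zero_ne_one this
  · push Not at hall
    obtain ⟨u, hu⟩ := hall
    exact TI' hH hK h3 hg h1 h2 hu (hcol u)

end

end Cfsg.Agent.Lib.Helper99.Tens
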