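import Mathlib
import Cfsg.Agent.Lib.Helper99.TensE

set_option autoImplicit false
set_option linter.unusedSimpArgs false
set_option linter.unusedVariables false
set_option linter.unusedSectionVars false

/-! The minimal rank argument and the core theorem for `SL(A) ⊗ SL(B) ≤ G`. -/

namespace Cfsg.Agent.Lib.Helper99.Tens

open Matrix
open scoped Kronecker

variable {A B : Type} [Fintype A] [DecidableEq A] [Fintype B] [DecidableEq B] {F : Type*} [Field F]
variable {G : Subgroup (GL (A × B) F)}

lemma rank_lt_of_ker {P S : Matrix A A F} (h : ∀ v, P *ᵥ v = 0 → S *ᵥ v = 0) {a₁ : A → F}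
    (h1 : S *ᵥ a₁ = 0) (h2 : P *ᵥ a₁ ≠ 0) : S.rank < P.rank := by
  have e1 := LinearMap.finrank_range_add_finrank_ker S.mulVecLin
  have e2 := LinearMap.finrank_range_add_finrank_ker P.mulVecLin
  have hlt : LinearMap.ker P.mulVecLin < LinearMap.ker S.mulVecLin := by
    refine lt_of_le_of_ne ?_ ?_
    · intro v hv
      rw [LinearMap.mem_ker, Matrix.mulVecLin_apply] at hv ⊢
      exact h v hv
    · intro heq
      have : a₁ ∈ LinearMap.ker P.mulVecLin := by
        rw [heq, LinearMap.mem_ker, Matrix.mulVecLin_apply]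
        exact h1
      rw [LinearMap.mem_ker, Matrix.mulVecLin_apply] at this
      exact h2 this
  have := Submodule.finrank_lt_finrank_of_lt hlt
  unfold Matrix.rank
  omega

/-- the linear map `y ↦ (R * col y) v`. -/
def colLin (R : Matrix A (A × B) F) (v : A → F) : (B → F) →ₗ[F] (A → F) where
  toFun y := (R * col A y) *ᵥ v
  map_add' y y' := by rw [col_add, Matrix.mul_add, Matrix.add_mulVec]
  map_smul' c y := by rw [col_smul, Matrix.mul_smul, Matrix.smul_mulVec, RingHom.id_apply]

lemma colLin_apply (R : Matrix A (A × B) F) (v : A → F) (y : B → F) :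
    colLin R v y = (R * col A y) *ᵥ v := rfl

lemma descent [Nonempty A] [Nonempty B] (hH : HasH G) (hK : KF G) (h3 : 3 ≤ Fintype.card B)
    (hAB : Fintype.card A < Fintype.card B) :
    ∀ (r : ℕ) (g g' : Matrix (A × B) (A × B) F) (y' ψ : B → F), g ∈ MS G → g * g' = 1 → g' * g = 1 →
      ¬ IsKr g → y' ≠ 0 → ψ ≠ 0 → (row A ψ * g * col A y').rank = r → r < Fintype.card A → False := by
  intro r
  induction r using Nat.strong_induction_on with
  | _ r ih =>
    intro g g' y' ψ hg h1 h2 hnk hy' hψ hr hrA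
    set P := row A ψ * g * col A y' with hP
    have hP0 : P ≠ 0 := fun h0 => hnk (star hH hK h3 hg h1 h2 hy' hψ h0)
    have : ∃ a₁ : A → F, P *ᵥ a₁ ≠ 0 := by
      by_contra hcon
      push Not at hcon
      apply hP0
      ext i j
      have := congrFun (hcon (Pi.single j 1)) i
      simpa using this
    obtain ⟨a₁, ha₁⟩ := this
    obtain ⟨ψ', hψ', hf', _⟩ := exists_perp_two h3 y' y'
    rw [dotProduct_comm] at hf'
    -- choice of y₁
    let L : (B → F) →ₗ[F] (LinearMap.range P.mulVecLin × F) :=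
      LinearMap.prod (P.mulVecLin.rangeRestrict ∘ₗ colLin (row A ψ' * g') (P *ᵥ a₁)) (dotProductBilin F F ψ)
    obtain ⟨y₁, hy₁, hL⟩ := exists_ker L (by
      rw [Module.finrank_prod, Module.finrank_self]
      have : Module.finrank F (LinearMap.range P.mulVecLin) = r := hr
      omega)
    have hL1 : P *ᵥ ((row A ψ' * g' * col A y₁) *ᵥ (P *ᵥ a₁)) = 0 := by
      have := congrArg Prod.fst hL
      have h' := congrArg Subtype.val this
      exact h'
    have hL2 : ψ ⬝ᵥ y₁ = 0 := congrArg Prod.snd hL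
    set Q := row A ψ' * g' * col A y₁ with hQ
    -- the element X = 1 + N'
    have hsq := conj_sq (g := g) (g' := g') h2 (nn_sq hf' (1 : Matrix A A F) 1)
    set N' := g * nn y' ψ' (1 : Matrix A A F) * g' with hN'
    have hX : 1 + N' ∈ MS G := MS_conj hg h1 (root_mem hH hf')
    have hXX : (1 + N') * (1 - N') = 1 := unip_mul hsq
    have hXX' : (1 - N') * (1 + N') = 1 := mul_eq_one_comm.1 hXX
    have hXk : ¬ IsKr (1 + N') := fun hk => hnk (root_conj hH hK h3 hAB hg h1 h2 hf' hy' hψ' hk)
    -- the element w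
    have hsq2 := conj_sq (g := 1 + N') (g' := 1 - N') hXX' (nn_sq hL2 (1 : Matrix A A F) 1)
    have hw : 1 + (1 + N') * nn y₁ ψ (1 : Matrix A A F) * (1 - N') ∈ MS G := MS_conj hX hXX (root_mem hH hL2)
    have hww := unip_mul hsq2
    have hww' := mul_eq_one_comm.1 hww
    have hwk : ¬ IsKr (1 + (1 + N') * nn y₁ ψ (1 : Matrix A A F) * (1 - N')) :=
      fun hk => hXk (root_conj hH hK h3 hAB hX hXX hXX' hL2 hy₁ hψ hk)
    -- the block
    have hb0 : row A ψ * N' * col A y₁ = P * Q := by
      rw [hN', hP, hQ]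
      unfold nn
      simp only [Matrix.mul_assoc, Matrix.one_mul]
    have hb1 : row A ψ * (1 + N') * col A y₁ = P * Q := by
      rw [Matrix.mul_add, Matrix.add_mul, Matrix.mul_one, row_mul_col, hL2, zero_smul, zero_add, hb0]
    have hb2 : row A ψ * (1 - N') * col A y₁ = - (P * Q) := by
      rw [Matrix.mul_sub, Matrix.sub_mul, Matrix.mul_one, row_mul_col, hL2, zero_smul, zero_sub, hb0]
    have hb : row A ψ * (1 + (1 + N') * nn y₁ ψ (1 : Matrix A A F) * (1 - N')) * col A y₁
        = (P * Q * P) * (- Q) := by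
      have : row A ψ * ((1 + N') * nn y₁ ψ (1 : Matrix A A F) * (1 - N')) * col A y₁
          = (row A ψ * (1 + N') * col A y₁) * (row A ψ * (1 - N') * col A y₁) := by
        unfold nn
        simp only [Matrix.mul_assoc, Matrix.one_mul]
      rw [Matrix.mul_add, Matrix.add_mul, Matrix.mul_one, row_mul_col, hL2, zero_smul, zero_add, this, hb1, hb2]
      simp only [Matrix.mul_assoc, Matrix.mul_neg]
    have hrk : (P * Q * P).rank < P.rank := by
      refine rank_lt_of_ker (a₁ := a₁) ?_ ?_ ha₁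
      · intro v hv
        rw [← Matrix.mulVec_mulVec, hv, Matrix.mulVec_zero]
      · rw [← Matrix.mulVec_mulVec, ← Matrix.mulVec_mulVec]
        exact hL1
    have hrk2 : (row A ψ * (1 + (1 + N') * nn y₁ ψ (1 : Matrix A A F) * (1 - N')) * col A y₁).rank < r := by
      rw [hb]
      exact lt_of_le_of_lt (Matrix.rank_mul_le_left _ _) (hr ▸ hrk)
    exact ih _ hrk2 _ _ y₁ ψ hw hww hww' hwk hy₁ hψ rfl (hrk2.trans hrA)

/-- if `𝒦 = F` every element of `G` is a Kronecker product. -/
theorem isKr_of_KF [Nonempty A] [Nonempty B] (hH : HasH G) (hK : KF G) (h3 : 3 ≤ Fintype.card B)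
    (hAB : Fintype.card A < Fintype.card B) {g g' : Matrix (A × B) (A × B) F} (hg : g ∈ MS G)
    (h1 : g * g' = 1) : IsKr g := by
  by_contra hnk
  have h2 : g' * g = 1 := mul_eq_one_comm.1 h1
  obtain ⟨t⟩ := ‹Nonempty B›
  obtain ⟨i⟩ := ‹Nonempty A›
  have hψ : (Pi.single t (1 : F) : B → F) ≠ 0 := by
    intro h
    have := congrFun h t
    simp at this
  have ha : (Pi.single i (1 : F) : A → F) ≠ 0 := by
    intro h
    have := congrFun h i
    simp at this
  obtain ⟨y', hy', hL⟩ := exists_ker (colLin (row A (Pi.single t (1 : F)) * g) (Pi.single i (1 : F)))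
    (by rwa [Module.finrank_fintype_fun_eq_card])
  rw [colLin_apply] at hL
  have hrk : (row A (Pi.single t (1 : F)) * g * col A y').rank < (1 : Matrix A A F).rank := by
    refine rank_lt_of_ker (a₁ := Pi.single i (1 : F)) ?_ hL ?_
    · intro v hv
      rw [Matrix.one_mulVec] at hv
      rw [hv, Matrix.mulVec_zero]
    · rwa [Matrix.one_mulVec]
  rw [Matrix.rank_one] at hrk
  haveI : Nonempty A := ⟨i⟩
  haveI : Nonempty B := ⟨t⟩
  exact descent hH hK h3 hAB _ g g' y' _ hg h1 h2 hnk hy' hψ rfl hrk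

/-- **Core theorem**: a subgroup containing `SL(A) ⊗ SL(B)` and an element which is not a Kronecker
product contains all elementary transvections. -/
theorem core [Nonempty A] [Nonempty B] (hH : HasH G) (h3 : 3 ≤ Fintype.card B)
    (hAB : Fintype.card A < Fintype.card B)
    (hex : 3 ≤ Fintype.card A ∨ ∃ c : F, c ≠ 0 ∧ c ≠ 1) {g : GL (A × B) F} (hg : g ∈ G)
    (hnk : ¬ IsKr (g : Matrix (A × B) (A × B) F)) (p q : A × B) (hpq : p ≠ q) (c : F) :
    1 + Matrix.single p q c ∈ MS G := by
  by_cases hK : KF G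
  · exact absurd (isKr_of_KF hH hK h3 hAB (MS_coe hg) (g' := ((g⁻¹ : GL (A × B) F) : Matrix (A × B) (A × B) F))
      (by rw [← Units.val_mul, mul_inv_cancel, Units.val_one])) hnk
  · unfold KF at hK
    push Not at hK
    obtain ⟨y, ψ, hf, hy, hψ, κ, hκ, hns⟩ := hK
    exact elem_mem hH h3 hex hf hy hψ hκ hns p q hpq c

end Cfsg.Agent.Lib.Helper99.Tens
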