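import Mathlib
import Cfsg.Agent.Lib.Helper99.TensF
import Cfsg.Agent.Lib.Helper94.SympSL

set_option autoImplicit false
set_option linter.unusedSimpArgs false
set_option linter.unusedVariables false
set_option linter.unusedSectionVars false

/-! Symplectic calculus for `Sp(A) ⊗ Sp(B) ≤ Ω⁺(A ⊗ B)`: basics. -/

namespace Cfsg.Agent.Lib.Helper99.TSp

open Matrix
open scoped Kronecker
open Cfsg.Agent.Lib.Helper99.Tens

section one

variable {n : Type} [Fintype n] [DecidableEq n] {F : Type*} [Field F]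

/-- alternating invertible matrices. -/
structure Sym (J : Matrix n n F) : Prop where
  alt : ∀ x : n → F, (J *ᵥ x) ⬝ᵥ x = 0
  unit : IsUnit J.det

/-- the pairing `⟨x, w⟩ = xᵀ J w`. -/
def pr (J : Matrix n n F) (x w : n → F) : F := (J *ᵥ w) ⬝ᵥ x

variable {J : Matrix n n F}

lemma pr_add_left (x x' w : n → F) : pr J (x + x') w = pr J x w + pr J x' w := by
  unfold pr; rw [dotProduct_add]

lemma pr_add_right (x w w' : n → F) : pr J x (w + w') = pr J x w + pr J x w' := by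
  unfold pr; rw [Matrix.mulVec_add, add_dotProduct]

lemma pr_smul_left (c : F) (x w : n → F) : pr J (c • x) w = c * pr J x w := by
  unfold pr; rw [dotProduct_smul, smul_eq_mul]

lemma pr_smul_right (c : F) (x w : n → F) : pr J x (c • w) = c * pr J x w := by
  unfold pr; rw [Matrix.mulVec_smul, smul_dotProduct, smul_eq_mul]

lemma pr_zero_left (w : n → F) : pr J 0 w = 0 := by
  unfold pr; rw [dotProduct_zero]

lemma pr_zero_right (x : n → F) : pr J x 0 = 0 := by
  unfold pr; rw [Matrix.mulVec_zero, zero_dotProduct]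

lemma pr_neg_left (x w : n → F) : pr J (-x) w = - pr J x w := by
  unfold pr; rw [dotProduct_neg]

lemma pr_neg_right (x w : n → F) : pr J x (-w) = - pr J x w := by
  unfold pr; rw [Matrix.mulVec_neg, neg_dotProduct]

lemma pr_sub_left (x x' w : n → F) : pr J (x - x') w = pr J x w - pr J x' w := by
  unfold pr; rw [dotProduct_sub]

lemma pr_sub_right (x w w' : n → F) : pr J x (w - w') = pr J x w - pr J x w' := by
  unfold pr; rw [Matrix.mulVec_sub, sub_dotProduct]

lemma pr_self (hJ : Sym J) (x : n → F) : pr J x x = 0 := hJ.alt x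

lemma pr_swap (hJ : Sym J) (x w : n → F) : pr J x w = - pr J w x := by
  have h := pr_self hJ (x + w)
  rw [pr_add_left, pr_add_right, pr_add_right, pr_self hJ, pr_self hJ] at h
  linear_combination h

lemma pr_single (i j : n) : pr J (Pi.single i 1) (Pi.single j 1) = J i j := by
  unfold pr
  rw [dotProduct_single, mul_one, Matrix.mulVec_single_one]
  rfl

lemma Sym.transpose (hJ : Sym J) : Jᵀ = -J := by
  ext i j
  rw [Matrix.transpose_apply, Matrix.neg_apply, ← pr_single (J := J) j i, ← pr_single (J := J) i j, pr_swap hJ]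

lemma Sym.mul_inv (hJ : Sym J) : J * J⁻¹ = 1 := Matrix.mul_nonsing_inv _ hJ.unit

lemma Sym.inv_mul (hJ : Sym J) : J⁻¹ * J = 1 := Matrix.nonsing_inv_mul _ hJ.unit

lemma Sym.inv_transpose (hJ : Sym J) : (J⁻¹)ᵀ = -J⁻¹ := by
  rw [Matrix.transpose_nonsing_inv, hJ.transpose]
  apply Matrix.inv_eq_right_inv
  rw [Matrix.neg_mul, Matrix.mul_neg, neg_neg, hJ.mul_inv]

lemma Sym.inj (hJ : Sym J) {x : n → F} (h : J *ᵥ x = 0) : x = 0 := by
  have : J⁻¹ *ᵥ (J *ᵥ x) = x := by rw [Matrix.mulVec_mulVec, hJ.inv_mul, Matrix.one_mulVec]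
  rw [← this, h, Matrix.mulVec_zero]

lemma vecMul_eq (hJ : Sym J) (x : n → F) : x ᵥ* J = -(J *ᵥ x) := by
  rw [← Matrix.mulVec_transpose, hJ.transpose, Matrix.neg_mulVec]

/-- independent pairs. -/
def Ind (y w : n → F) : Prop := ∀ a b : F, a • y + b • w = 0 → a = 0 ∧ b = 0

lemma Ind.symm {y w : n → F} (h : Ind y w) : Ind w y := by
  intro a b hab
  rw [add_comm] at hab
  exact (h b a hab).symm

lemma Ind.left_ne {y w : n → F} (h : Ind y w) : y ≠ 0 := by
  rintro rfl
  have := h 1 0 (by simp)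
  exact one_ne_zero this.1

lemma Ind.right_ne {y w : n → F} (h : Ind y w) : w ≠ 0 := h.symm.left_ne

lemma Ind.not_smul {y w : n → F} (h : Ind y w) (c : F) : w ≠ c • y := by
  intro hc
  have := h c (-1) (by rw [hc]; simp)
  exact one_ne_zero (neg_eq_zero.1 this.2)

lemma ind_of_not_smul {y w : n → F} (hy : y ≠ 0) (h : ∀ c : F, w ≠ c • y) : Ind y w := by
  intro a b hab
  by_cases hb : b = 0
  · subst hb
    rw [zero_smul, add_zero] at hab
    exact ⟨(smul_eq_zero.1 hab).resolve_right hy, rfl⟩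
  · exfalso
    apply h (-(b⁻¹ * a))
    have : w = b⁻¹ • (b • w) := by rw [smul_smul, inv_mul_cancel₀ hb, one_smul]
    rw [this, eq_neg_of_add_eq_zero_right hab, smul_neg, smul_smul, neg_smul]

lemma Ind.add_left {y w : n → F} (h : Ind y w) (c : F) : Ind (y + c • w) w := by
  intro a b hab
  have := h a (a * c + b) (by rw [← hab]; module)
  obtain ⟨h1, h2⟩ := this
  subst h1
  simpa using h2

/-- a vector pairing to `1` with `w` and `0` with `y`. -/
lemma exists_pr_one_zero (hJ : Sym J) {y w : n → F} (h : ∀ c : F, w ≠ c • y) :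
    ∃ v : n → F, pr J v w = 1 ∧ pr J v y = 0 := by
  have h' : ∀ c : F, J *ᵥ w ≠ c • (J *ᵥ y) := by
    intro c hc
    apply h c
    have : J *ᵥ (w - c • y) = 0 := by rw [Matrix.mulVec_sub, Matrix.mulVec_smul, hc, sub_self]
    exact sub_eq_zero.1 (hJ.inj this)
  obtain ⟨ψ, h1, h2⟩ := exists_dot_one_zero h'
  refine ⟨ψ, ?_, ?_⟩
  · unfold pr; rw [dotProduct_comm]; exact h1
  · unfold pr; rw [dotProduct_comm]; exact h2

lemma exists_pr_one (hJ : Sym J) {w : n → F} (h : w ≠ 0) : ∃ v : n → F, pr J v w = 1 := by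
  obtain ⟨v, hv, _⟩ := exists_pr_one_zero hJ (y := 0) (w := w) (fun c => by rwa [smul_zero])
  exact ⟨v, hv⟩

/-- representing a covector. -/
lemma exists_repr (hJ : Sym J) (ψ : n → F) : ∃ w : n → F, J *ᵥ w = ψ :=
  ⟨J⁻¹ *ᵥ ψ, by rw [Matrix.mulVec_mulVec, hJ.mul_inv, Matrix.one_mulVec]⟩

/-- a nonzero vector orthogonal to a list of four vectors. -/
lemma exists_perp4 (h : 5 ≤ Fintype.card n) (a b c d : n → F) :
    ∃ u : n → F, u ≠ 0 ∧ pr J u a = 0 ∧ pr J u b = 0 ∧ pr J u c = 0 ∧ pr J u d = 0 := by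
  let L : (n → F) →ₗ[F] ((F × F) × (F × F)) :=
    LinearMap.prod (LinearMap.prod (dotProductBilin F F (J *ᵥ a)) (dotProductBilin F F (J *ᵥ b)))
      (LinearMap.prod (dotProductBilin F F (J *ᵥ c)) (dotProductBilin F F (J *ᵥ d)))
  obtain ⟨u, hu, hL⟩ := exists_ker L (by
    simp only [Module.finrank_prod, Module.finrank_self]; omega)
  refine ⟨u, hu, ?_, ?_, ?_, ?_⟩
  · exact congrArg (fun p => p.1.1) hL
  · exact congrArg (fun p => p.1.2) hL
  · exact congrArg (fun p => p.2.1) hL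
  · exact congrArg (fun p => p.2.2) hL

/-- isometries. -/
def IsoM (J : Matrix n n F) (s : Matrix n n F) : Prop := ∀ x w, pr J (s *ᵥ x) (s *ᵥ w) = pr J x w

lemma IsoM.eq {s : Matrix n n F} (h : IsoM J s) : sᵀ * J * s = J := by
  ext i j
  rw [← pr_single (J := J), ← h, ← pr_single (J := sᵀ * J * s)]
  unfold pr
  rw [← Matrix.mulVec_mulVec, ← Matrix.mulVec_mulVec, Matrix.mulVec_transpose, Matrix.dotProduct_mulVec,
    dotProduct_comm]

lemma isoM_of_eq {s : Matrix n n F} (h : sᵀ * J * s = J) : IsoM J s := by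
  intro x w
  conv_rhs => rw [← h]
  unfold pr
  rw [← Matrix.mulVec_mulVec, ← Matrix.mulVec_mulVec, Matrix.mulVec_transpose, Matrix.dotProduct_mulVec,
    dotProduct_comm]

lemma IsoM.J_mul {s s' : Matrix n n F} (h : IsoM J s) (hs : s * s' = 1) : s'ᵀ * J = J * s := by
  have h2 : s' * s = 1 := mul_eq_one_comm.1 hs
  calc s'ᵀ * J = s'ᵀ * (sᵀ * J * s) := by rw [h.eq]
    _ = (s * s')ᵀ * J * s := by rw [Matrix.transpose_mul]; simp only [Matrix.mul_assoc]
    _ = J * s := by rw [hs, Matrix.transpose_one, Matrix.one_mul]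

lemma IsoM.mul_J {s s' : Matrix n n F} (h : IsoM J s) (hs : s * s' = 1) : sᵀ * J = J * s' := by
  calc sᵀ * J = sᵀ * J * (s * s') := by rw [hs, Matrix.mul_one]
    _ = (sᵀ * J * s) * s' := by simp only [Matrix.mul_assoc]
    _ = J * s' := by rw [h.eq]

lemma IsoM.inv {s s' : Matrix n n F} (h : IsoM J s) (hs : s * s' = 1) : IsoM J s' := by
  intro x w
  have h2 : s * s' = 1 := hs
  rw [← h (s' *ᵥ x), Matrix.mulVec_mulVec, Matrix.mulVec_mulVec, h2, Matrix.one_mulVec, Matrix.one_mulVec]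

/-- the symplectic transvection. -/
def tv (J : Matrix n n F) (y : n → F) (c : F) : Matrix n n F := 1 + c • vecMulVec y (J *ᵥ y)

lemma tv_mulVec (y : n → F) (c : F) (x : n → F) : tv J y c *ᵥ x = x + (c * pr J x y) • y := by
  unfold tv pr
  rw [Matrix.add_mulVec, Matrix.one_mulVec, Matrix.smul_mulVec, Matrix.vecMulVec_mulVec, op_smul_eq_smul, smul_smul]

lemma tv_mul (hJ : Sym J) (y : n → F) (c : F) : tv J y c * tv J y (-c) = 1 := by
  unfold tv
  have : vecMulVec y (J *ᵥ y) * vecMulVec y (J *ᵥ y) = 0 := by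
    rw [vmv_mul_vmv, hJ.alt, zero_smul]
  simp only [Matrix.add_mul, Matrix.mul_add, Matrix.smul_mul, Matrix.mul_smul, this]
  simp

lemma tv_iso (hJ : Sym J) (y : n → F) (c : F) : IsoM J (tv J y c) := by
  intro x w
  rw [tv_mulVec, tv_mulVec]
  simp only [pr_add_left, pr_add_right, pr_smul_left, pr_smul_right, pr_self hJ]
  rw [pr_swap hJ y w]
  ring

/-- the adjoint. -/
noncomputable def adj (J : Matrix n n F) (κ : Matrix n n F) : Matrix n n F := J⁻¹ * κᵀ * J

lemma adj_mul (hJ : Sym J) (κ κ' : Matrix n n F) : adj J (κ * κ') = adj J κ' * adj J κ := by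
  unfold adj
  rw [Matrix.transpose_mul]
  calc J⁻¹ * (κ'ᵀ * κᵀ) * J = J⁻¹ * κ'ᵀ * 1 * κᵀ * J := by simp only [Matrix.mul_assoc, Matrix.one_mul]
    _ = _ := by rw [← hJ.mul_inv]; simp only [Matrix.mul_assoc]

lemma adj_one (hJ : Sym J) : adj J 1 = 1 := by
  unfold adj
  rw [Matrix.transpose_one, Matrix.mul_one, hJ.inv_mul]

lemma adj_add (κ κ' : Matrix n n F) : adj J (κ + κ') = adj J κ + adj J κ' := by
  unfold adj
  rw [Matrix.transpose_add, Matrix.mul_add, Matrix.add_mul]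

lemma adj_smul (c : F) (κ : Matrix n n F) : adj J (c • κ) = c • adj J κ := by
  unfold adj
  rw [Matrix.transpose_smul, Matrix.mul_smul, Matrix.smul_mul]

lemma adj_neg (κ : Matrix n n F) : adj J (-κ) = - adj J κ := by
  unfold adj
  rw [Matrix.transpose_neg, Matrix.mul_neg, Matrix.neg_mul]

lemma adj_sub (κ κ' : Matrix n n F) : adj J (κ - κ') = adj J κ - adj J κ' := by
  rw [sub_eq_add_neg, adj_add, adj_neg, sub_eq_add_neg]

lemma adj_zero : adj J 0 = 0 := by
  unfold adj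
  rw [Matrix.transpose_zero, Matrix.mul_zero, Matrix.zero_mul]

lemma adj_adj (hJ : Sym J) (κ : Matrix n n F) : adj J (adj J κ) = κ := by
  unfold adj
  rw [Matrix.transpose_mul, Matrix.transpose_mul, Matrix.transpose_transpose, hJ.transpose, hJ.inv_transpose]
  calc J⁻¹ * (-J * (κ * -J⁻¹)) * J = (J⁻¹ * J) * κ * (J⁻¹ * J) := by
        simp only [Matrix.mul_assoc, Matrix.neg_mul, Matrix.mul_neg, neg_neg]
    _ = κ := by rw [hJ.inv_mul, Matrix.one_mul, Matrix.mul_one]

lemma adj_smul_one (hJ : Sym J) (c : F) : adj J (c • (1 : Matrix n n F)) = c • 1 := by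
  rw [adj_smul, adj_one hJ]

lemma adj_vmv (hJ : Sym J) (z z' : n → F) :
    adj J (vecMulVec z (J *ᵥ z')) = - vecMulVec z' (J *ᵥ z) := by
  unfold adj
  rw [Matrix.transpose_vecMulVec, Matrix.mul_vecMulVec, Matrix.vecMulVec_mul, Matrix.mulVec_mulVec, hJ.inv_mul,
    Matrix.one_mulVec, vecMul_eq hJ, Matrix.vecMulVec_neg]

lemma adj_conj (hJ : Sym J) {r r' : Matrix n n F} (h : IsoM J r) (hr : r * r' = 1) (κ : Matrix n n F) :
    adj J (r * κ * r') = r * adj J κ * r' := by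
  unfold adj
  rw [Matrix.transpose_mul, Matrix.transpose_mul]
  have e1 : rᵀ * J = J * r' := h.mul_J hr
  have e2 : J⁻¹ * r'ᵀ = r * J⁻¹ := by
    calc J⁻¹ * r'ᵀ = J⁻¹ * (r'ᵀ * J) * J⁻¹ := by
          rw [Matrix.mul_assoc, Matrix.mul_assoc, hJ.mul_inv, Matrix.mul_one]
      _ = r * J⁻¹ := by rw [h.J_mul hr, ← Matrix.mul_assoc, hJ.inv_mul, Matrix.one_mul]
  calc J⁻¹ * (r'ᵀ * (κᵀ * rᵀ)) * J = (J⁻¹ * r'ᵀ) * κᵀ * (rᵀ * J) := by simp only [Matrix.mul_assoc]
    _ = _ := by rw [e1, e2]; simp only [Matrix.mul_assoc]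

lemma pr_adj (hJ : Sym J) (κ : Matrix n n F) (x w : n → F) :
    pr J (κ *ᵥ x) w = pr J x (adj J κ *ᵥ w) := by
  unfold pr adj
  rw [Matrix.mulVec_mulVec, ← Matrix.mul_assoc, ← Matrix.mul_assoc, hJ.mul_inv, Matrix.one_mul,
    ← Matrix.mulVec_mulVec, Matrix.mulVec_transpose, Matrix.dotProduct_mulVec]

end one

end Cfsg.Agent.Lib.Helper99.TSp
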