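import Mathlib
import Cfsg.Agent.Lib.Helper99.SpA

set_option autoImplicit false
set_option linter.unusedSimpArgs false
set_option linter.unusedVariables false
set_option linter.unusedSectionVars false

/-! Symplectic calculus: Witt's lemma for pairs, the elements `N y w κ`, the `♯` operation. -/

namespace Cfsg.Agent.Lib.Helper99.TSp

open Matrix hiding col row
open scoped Kronecker
open Cfsg.Agent.Lib.Helper99.Tens

section witt

variable {n : Type} [Fintype n] [DecidableEq n] {F : Type*} [Field F] {J : Matrix n n F}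

/-- the bilinear form. -/
noncomputable def Bf (J : Matrix n n F) : LinearMap.BilinForm F (n → F) := Matrix.toBilin' J

lemma Bf_apply (x w : n → F) : Bf J x w = pr J x w := by
  unfold Bf pr
  rw [Matrix.toBilin'_apply', dotProduct_comm]

lemma Bf_alt (hJ : Sym J) : (Bf J).IsAlt := fun x => by rw [Bf_apply]; exact pr_self hJ x

lemma Bf_nondeg (hJ : Sym J) : (Bf J).Nondegenerate :=
  Matrix.Nondegenerate.toBilin' (Matrix.nondegenerate_of_det_ne_zero hJ.unit.ne_zero)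

lemma exists_mat (t : (n → F) ≃ₗ[F] (n → F)) (ht : Cfsg.Agent.Lib.Helper94.IsIsom (Bf J) t) :
    ∃ s s' : Matrix n n F, s * s' = 1 ∧ IsoM J s ∧ ∀ x, s *ᵥ x = t x := by
  have hx : ∀ x, LinearMap.toMatrix' (t : (n → F) →ₗ[F] (n → F)) *ᵥ x = t x := by
    intro x
    rw [← Matrix.toLin'_apply, Matrix.toLin'_toMatrix']
    rfl
  refine ⟨LinearMap.toMatrix' (t : (n → F) →ₗ[F] (n → F)),
    LinearMap.toMatrix' (t.symm : (n → F) →ₗ[F] (n → F)), ?_, ?_, hx⟩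
  · rw [← LinearMap.toMatrix'_comp]
    have : (t : (n → F) →ₗ[F] (n → F)) ∘ₗ (t.symm : (n → F) →ₗ[F] (n → F)) = LinearMap.id := by
      ext x
      simp
    rw [this, LinearMap.toMatrix'_id]
  · intro x w
    rw [hx, hx, ← Bf_apply, ← Bf_apply, ht]

lemma witt_pair (hJ : Sym J) {a b a' b' : n → F} (h : Ind a b) (h' : Ind a' b') (h0 : pr J a b = 0)
    (h0' : pr J a' b' = 0) :
    ∃ s s' : Matrix n n F, s * s' = 1 ∧ IsoM J s ∧ s *ᵥ a = a' ∧ s *ᵥ b = b' := by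
  obtain ⟨t, -, ht, h1, h2⟩ := Cfsg.Agent.Lib.Helper94.exists_move_pair (Bf_alt hJ) (Bf_nondeg hJ) ⊤
    (fun _ _ => Subgroup.mem_top _) a b a' b' (by rw [Bf_apply]; exact h0) (by rw [Bf_apply]; exact h0')
    h.left_ne h'.left_ne
    (by
      intro hm
      obtain ⟨r, hr⟩ := Submodule.mem_span_singleton.1 hm
      exact h.not_smul r hr.symm)
    (by
      intro hm
      obtain ⟨r, hr⟩ := Submodule.mem_span_singleton.1 hm
      exact h'.not_smul r hr.symm)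
  obtain ⟨s, s', hs, hi, hx⟩ := exists_mat t ht
  exact ⟨s, s', hs, hi, by rw [hx, h1], by rw [hx, h2]⟩

lemma witt_one (hJ : Sym J) {a a' : n → F} (h : a ≠ 0) (h' : a' ≠ 0) :
    ∃ s s' : Matrix n n F, s * s' = 1 ∧ IsoM J s ∧ s *ᵥ a = a' := by
  obtain ⟨t, -, ht, -, h1⟩ := Cfsg.Agent.Lib.Helper94.exists_move (Bf_alt hJ) (Bf_nondeg hJ) ⊤ ⊥
    (fun _ _ _ => Subgroup.mem_top _) a' a (by simpa using h') (by simpa using h) (by simp)
  obtain ⟨s, s', hs, hi, hx⟩ := exists_mat t ht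
  exact ⟨s, s', hs, hi, by rw [hx, h1]⟩

end witt

section two

variable {A B : Type} [Fintype A] [DecidableEq A] [Fintype B] [DecidableEq B] {F : Type*} [Field F]
variable {J₁ : Matrix A A F} {J₂ : Matrix B B F}

/-- `ρ_w = 1_A ⊗ ⟨·, w⟩`. -/
def rho (A : Type) [DecidableEq A] (J₂ : Matrix B B F) (w : B → F) : Matrix A (A × B) F := row A (J₂ *ᵥ w)

/-- `κ ⊗ y ⟨·, w⟩`. -/
def N (J₂ : Matrix B B F) (y w : B → F) (κ : Matrix A A F) : Matrix (A × B) (A × B) F :=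
  col A y * κ * rho A J₂ w

lemma rho_col (w y : B → F) : rho A J₂ w * col A y = pr J₂ y w • (1 : Matrix A A F) := row_mul_col _ _

lemma rho_col_assoc {m : Type*} (w y : B → F) (X : Matrix A m F) :
    rho A J₂ w * (col A y * X) = pr J₂ y w • X := row_col_assoc _ _ _

lemma rho_add (w w' : B → F) : rho A J₂ (w + w') = rho A J₂ w + rho A J₂ w' := by
  unfold rho; rw [Matrix.mulVec_add, row_add]

lemma rho_smul (c : F) (w : B → F) : rho A J₂ (c • w) = c • rho A J₂ w := by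
  unfold rho; rw [Matrix.mulVec_smul, row_smul]

lemma rho_zero : rho A J₂ (0 : B → F) = 0 := by
  unfold rho; rw [Matrix.mulVec_zero, row_zero]

lemma N_eq_nn (y w : B → F) (κ : Matrix A A F) : N J₂ y w κ = nn y (J₂ *ᵥ w) κ := rfl

lemma N_mul (y w y' w' : B → F) (κ κ' : Matrix A A F) :
    N J₂ y w κ * N J₂ y' w' κ' = pr J₂ y' w • N J₂ y w' (κ * κ') := nn_mul _ _ _ _ _ _

lemma N_add (y w : B → F) (κ κ' : Matrix A A F) : N J₂ y w (κ + κ') = N J₂ y w κ + N J₂ y w κ' :=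
  nn_add _ _ _ _

lemma N_neg (y w : B → F) (κ : Matrix A A F) : N J₂ y w (-κ) = - N J₂ y w κ := nn_neg _ _ _

lemma N_sub (y w : B → F) (κ κ' : Matrix A A F) : N J₂ y w (κ - κ') = N J₂ y w κ - N J₂ y w κ' := by
  rw [sub_eq_add_neg, N_add, N_neg, sub_eq_add_neg]

lemma N_smul (y w : B → F) (c : F) (κ : Matrix A A F) : N J₂ y w (c • κ) = c • N J₂ y w κ :=
  nn_smul _ _ _ _

lemma N_zero (y w : B → F) : N J₂ y w (0 : Matrix A A F) = 0 := by
  unfold N; rw [Matrix.mul_zero, Matrix.zero_mul]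

lemma N_add_left (y y' w : B → F) (κ : Matrix A A F) : N J₂ (y + y') w κ = N J₂ y w κ + N J₂ y' w κ := by
  unfold N; rw [col_add, Matrix.add_mul, Matrix.add_mul]

lemma N_add_right (y w w' : B → F) (κ : Matrix A A F) : N J₂ y (w + w') κ = N J₂ y w κ + N J₂ y w' κ := by
  unfold N; rw [rho_add, Matrix.mul_add]

lemma N_smul_left (c : F) (y w : B → F) (κ : Matrix A A F) : N J₂ (c • y) w κ = c • N J₂ y w κ := by
  unfold N; rw [col_smul, Matrix.smul_mul, Matrix.smul_mul]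

lemma N_smul_right (c : F) (y w : B → F) (κ : Matrix A A F) : N J₂ y (c • w) κ = c • N J₂ y w κ := by
  unfold N; rw [rho_smul, Matrix.mul_smul]

lemma N_col (y w x : B → F) (κ : Matrix A A F) : N J₂ y w κ * col A x = pr J₂ x w • (col A y * κ) := by
  unfold N
  rw [Matrix.mul_assoc, rho_col, Matrix.mul_smul, Matrix.mul_one]

lemma rho_N (x y w : B → F) (κ : Matrix A A F) : rho A J₂ x * N J₂ y w κ = pr J₂ y x • (κ * rho A J₂ w) := by
  unfold N
  rw [Matrix.mul_assoc, rho_col_assoc]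

lemma conjB {s s' : Matrix B B F} (hs : s * s' = 1) (hi : IsoM J₂ s) (y w : B → F) (κ : Matrix A A F) :
    ((1 : Matrix A A F) ⊗ₖ s) * N J₂ y w κ * ((1 : Matrix A A F) ⊗ₖ s') = N J₂ (s *ᵥ y) (s *ᵥ w) κ := by
  unfold N rho
  have e1 : row A (J₂ *ᵥ w) * ((1 : Matrix A A F) ⊗ₖ s') = row A (J₂ *ᵥ (s *ᵥ w)) := by
    rw [row_mul_kron, Matrix.one_mul, ← Matrix.mulVec_transpose, Matrix.mulVec_mulVec, hi.J_mul hs,
      Matrix.mulVec_mulVec]
  rw [Matrix.mul_assoc, Matrix.mul_assoc, e1, ← Matrix.mul_assoc, ← Matrix.mul_assoc, kron_mul_col,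
    Matrix.mul_one]

lemma conjA (r r' : Matrix A A F) (y w : B → F) (κ : Matrix A A F) :
    (r ⊗ₖ (1 : Matrix B B F)) * N J₂ y w κ * (r' ⊗ₖ (1 : Matrix B B F)) = N J₂ y w (r * κ * r') := by
  unfold N rho
  have e1 : row A (J₂ *ᵥ w) * (r' ⊗ₖ (1 : Matrix B B F)) = r' * row A (J₂ *ᵥ w) := by
    rw [row_mul_kron, Matrix.vecMul_one]
  calc (r ⊗ₖ (1 : Matrix B B F)) * (col A y * κ * row A (J₂ *ᵥ w)) * (r' ⊗ₖ (1 : Matrix B B F))
      = ((r ⊗ₖ (1 : Matrix B B F)) * col A y) * κ * (row A (J₂ *ᵥ w) * (r' ⊗ₖ (1 : Matrix B B F))) := by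
        simp only [Matrix.mul_assoc]
    _ = _ := by
        rw [e1, kron_mul_col, Matrix.one_mulVec]
        simp only [Matrix.mul_assoc]

lemma kron_mul_one {s s' : Matrix B B F} (hs : s * s' = 1) :
    ((1 : Matrix A A F) ⊗ₖ s) * ((1 : Matrix A A F) ⊗ₖ s') = 1 := by
  rw [← Matrix.mul_kronecker_mul, hs, Matrix.one_mul, Matrix.one_kronecker_one]

lemma kron_one_mul {r r' : Matrix A A F} (hr : r * r' = 1) :
    (r ⊗ₖ (1 : Matrix B B F)) * (r' ⊗ₖ (1 : Matrix B B F)) = 1 := by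
  rw [← Matrix.mul_kronecker_mul, hr, Matrix.one_mul, Matrix.one_kronecker_one]

/-- the `♯` operation. -/
noncomputable def sharp (J₁ : Matrix A A F) (J₂ : Matrix B B F) (C : Matrix (A × B) A F) : Matrix A (A × B) F :=
  -(J₁⁻¹ * Cᵀ * (J₁ ⊗ₖ J₂))

lemma col_transpose (y : B → F) : (col A y)ᵀ = row A y := by
  ext i ⟨j, t⟩
  rw [Matrix.transpose_apply, Tens.col_apply, Tens.row_apply]
  by_cases h : i = j
  · simp [h]
  · simp [h, Ne.symm h]

lemma row_transpose (y : B → F) : (row A y)ᵀ = col A y := by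
  rw [← col_transpose, Matrix.transpose_transpose]

lemma sharp_col (h₁ : Sym J₁) (h₂ : Sym J₂) (y : B → F) : sharp J₁ J₂ (col A y) = rho A J₂ y := by
  unfold sharp rho
  rw [col_transpose, Matrix.mul_assoc, row_mul_kron, ← Matrix.mul_assoc, h₁.inv_mul, Matrix.one_mul,
    vecMul_eq h₂]
  have : row A (-(J₂ *ᵥ y)) = - row A (J₂ *ᵥ y) := by
    have := row_smul (A := A) (-1 : F) (J₂ *ᵥ y)
    simpa using this
  rw [this, neg_neg]

lemma sharp_mul (h₁ : Sym J₁) (C : Matrix (A × B) A F) (κ : Matrix A A F) :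
    sharp J₁ J₂ (C * κ) = adj J₁ κ * sharp J₁ J₂ C := by
  unfold sharp adj
  rw [Matrix.transpose_mul, Matrix.mul_neg]
  congr 1
  calc J₁⁻¹ * (κᵀ * Cᵀ) * (J₁ ⊗ₖ J₂) = J₁⁻¹ * κᵀ * 1 * Cᵀ * (J₁ ⊗ₖ J₂) := by
        simp only [Matrix.mul_assoc, Matrix.one_mul]
    _ = _ := by rw [← h₁.mul_inv]; simp only [Matrix.mul_assoc]

lemma sharp_add (C C' : Matrix (A × B) A F) : sharp J₁ J₂ (C + C') = sharp J₁ J₂ C + sharp J₁ J₂ C' := by
  unfold sharp
  rw [Matrix.transpose_add, Matrix.mul_add, Matrix.add_mul, neg_add]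

lemma sharp_smul (c : F) (C : Matrix (A × B) A F) : sharp J₁ J₂ (c • C) = c • sharp J₁ J₂ C := by
  unfold sharp
  rw [Matrix.transpose_smul, Matrix.mul_smul, Matrix.smul_mul, smul_neg]

lemma sharp_zero : sharp J₁ J₂ (0 : Matrix (A × B) A F) = 0 := by
  unfold sharp
  rw [Matrix.transpose_zero, Matrix.mul_zero, Matrix.zero_mul, neg_zero]

lemma sharp_mul_col (C : Matrix (A × B) A F) (w : B → F) :
    sharp J₁ J₂ C * col A w = - adj J₁ (rho A J₂ w * C) := by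
  unfold sharp adj rho
  rw [Matrix.transpose_mul, row_transpose, Matrix.neg_mul, Matrix.mul_assoc, kron_mul_col]
  simp only [Matrix.mul_assoc]

lemma sharp_iso {g g' : Matrix (A × B) (A × B) F} (hg : gᵀ * (J₁ ⊗ₖ J₂) * g = J₁ ⊗ₖ J₂) (h1 : g * g' = 1)
    (C : Matrix (A × B) A F) : sharp J₁ J₂ (g * C) = sharp J₁ J₂ C * g' := by
  have e : gᵀ * (J₁ ⊗ₖ J₂) = (J₁ ⊗ₖ J₂) * g' := by
    calc gᵀ * (J₁ ⊗ₖ J₂) = gᵀ * (J₁ ⊗ₖ J₂) * (g * g') := by rw [h1, Matrix.mul_one]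
      _ = (gᵀ * (J₁ ⊗ₖ J₂) * g) * g' := by simp only [Matrix.mul_assoc]
      _ = _ := by rw [hg]
  unfold sharp
  rw [Matrix.transpose_mul, Matrix.neg_mul]
  congr 1
  calc J₁⁻¹ * (Cᵀ * gᵀ) * (J₁ ⊗ₖ J₂) = J₁⁻¹ * Cᵀ * (gᵀ * (J₁ ⊗ₖ J₂)) := by simp only [Matrix.mul_assoc]
    _ = _ := by rw [e]; simp only [Matrix.mul_assoc]

/-- the hypotheses on the group. -/
structure HasSp (J₁ : Matrix A A F) (J₂ : Matrix B B F) (G : Subgroup (GL (A × B) F)) : Prop where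
  s1 : Sym J₁
  s2 : Sym J₂
  hB : ∀ s s' : Matrix B B F, s * s' = 1 → IsoM J₂ s → (1 : Matrix A A F) ⊗ₖ s ∈ MS G
  hA : ∀ r r' : Matrix A A F, r * r' = 1 → IsoM J₁ r → r ⊗ₖ (1 : Matrix B B F) ∈ MS G
  iso : ∀ g ∈ MS G, gᵀ * (J₁ ⊗ₖ J₂) * g = J₁ ⊗ₖ J₂

variable {G : Subgroup (GL (A × B) F)}

/-- general commutator formula. -/
lemma MS_comm5 {ι : Type} [Fintype ι] [DecidableEq ι] {G : Subgroup (GL ι F)} {X Y : Matrix ι ι F}
    (hX : X * X = 0) (hY : Y * Y = 0) (h1 : 1 + X ∈ MS G) (h2 : 1 + Y ∈ MS G) :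
    1 + (X * Y - Y * X + Y * X * Y - X * Y * X + X * Y * X * Y) ∈ MS G := by
  have e : (1 + X) * (1 + Y) * (1 - X) * (1 - Y)
      = 1 + (X * Y - Y * X + Y * X * Y - X * Y * X + X * Y * X * Y) := by
    have : (1 + X) * (1 + Y) * (1 - X) * (1 - Y)
      = 1 + (X * Y - Y * X + Y * X * Y - X * Y * X + X * Y * X * Y) - X * X - Y * Y + X * X * Y
        - X * (Y * Y) := by noncomm_ring
    rw [this, hX, hY]
    simp
  rw [← e]
  exact MS_mul (MS_mul (MS_mul h1 h2) (MS_sub hX h1)) (MS_sub hY h2)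

lemma long_mem (hS : HasSp J₁ J₂ G) (y : B → F) (c : F) : 1 + N J₂ y y (c • (1 : Matrix A A F)) ∈ MS G := by
  have := hS.hB _ _ (tv_mul hS.s2 y c) (tv_iso hS.s2 y c)
  have e : (1 : Matrix A A F) ⊗ₖ tv J₂ y c = 1 + N J₂ y y (c • (1 : Matrix A A F)) := by
    unfold tv
    rw [N_eq_nn, nn_eq_kron, Matrix.kronecker_add, Matrix.one_kronecker_one, Matrix.smul_kronecker,
      Matrix.kronecker_smul]
  rwa [e] at this

lemma conjB_mem (hS : HasSp J₁ J₂ G) {s s' : Matrix B B F} (hs : s * s' = 1) (hi : IsoM J₂ s)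
    {X : Matrix (A × B) (A × B) F} (hX : 1 + X ∈ MS G) :
    1 + ((1 : Matrix A A F) ⊗ₖ s) * X * ((1 : Matrix A A F) ⊗ₖ s') ∈ MS G :=
  MS_conj (hS.hB s s' hs hi) (kron_mul_one hs) hX

lemma conjA_mem (hS : HasSp J₁ J₂ G) {r r' : Matrix A A F} (hr : r * r' = 1) (hi : IsoM J₁ r)
    {X : Matrix (A × B) (A × B) F} (hX : 1 + X ∈ MS G) :
    1 + (r ⊗ₖ (1 : Matrix B B F)) * X * (r' ⊗ₖ (1 : Matrix B B F)) ∈ MS G :=
  MS_conj (hS.hA r r' hr hi) (kron_one_mul hr) hX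

/-- short root elements. -/
lemma short_mem (hS : HasSp J₁ J₂ G) {y w : B → F} (h : pr J₂ y w = 0) (c : F) :
    1 + (N J₂ y w (c • (1 : Matrix A A F)) + N J₂ w y (c • (1 : Matrix A A F))) ∈ MS G := by
  have h' : pr J₂ w y = 0 := by rw [pr_swap hS.s2, h, neg_zero]
  have hy := pr_self hS.s2 y
  have hw := pr_self hS.s2 w
  have a1 := long_mem hS (y + w) c
  have a2 := long_mem hS y (-c)
  have a3 := long_mem hS w (-c)
  have := MS_mul (MS_mul a1 a2) a3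
  have e : (1 + N J₂ (y + w) (y + w) (c • (1 : Matrix A A F))) * (1 + N J₂ y y ((-c) • (1 : Matrix A A F)))
      * (1 + N J₂ w w ((-c) • (1 : Matrix A A F)))
      = 1 + (N J₂ y w (c • (1 : Matrix A A F)) + N J₂ w y (c • (1 : Matrix A A F))) := by
    simp only [N_add_left, N_add_right, Matrix.add_mul, Matrix.mul_add, Matrix.one_mul, Matrix.mul_one, N_mul,
      h, h', hy, hw, zero_smul, add_zero, zero_add, neg_smul, N_neg, Matrix.mul_neg, Matrix.neg_mul, neg_zero]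
    abel
  rwa [e] at this

end two

end Cfsg.Agent.Lib.Helper99.TSp
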