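import Mathlib
import Cfsg.Agent.Lib.Helper99.SpB

set_option autoImplicit false
set_option linter.unusedSimpArgs false
set_option linter.unusedVariables false
set_option linter.unusedSectionVars false

/-! The hypothesis `KF` and its consequences for elements supported on a totally isotropic plane. -/

namespace Cfsg.Agent.Lib.Helper99.TSp

open Matrix hiding col row
open scoped Kronecker
open Cfsg.Agent.Lib.Helper99.Tens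

variable {A B : Type} [Fintype A] [DecidableEq A] [Fintype B] [DecidableEq B] {F : Type*} [Field F]
variable {J₁ : Matrix A A F} {J₂ : Matrix B B F} {G : Subgroup (GL (A × B) F)}

/-- all short elements of `G` are in `H`. -/
def KF (J₂ : Matrix B B F) (G : Subgroup (GL (A × B) F)) : Prop :=
  ∀ y w : B → F, Ind y w → pr J₂ y w = 0 → ∀ κ κ' : Matrix A A F,
    1 + (N J₂ y w κ + N J₂ w y κ') ∈ MS G → ∃ c : F, κ = c • (1 : Matrix A A F)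

lemma pr_swap0 {n : Type} [Fintype n] [DecidableEq n] {J : Matrix n n F} (hJ : Sym J) {x w : n → F}
    (h : pr J x w = 0) : pr J w x = 0 := by rw [pr_swap hJ, h, neg_zero]

lemma pr_swap1 {n : Type} [Fintype n] [DecidableEq n] {J : Matrix n n F} (hJ : Sym J) {x w : n → F}
    (h : pr J x w = 1) : pr J w x = -1 := by rw [pr_swap hJ, h]

lemma exists_ind_perp {n : Type} [Fintype n] [DecidableEq n] {J : Matrix n n F} (hJ : Sym J)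
    (h3 : 3 ≤ Fintype.card n) {y : n → F} (hy : y ≠ 0) : ∃ w : n → F, Ind y w ∧ pr J y w = 0 := by
  obtain ⟨u, h1, h2⟩ := exists_perp_not_span h3 (J *ᵥ y) y
  exact ⟨u, ind_of_not_smul hy h2, pr_swap0 hJ h1⟩

lemma KF4 (hS : HasSp J₁ J₂ G) (hK : KF J₂ G) (h5 : 5 ≤ Fintype.card B) {y w : B → F} (hI : Ind y w)
    (h0 : pr J₂ y w = 0) (κ₁₁ κ₁₂ κ₂₁ κ₂₂ : Matrix A A F)
    (hm : 1 + (N J₂ y y κ₁₁ + N J₂ y w κ₁₂ + N J₂ w y κ₂₁ + N J₂ w w κ₂₂) ∈ MS G) :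
    ∃ c : F, κ₁₂ = c • (1 : Matrix A A F) := by
  have hJ := hS.s2
  obtain ⟨v, hvw, hvy⟩ := exists_pr_one_zero hJ hI.not_smul
  obtain ⟨v', hv'y, hv'w⟩ := exists_pr_one_zero hJ hI.symm.not_smul
  obtain ⟨w₂, hw₂, p1, p2, p3, p4⟩ := exists_perp4 (J := J₂) h5 y w v v'
  have h0' := pr_swap0 hJ h0
  have hwv := pr_swap1 hJ hvw
  have hyv := pr_swap0 hJ hvy
  have hyv' := pr_swap1 hJ hv'y
  have hwv' := pr_swap0 hJ hv'w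
  have q1 := pr_swap0 hJ p1
  have q2 := pr_swap0 hJ p2
  have q3 := pr_swap0 hJ p3
  have q4 := pr_swap0 hJ p4
  have hyy := pr_self hJ y
  have hww := pr_self hJ w
  have hvv := pr_self hJ v
  have hv'v' := pr_self hJ v'
  have hw₂w₂ := pr_self hJ w₂
  -- first commutator
  have hs1 := short_mem hS q3 (1 : F)
  rw [one_smul] at hs1
  have hXX : (N J₂ y y κ₁₁ + N J₂ y w κ₁₂ + N J₂ w y κ₂₁ + N J₂ w w κ₂₂) *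
      (N J₂ y y κ₁₁ + N J₂ y w κ₁₂ + N J₂ w y κ₂₁ + N J₂ w w κ₂₂) = 0 := by
    simp only [Matrix.add_mul, Matrix.mul_add, N_mul, h0, h0', hyy, hww, zero_smul, add_zero]
  have hYY : (N J₂ v w₂ (1 : Matrix A A F) + N J₂ w₂ v 1) * (N J₂ v w₂ (1 : Matrix A A F) + N J₂ w₂ v 1) = 0 := by
    simp only [Matrix.add_mul, Matrix.mul_add, N_mul, q3, p3, hvv, hw₂w₂, zero_smul, add_zero]
  have c1 := MS_comm5 hXX hYY hm hs1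
  have e1 : (N J₂ y y κ₁₁ + N J₂ y w κ₁₂ + N J₂ w y κ₂₁ + N J₂ w w κ₂₂) * (N J₂ v w₂ (1 : Matrix A A F) + N J₂ w₂ v 1)
      = N J₂ y w₂ κ₁₂ + N J₂ w w₂ κ₂₂ := by
    simp only [Matrix.add_mul, Matrix.mul_add, N_mul, hvy, hvw, p1, p2, zero_smul, one_smul, add_zero, zero_add,
      Matrix.mul_one]
  have e2 : (N J₂ v w₂ (1 : Matrix A A F) + N J₂ w₂ v 1) * (N J₂ y y κ₁₁ + N J₂ y w κ₁₂ + N J₂ w y κ₂₁ + N J₂ w w κ₂₂)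
      = -(N J₂ w₂ y κ₂₁ + N J₂ w₂ w κ₂₂) := by
    simp only [Matrix.add_mul, Matrix.mul_add, N_mul, hyv, hwv, q1, q2, zero_smul, one_smul, add_zero, zero_add,
      Matrix.one_mul, neg_smul]
    abel
  have e3 : (N J₂ v w₂ (1 : Matrix A A F) + N J₂ w₂ v 1) * (N J₂ y w₂ κ₁₂ + N J₂ w w₂ κ₂₂) = - N J₂ w₂ w₂ κ₂₂ := by
    simp only [Matrix.add_mul, Matrix.mul_add, N_mul, hyv, hwv, q1, q2, zero_smul, one_smul, add_zero, zero_add,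
      Matrix.one_mul, neg_smul]
  have e4 : (N J₂ y w₂ κ₁₂ + N J₂ w w₂ κ₂₂) * (N J₂ y y κ₁₁ + N J₂ y w κ₁₂ + N J₂ w y κ₂₁ + N J₂ w w κ₂₂) = 0 := by
    simp only [Matrix.add_mul, Matrix.mul_add, N_mul, q1, q2, zero_smul, add_zero]
  rw [Matrix.mul_assoc (N J₂ v w₂ (1 : Matrix A A F) + N J₂ w₂ v 1), e1, e2, e3, e4, Matrix.zero_mul] at c1
  have c1' : 1 + (N J₂ y w₂ κ₁₂ + N J₂ w₂ y κ₂₁ + N J₂ w w₂ κ₂₂ + N J₂ w₂ w κ₂₂ + N J₂ w₂ w₂ (-κ₂₂)) ∈ MS G := by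
    have : N J₂ y w₂ κ₁₂ + N J₂ w₂ y κ₂₁ + N J₂ w w₂ κ₂₂ + N J₂ w₂ w κ₂₂ + N J₂ w₂ w₂ (-κ₂₂)
        = N J₂ y w₂ κ₁₂ + N J₂ w w₂ κ₂₂ - -(N J₂ w₂ y κ₂₁ + N J₂ w₂ w κ₂₂) + -N J₂ w₂ w₂ κ₂₂ - 0 + 0 := by
      rw [N_neg]; abel
    rw [this]; exact c1
  -- second commutator
  have hs2 := short_mem hS hv'w (1 : F)
  rw [one_smul] at hs2
  have hXX2 : (N J₂ y w₂ κ₁₂ + N J₂ w₂ y κ₂₁ + N J₂ w w₂ κ₂₂ + N J₂ w₂ w κ₂₂ + N J₂ w₂ w₂ (-κ₂₂)) *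
      (N J₂ y w₂ κ₁₂ + N J₂ w₂ y κ₂₁ + N J₂ w w₂ κ₂₂ + N J₂ w₂ w κ₂₂ + N J₂ w₂ w₂ (-κ₂₂)) = 0 := by
    simp only [Matrix.add_mul, Matrix.mul_add, N_mul, h0, h0', hyy, hww, hw₂w₂, p1, p2, q1, q2, zero_smul, add_zero]
  have hYY2 : (N J₂ v' w (1 : Matrix A A F) + N J₂ w v' 1) * (N J₂ v' w (1 : Matrix A A F) + N J₂ w v' 1) = 0 := by
    simp only [Matrix.add_mul, Matrix.mul_add, N_mul, hv'w, hwv', hv'v', hww, zero_smul, add_zero]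
  have c2 := MS_comm5 hXX2 hYY2 c1' hs2
  have f1 : (N J₂ y w₂ κ₁₂ + N J₂ w₂ y κ₂₁ + N J₂ w w₂ κ₂₂ + N J₂ w₂ w κ₂₂ + N J₂ w₂ w₂ (-κ₂₂)) *
      (N J₂ v' w (1 : Matrix A A F) + N J₂ w v' 1) = N J₂ w₂ w κ₂₁ := by
    simp only [Matrix.add_mul, Matrix.mul_add, N_mul, hv'y, hv'w, q4, h0', hww, q2, zero_smul, one_smul, add_zero,
      zero_add, Matrix.mul_one]
  have f2 : (N J₂ v' w (1 : Matrix A A F) + N J₂ w v' 1) *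
      (N J₂ y w₂ κ₁₂ + N J₂ w₂ y κ₂₁ + N J₂ w w₂ κ₂₂ + N J₂ w₂ w κ₂₂ + N J₂ w₂ w₂ (-κ₂₂)) = - N J₂ w w₂ κ₁₂ := by
    simp only [Matrix.add_mul, Matrix.mul_add, N_mul, h0, hww, p2, hyv', hwv', p4, zero_smul, one_smul, add_zero,
      zero_add, Matrix.one_mul, neg_smul]
  have f3 : (N J₂ v' w (1 : Matrix A A F) + N J₂ w v' 1) * N J₂ w₂ w κ₂₁ = 0 := by
    simp only [Matrix.add_mul, N_mul, p2, p4, zero_smul, add_zero]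
  have f4 : N J₂ w₂ w κ₂₁ *
      (N J₂ y w₂ κ₁₂ + N J₂ w₂ y κ₂₁ + N J₂ w w₂ κ₂₂ + N J₂ w₂ w κ₂₂ + N J₂ w₂ w₂ (-κ₂₂)) = 0 := by
    simp only [Matrix.mul_add, N_mul, h0, hww, p2, zero_smul, add_zero]
  rw [Matrix.mul_assoc (N J₂ v' w (1 : Matrix A A F) + N J₂ w v' 1), f1, f2, f3, f4, Matrix.zero_mul] at c2
  have c2' : 1 + (N J₂ w w₂ κ₁₂ + N J₂ w₂ w κ₂₁) ∈ MS G := by
    have : N J₂ w w₂ κ₁₂ + N J₂ w₂ w κ₂₁ = N J₂ w₂ w κ₂₁ - -N J₂ w w₂ κ₁₂ + 0 - 0 + 0 := by abel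
    rw [this]; exact c2
  refine hK w w₂ ?_ q2 κ₁₂ κ₂₁ c2'
  intro a b hab
  have h1 : pr J₂ v (a • w + b • w₂) = 0 := by rw [hab, pr_zero_right]
  rw [pr_add_right, pr_smul_right, pr_smul_right, hvw, q3, mul_one, mul_zero, add_zero] at h1
  subst h1
  rw [zero_smul, zero_add] at hab
  exact ⟨rfl, (smul_eq_zero.1 hab).resolve_right hw₂⟩

lemma KF4' (hS : HasSp J₁ J₂ G) (hK : KF J₂ G) (h5 : 5 ≤ Fintype.card B) {y w : B → F} (hI : Ind y w)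
    (h0 : pr J₂ y w = 0) (κ₁₁ κ₁₂ κ₂₁ κ₂₂ : Matrix A A F)
    (hm : 1 + (N J₂ y y κ₁₁ + N J₂ y w κ₁₂ + N J₂ w y κ₂₁ + N J₂ w w κ₂₂) ∈ MS G) :
    ∃ c : F, κ₂₁ = c • (1 : Matrix A A F) := by
  refine KF4 hS hK h5 hI.symm (pr_swap0 hS.s2 h0) κ₂₂ κ₂₁ κ₁₂ κ₁₁ ?_
  have : N J₂ w w κ₂₂ + N J₂ w y κ₂₁ + N J₂ y w κ₁₂ + N J₂ y y κ₁₁
      = N J₂ y y κ₁₁ + N J₂ y w κ₁₂ + N J₂ w y κ₂₁ + N J₂ w w κ₂₂ := by abel
  rw [this]; exact hm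

lemma KF4d (hS : HasSp J₁ J₂ G) (hK : KF J₂ G) (h5 : 5 ≤ Fintype.card B) {y w : B → F} (hI : Ind y w)
    (h0 : pr J₂ y w = 0) (κ₁₁ κ₁₂ κ₂₁ κ₂₂ : Matrix A A F)
    (hm : 1 + (N J₂ y y κ₁₁ + N J₂ y w κ₁₂ + N J₂ w y κ₂₁ + N J₂ w w κ₂₂) ∈ MS G) :
    ∃ c : F, κ₁₁ = c • (1 : Matrix A A F) := by
  have hJ := hS.s2
  obtain ⟨c', hc'⟩ := KF4 hS hK h5 hI h0 κ₁₁ κ₁₂ κ₂₁ κ₂₂ hm
  have hI' : Ind (y + w) w := by
    have := hI.add_left 1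
    rwa [one_smul] at this
  obtain ⟨s, s', hs, hi, hsy, hsw⟩ := witt_pair hJ hI hI' h0
    (by rw [pr_add_left, h0, pr_self hJ, add_zero])
  have := conjB_mem hS hs hi hm
  simp only [Matrix.mul_add, Matrix.add_mul, conjB hs hi, hsy, hsw] at this
  have e : N J₂ (y + w) (y + w) κ₁₁ + N J₂ (y + w) w κ₁₂ + N J₂ w (y + w) κ₂₁ + N J₂ w w κ₂₂
      = N J₂ y y κ₁₁ + N J₂ y w (κ₁₁ + κ₁₂) + N J₂ w y (κ₁₁ + κ₂₁) + N J₂ w w (κ₁₁ + κ₁₂ + κ₂₁ + κ₂₂) := by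
    simp only [N_add_left, N_add_right, N_add]
    abel
  rw [e] at this
  obtain ⟨c, hc⟩ := KF4 hS hK h5 hI h0 _ _ _ _ this
  refine ⟨c - c', ?_⟩
  rw [sub_smul, ← hc, ← hc', add_sub_cancel_right]

/-- long elements are in `H`. -/
lemma KFlong (hS : HasSp J₁ J₂ G) (hK : KF J₂ G) (h5 : 5 ≤ Fintype.card B) {y : B → F} (hy : y ≠ 0)
    (κ : Matrix A A F) (hm : 1 + N J₂ y y κ ∈ MS G) : ∃ c : F, κ = c • (1 : Matrix A A F) := by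
  obtain ⟨w, hI, h0⟩ := exists_ind_perp hS.s2 (by omega) hy
  refine KF4d hS hK h5 hI h0 κ 0 0 0 ?_
  simpa only [N_zero, add_zero] using hm

end Cfsg.Agent.Lib.Helper99.TSp
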