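import Mathlib
import Cfsg.Agent.Lib.Helper99.SpC

set_option autoImplicit false
set_option linter.unusedSimpArgs false
set_option linter.unusedVariables false
set_option linter.unusedSectionVars false

/-! Step 2: `g (A ⊗ y') = A ⊗ y₁` forces `g` to be a Kronecker product. -/

namespace Cfsg.Agent.Lib.Helper99.TSp

open Matrix hiding col row
open scoped Kronecker
open Cfsg.Agent.Lib.Helper99.Tens

variable {A B : Type} [Fintype A] [DecidableEq A] [Fintype B] [DecidableEq B] {F : Type*} [Field F]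
variable {J₁ : Matrix A A F} {J₂ : Matrix B B F} {G : Subgroup (GL (A × B) F)}

lemma lemR (hS : HasSp J₁ J₂ G) (hK : KF J₂ G) (h5 : 5 ≤ Fintype.card B) {y₁ : B → F}
    (R : Matrix A (A × B) F) (C : Matrix (A × B) A F) (hR : R * col A y₁ = 0) (hC : rho A J₂ y₁ * C = 0)
    (hRC : R * C = 0) (hm : 1 + (col A y₁ * R + C * rho A J₂ y₁) ∈ MS G) {y₂ : B → F} (hI : Ind y₁ y₂)
    (h0 : pr J₂ y₁ y₂ = 0) :
    (∃ c : F, R * col A y₂ = c • (1 : Matrix A A F)) ∧ (∃ c : F, rho A J₂ y₂ * C = c • (1 : Matrix A A F)) := by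
  have hJ := hS.s2
  have h0' := pr_swap0 hJ h0
  have h11 := pr_self hJ y₁
  have h22 := pr_self hJ y₂
  have hl := long_mem hS y₂ (1 : F)
  rw [one_smul] at hl
  have hXX : (col A y₁ * R + C * rho A J₂ y₁) * (col A y₁ * R + C * rho A J₂ y₁) = 0 := by
    have : (col A y₁ * R + C * rho A J₂ y₁) * (col A y₁ * R + C * rho A J₂ y₁)
        = col A y₁ * (R * col A y₁) * R + col A y₁ * (R * C) * rho A J₂ y₁
          + C * (rho A J₂ y₁ * col A y₁) * R + C * (rho A J₂ y₁ * C) * rho A J₂ y₁ := by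
      simp only [Matrix.add_mul, Matrix.mul_add, Matrix.mul_assoc]
      abel
    rw [this, hR, hRC, hC, rho_col, h11]
    simp
  have hYY : N J₂ y₂ y₂ (1 : Matrix A A F) * N J₂ y₂ y₂ (1 : Matrix A A F) = 0 := by
    rw [N_mul, h22, zero_smul]
  have c1 := MS_comm5 hXX hYY hm hl
  have e1 : (col A y₁ * R + C * rho A J₂ y₁) * N J₂ y₂ y₂ (1 : Matrix A A F) = N J₂ y₁ y₂ (R * col A y₂) := by
    unfold N
    have : (col A y₁ * R + C * rho A J₂ y₁) * (col A y₂ * (1 : Matrix A A F) * rho A J₂ y₂)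
        = col A y₁ * (R * col A y₂) * rho A J₂ y₂ + C * (rho A J₂ y₁ * col A y₂) * rho A J₂ y₂ := by
      simp only [Matrix.add_mul, Matrix.mul_assoc, Matrix.one_mul]
    rw [this, rho_col, h0']
    simp
  have e2 : N J₂ y₂ y₂ (1 : Matrix A A F) * (col A y₁ * R + C * rho A J₂ y₁) = N J₂ y₂ y₁ (rho A J₂ y₂ * C) := by
    unfold N
    have : (col A y₂ * (1 : Matrix A A F) * rho A J₂ y₂) * (col A y₁ * R + C * rho A J₂ y₁)
        = col A y₂ * (rho A J₂ y₂ * col A y₁) * R + col A y₂ * (rho A J₂ y₂ * C) * rho A J₂ y₁ := by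
      simp only [Matrix.mul_add, Matrix.mul_assoc, Matrix.one_mul]
    rw [this, rho_col, h0]
    simp
  have e3 : N J₂ y₂ y₂ (1 : Matrix A A F) * N J₂ y₁ y₂ (R * col A y₂) = 0 := by
    rw [N_mul, h0, zero_smul]
  have e4 : N J₂ y₁ y₂ (R * col A y₂) * (col A y₁ * R + C * rho A J₂ y₁)
      = N J₂ y₁ y₁ (R * col A y₂ * (rho A J₂ y₂ * C)) := by
    unfold N
    have : (col A y₁ * (R * col A y₂) * rho A J₂ y₂) * (col A y₁ * R + C * rho A J₂ y₁)
        = col A y₁ * (R * col A y₂) * (rho A J₂ y₂ * col A y₁) * R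
          + col A y₁ * (R * col A y₂ * (rho A J₂ y₂ * C)) * rho A J₂ y₁ := by
      simp only [Matrix.mul_add, Matrix.mul_assoc]
    rw [this, rho_col, h0]
    simp
  have e5 : N J₂ y₁ y₁ (R * col A y₂ * (rho A J₂ y₂ * C)) * N J₂ y₂ y₂ (1 : Matrix A A F) = 0 := by
    rw [N_mul, h0', zero_smul]
  rw [Matrix.mul_assoc (N J₂ y₂ y₂ (1 : Matrix A A F)), e1, e2, e3, e4, e5] at c1
  have c1' : 1 + (N J₂ y₁ y₁ (-(R * col A y₂ * (rho A J₂ y₂ * C))) + N J₂ y₁ y₂ (R * col A y₂)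
      + N J₂ y₂ y₁ (-(rho A J₂ y₂ * C)) + N J₂ y₂ y₂ 0) ∈ MS G := by
    have : N J₂ y₁ y₁ (-(R * col A y₂ * (rho A J₂ y₂ * C))) + N J₂ y₁ y₂ (R * col A y₂)
      + N J₂ y₂ y₁ (-(rho A J₂ y₂ * C)) + N J₂ y₂ y₂ 0
        = N J₂ y₁ y₂ (R * col A y₂) - N J₂ y₂ y₁ (rho A J₂ y₂ * C) + 0
          - N J₂ y₁ y₁ (R * col A y₂ * (rho A J₂ y₂ * C)) + 0 := by
      rw [N_neg, N_neg, N_zero]; abel
    rw [this]; exact c1
  refine ⟨KF4 hS hK h5 hI h0 _ _ _ _ c1', ?_⟩
  obtain ⟨c, hc⟩ := KF4' hS hK h5 hI h0 _ _ _ _ c1'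
  exact ⟨-c, by rw [neg_smul, ← hc, neg_neg]⟩

lemma decomp (hJ : Sym J₂) {y : B → F} (hy : y ≠ 0) (D : Matrix (A × B) A F)
    (h : ∀ w, pr J₂ y w = 0 → rho A J₂ w * D = 0) : ∃ κ : Matrix A A F, D = col A y * κ := by
  obtain ⟨η, hη⟩ := exists_dot_one hy
  refine ⟨row A η * D, ?_⟩
  have key : ∀ ψ : B → F, row A ψ * D = (ψ ⬝ᵥ y) • (row A η * D) := by
    intro ψ
    obtain ⟨w, hw⟩ := exists_repr hJ (ψ - (ψ ⬝ᵥ y) • η)
    have h1 : pr J₂ y w = 0 := by
      unfold pr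
      rw [hw, sub_dotProduct, smul_dotProduct, hη, smul_eq_mul, mul_one, sub_self]
    have h2 := h w h1
    unfold rho at h2
    rw [hw] at h2
    have h3 : row A (ψ - (ψ ⬝ᵥ y) • η) = row A ψ - (ψ ⬝ᵥ y) • row A η := by
      have := row_add (A := A) (ψ - (ψ ⬝ᵥ y) • η) ((ψ ⬝ᵥ y) • η)
      rw [sub_add_cancel, row_smul] at this
      rw [this, add_sub_cancel_right]
    rw [h3, Matrix.sub_mul, Matrix.smul_mul, sub_eq_zero] at h2
    exact h2
  conv_lhs => rw [eq_sum_col_row_mul D]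
  rw [col_eq_sum, Matrix.sum_mul]
  refine Finset.sum_congr rfl (fun u _ => ?_)
  rw [key, single_dotProduct, one_mul, Matrix.mul_smul, Matrix.smul_mul]

lemma rho_mul_apply (w : B → F) (C : Matrix (A × B) A F) (i : A) :
    (rho A J₂ w * C) i i = pr J₂ (fun b => C (i, b) i) w := by
  unfold rho pr
  simp only [Matrix.mul_apply, Fintype.sum_prod_type, Tens.row_apply, dotProduct]
  rw [Finset.sum_eq_single i]
  · simp
  · intro j _ hj
    simp [Ne.symm hj]
  · simp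

lemma decomp2 [Nonempty A] (hJ : Sym J₂) {y : B → F} (hy : y ≠ 0) (C : Matrix (A × B) A F)
    (h : ∀ w, pr J₂ y w = 0 → ∃ c : F, rho A J₂ w * C = c • (1 : Matrix A A F)) :
    ∃ (x : B → F) (κ : Matrix A A F), C = col A x + col A y * κ := by
  obtain ⟨i⟩ := ‹Nonempty A›
  refine ⟨fun b => C (i, b) i, ?_⟩
  obtain ⟨κ, hκ⟩ := decomp hJ hy (C - col A (fun b => C (i, b) i)) (by
    intro w hw
    obtain ⟨c, hc⟩ := h w hw
    have h1 := rho_mul_apply (J₂ := J₂) w C i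
    rw [hc, Matrix.smul_apply, Matrix.one_apply_eq, smul_eq_mul, mul_one] at h1
    rw [Matrix.mul_sub, rho_col, hc, h1, sub_self])
  exact ⟨κ, by rw [← hκ]; abel⟩

lemma exists_smul_of_not_ind {n : Type} [Fintype n] [DecidableEq n] {y w : n → F} (hy : y ≠ 0) (h : ¬ Ind y w) : ∃ c : F, w = c • y := by
  by_contra hcon
  push Not at hcon
  exact h (ind_of_not_smul hy hcon)

section TI

variable {g g' : Matrix (A × B) (A × B) F}

lemma rho_g (hS : HasSp J₁ J₂ G) (hg : g ∈ MS G) (h1 : g * g' = 1) (w : B → F) :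
    rho A J₂ w * g' = sharp J₁ J₂ (g * col A w) := by
  rw [sharp_iso (hS.iso g hg) h1, sharp_col hS.s1 hS.s2]

lemma TIext [Nonempty A] (hS : HasSp J₁ J₂ G) (hK : KF J₂ G) (h5 : 5 ≤ Fintype.card B) (hg : g ∈ MS G)
    (h1 : g * g' = 1) (h2 : g' * g = 1) {y' y₁ : B → F} {α α' : Matrix A A F} (hα : α * α' = 1)
    (hα' : α' * α = 1) (hy₁ : y₁ ≠ 0) (hy' : y' ≠ 0) (he : g * col A y' = col A y₁ * α) {w' : B → F}
    (hw : pr J₂ y' w' = 0) : ∃ x : B → F, g * col A w' = col A x * α := by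
  have hJ1 := hS.s1
  have hJ2 := hS.s2
  have hw2 := pr_swap0 hJ2 hw
  by_cases hI : Ind y' w'
  swap
  · obtain ⟨c, rfl⟩ := exists_smul_of_not_ind hy' hI
    exact ⟨c • y₁, by rw [col_smul, col_smul, Matrix.mul_smul, he, Matrix.smul_mul]⟩
  have e1 : rho A J₂ y' * g' = adj J₁ α * rho A J₂ y₁ := by
    rw [rho_g hS hg h1, he, sharp_mul hJ1, sharp_col hJ1 hJ2]
  have aa : adj J₁ α * adj J₁ α' = 1 := by rw [← adj_mul hJ1, hα', adj_one hJ1]
  have aa' : adj J₁ α' * adj J₁ α = 1 := by rw [← adj_mul hJ1, hα, adj_one hJ1]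
  have e2 : g' * col A y₁ = col A y' * α' := by
    calc g' * col A y₁ = g' * (col A y₁ * α) * α' := by rw [Matrix.mul_assoc, Matrix.mul_assoc, hα, Matrix.mul_one]
      _ = col A y' * α' := by rw [← he, ← Matrix.mul_assoc, h2, Matrix.one_mul]
  have e3 : rho A J₂ y₁ * g = adj J₁ α' * rho A J₂ y' := by
    calc rho A J₂ y₁ * g = adj J₁ α' * (adj J₁ α * rho A J₂ y₁) * g := by
          rw [← Matrix.mul_assoc, aa', Matrix.one_mul]
      _ = adj J₁ α' * rho A J₂ y' := by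
          rw [← e1, Matrix.mul_assoc, Matrix.mul_assoc, h2, Matrix.mul_one]
  -- the long root element
  have hl : 1 + N J₂ y₁ y₁ (α * adj J₁ α) ∈ MS G := by
    have := MS_conj hg h1 (long_mem hS y' (1 : F))
    have e : g * N J₂ y' y' ((1 : F) • (1 : Matrix A A F)) * g' = N J₂ y₁ y₁ (α * adj J₁ α) := by
      unfold N
      calc g * (col A y' * ((1 : F) • (1 : Matrix A A F)) * rho A J₂ y') * g'
          = (g * col A y') * (rho A J₂ y' * g') := by
            simp only [one_smul, Matrix.mul_one, Matrix.mul_assoc]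
        _ = _ := by rw [he, e1]; simp only [Matrix.mul_assoc]
    rwa [e] at this
  obtain ⟨μ, hμ⟩ := KFlong hS hK h5 hy₁ _ hl
  have hαμ : α = μ • adj J₁ α' := by
    calc α = α * (adj J₁ α * adj J₁ α') := by rw [aa, Matrix.mul_one]
      _ = μ • adj J₁ α' := by rw [← Matrix.mul_assoc, hμ, Matrix.smul_mul, Matrix.one_mul]
  have hμ0 : μ ≠ 0 := by
    rintro rfl
    rw [zero_smul] at hαμ
    rw [hαμ, Matrix.zero_mul] at hα
    exact zero_ne_one hα
  have hadj : adj J₁ α' = μ⁻¹ • α := by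
    rw [hαμ, smul_smul, inv_mul_cancel₀ hμ0, one_smul]
  -- the short root element
  have hs : 1 + (col A y₁ * (α * (rho A J₂ w' * g')) + (g * col A w' * adj J₁ α) * rho A J₂ y₁) ∈ MS G := by
    have := MS_conj hg h1 (short_mem hS hw (1 : F))
    have e : g * (N J₂ y' w' ((1 : F) • (1 : Matrix A A F)) + N J₂ w' y' ((1 : F) • (1 : Matrix A A F))) * g'
        = col A y₁ * (α * (rho A J₂ w' * g')) + (g * col A w' * adj J₁ α) * rho A J₂ y₁ := by
      unfold N
      calc g * (col A y' * ((1 : F) • (1 : Matrix A A F)) * rho A J₂ w'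
            + col A w' * ((1 : F) • (1 : Matrix A A F)) * rho A J₂ y') * g'
          = (g * col A y') * (rho A J₂ w' * g') + (g * col A w') * (rho A J₂ y' * g') := by
            simp only [one_smul, Matrix.mul_one, Matrix.mul_assoc, Matrix.mul_add, Matrix.add_mul]
        _ = _ := by rw [he, e1]; simp only [Matrix.mul_assoc]
    rwa [e] at this
  have hR : α * (rho A J₂ w' * g') * col A y₁ = 0 := by
    rw [Matrix.mul_assoc, Matrix.mul_assoc, e2, rho_col_assoc, hw, zero_smul, Matrix.mul_zero]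
  have hC0 : rho A J₂ y₁ * (g * col A w') = 0 := by
    rw [← Matrix.mul_assoc, e3, Matrix.mul_assoc, rho_col, hw2, zero_smul, Matrix.mul_zero]
  have hC : rho A J₂ y₁ * (g * col A w' * adj J₁ α) = 0 := by
    rw [← Matrix.mul_assoc, hC0, Matrix.zero_mul]
  have hRC : α * (rho A J₂ w' * g') * (g * col A w' * adj J₁ α) = 0 := by
    calc α * (rho A J₂ w' * g') * (g * col A w' * adj J₁ α)
        = α * (rho A J₂ w' * (g' * g) * col A w') * adj J₁ α := by simp only [Matrix.mul_assoc]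
      _ = 0 := by rw [h2, Matrix.mul_one, rho_col, pr_self hJ2, zero_smul, Matrix.mul_zero, Matrix.zero_mul]
  obtain ⟨x, κ, hx⟩ := decomp2 hJ2 hy₁ (g * col A w' * adj J₁ α) (by
    intro w hw0
    by_cases hI2 : Ind y₁ w
    · exact (lemR hS hK h5 _ _ hR hC hRC hs hI2 hw0).2
    · obtain ⟨c, rfl⟩ := exists_smul_of_not_ind hy₁ hI2
      exact ⟨0, by rw [rho_smul, Matrix.smul_mul, hC, smul_zero, zero_smul]⟩)
  -- `g col w' = col x₁ α + col y₁ α₂`
  have hD : g * col A w' = col A (μ⁻¹ • x) * α + col A y₁ * (κ * adj J₁ α') := by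
    calc g * col A w' = (g * col A w' * adj J₁ α) * adj J₁ α' := by
          rw [Matrix.mul_assoc, aa, Matrix.mul_one]
      _ = _ := by
          rw [hx, Matrix.add_mul, Matrix.mul_assoc, col_smul, Matrix.smul_mul]
          conv_lhs => rw [hadj]
          rw [Matrix.mul_smul]
          rw [← hadj]
  set x₁ := μ⁻¹ • x with hx₁
  set α₂ := κ * adj J₁ α' with hα₂
  have hpx : pr J₂ x₁ y₁ = 0 := by
    have := hC0
    rw [hD, Matrix.mul_add, rho_col_assoc, rho_col_assoc, pr_self hJ2, zero_smul, add_zero] at this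
    by_contra hne
    have h3 : α = 0 := (smul_eq_zero.1 this).resolve_left hne
    rw [h3, Matrix.zero_mul] at hα
    exact zero_ne_one hα
  by_cases hI3 : Ind y₁ x₁
  · have e5 : rho A J₂ w' * g' = adj J₁ α * rho A J₂ x₁ + adj J₁ α₂ * rho A J₂ y₁ := by
      rw [rho_g hS hg h1, hD, sharp_add, sharp_mul hJ1, sharp_mul hJ1, sharp_col hJ1 hJ2, sharp_col hJ1 hJ2]
    have hl2 : 1 + (N J₂ y₁ y₁ (α₂ * adj J₁ α₂) + N J₂ y₁ x₁ (α₂ * adj J₁ α) + N J₂ x₁ y₁ (α * adj J₁ α₂)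
        + N J₂ x₁ x₁ (α * adj J₁ α)) ∈ MS G := by
      have := MS_conj hg h1 (long_mem hS w' (1 : F))
      have e : g * N J₂ w' w' ((1 : F) • (1 : Matrix A A F)) * g'
          = N J₂ y₁ y₁ (α₂ * adj J₁ α₂) + N J₂ y₁ x₁ (α₂ * adj J₁ α) + N J₂ x₁ y₁ (α * adj J₁ α₂)
        + N J₂ x₁ x₁ (α * adj J₁ α) := by
        unfold N
        calc g * (col A w' * ((1 : F) • (1 : Matrix A A F)) * rho A J₂ w') * g'
            = (g * col A w') * (rho A J₂ w' * g') := by
              simp only [one_smul, Matrix.mul_one, Matrix.mul_assoc]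
          _ = _ := by
              rw [hD, e5]
              simp only [Matrix.mul_assoc, Matrix.mul_add, Matrix.add_mul]
              abel
      rwa [e] at this
    obtain ⟨c, hc⟩ := KF4 hS hK h5 hI3 (pr_swap0 hJ2 hpx) _ _ _ _ hl2
    have hα₂' : α₂ = (c * μ⁻¹) • α := by
      calc α₂ = α₂ * (adj J₁ α * adj J₁ α') := by rw [aa, Matrix.mul_one]
        _ = (c * μ⁻¹) • α := by
            rw [← Matrix.mul_assoc, hc, Matrix.smul_mul, Matrix.one_mul, hadj, smul_smul]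
    refine ⟨x₁ + (c * μ⁻¹) • y₁, ?_⟩
    rw [hD, hα₂', col_add, col_smul (c * μ⁻¹) y₁, Matrix.add_mul, Matrix.mul_smul, Matrix.smul_mul]
  · exfalso
    obtain ⟨c, hc⟩ := exists_smul_of_not_ind hy₁ hI3
    have e6 : col A w' = col A y' * (α' * (c • α + α₂)) := by
      calc col A w' = g' * (g * col A w') := by rw [← Matrix.mul_assoc, h2, Matrix.one_mul]
        _ = g' * col A y₁ * (c • α + α₂) := by
            rw [hD, hc, col_smul, Matrix.mul_add, Matrix.mul_add, Matrix.smul_mul, Matrix.mul_smul,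
              Matrix.mul_smul, Matrix.mul_assoc, Matrix.mul_assoc]
        _ = _ := by rw [e2, Matrix.mul_assoc]
    obtain ⟨η, hη1, hη0⟩ := exists_dot_one_zero hI.not_smul
    have := congrArg (fun M => row A η * M) e6
    simp only [row_mul_col, row_col_assoc, hη1, hη0, one_smul, zero_smul] at this
    exact one_ne_zero this

lemma TI [Nonempty A] (hS : HasSp J₁ J₂ G) (hK : KF J₂ G) (h5 : 5 ≤ Fintype.card B) (hg : g ∈ MS G)
    (h1 : g * g' = 1) (h2 : g' * g = 1) {y' y₁ : B → F} {α : Matrix A A F} (hy' : y' ≠ 0)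
    (he : g * col A y' = col A y₁ * α) : IsKr g := by
  obtain ⟨η, hη⟩ := exists_dot_one hy'
  have hα' : (row A η * g' * col A y₁) * α = 1 := by
    rw [Matrix.mul_assoc, ← he, Matrix.mul_assoc, ← Matrix.mul_assoc g', h2, Matrix.one_mul, row_mul_col, hη,
      one_smul]
  have hα : α * (row A η * g' * col A y₁) = 1 := mul_eq_one_comm.1 hα'
  have hy₁ : y₁ ≠ 0 := by
    rintro rfl
    rw [col_zero, Matrix.mul_zero, Matrix.zero_mul] at hα'
    exact zero_ne_one hα'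
  have key : ∀ u : B, ∃ y₂ : B → F, g * col A (Pi.single u (1 : F)) = col A y₂ * α := by
    intro u
    obtain ⟨w', hw', hp1, hp2⟩ := exists_perp_two (by omega) (J₂ *ᵥ y') (J₂ *ᵥ (Pi.single u (1 : F)))
    have hp1' : pr J₂ y' w' = 0 := pr_swap0 hS.s2 hp1
    obtain ⟨x, hx⟩ := TIext hS hK h5 hg h1 h2 hα hα' hy₁ hy' he hp1'
    have hx0 : x ≠ 0 := by
      rintro rfl
      rw [col_zero, Matrix.zero_mul] at hx
      apply hw'
      apply col_eq_zero (A := A)
      calc col A w' = g' * (g * col A w') := by rw [← Matrix.mul_assoc, h2, Matrix.one_mul]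
        _ = 0 := by rw [hx, Matrix.mul_zero]
    exact TIext hS hK h5 hg h1 h2 hα hα' hx0 hw' hx hp2
  choose β hβ using key
  refine ⟨α, ∑ u, vecMulVec (β u) (Pi.single u (1 : F)), ?_⟩
  conv_lhs => rw [eq_sum_mul_col_row g]
  have : α ⊗ₖ (∑ u, vecMulVec (β u) (Pi.single u (1 : F))) =
      ∑ u, α ⊗ₖ vecMulVec (β u) (Pi.single u (1 : F)) := by
    ext ⟨i, t⟩ ⟨j, u⟩
    simp only [Matrix.kroneckerMap_apply, Matrix.sum_apply, Finset.mul_sum]
  rw [this]
  refine Finset.sum_congr rfl (fun u _ => ?_)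
  rw [hβ, col_mul_row]

lemma TI' [Nonempty A] (hS : HasSp J₁ J₂ G) (hK : KF J₂ G) (h5 : 5 ≤ Fintype.card B) (hg : g ∈ MS G)
    (h1 : g * g' = 1) (h2 : g' * g = 1) {y' y₁ : B → F} {Q : Matrix A A F} (hy₁ : y₁ ≠ 0)
    (he : g * col A y' * Q = col A y₁) : IsKr g := by
  obtain ⟨η, hη⟩ := exists_dot_one hy₁
  have hQ' : (row A η * g * col A y') * Q = 1 := by
    rw [Matrix.mul_assoc (row A η), Matrix.mul_assoc (row A η), he, row_mul_col, hη, one_smul]
  have hQ : Q * (row A η * g * col A y') = 1 := mul_eq_one_comm.1 hQ'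
  have hy' : y' ≠ 0 := by
    rintro rfl
    rw [col_zero, Matrix.mul_zero, Matrix.zero_mul] at hQ'
    exact zero_ne_one hQ'
  refine TI hS hK h5 hg h1 h2 hy' (y₁ := y₁) (α := row A η * g * col A y') ?_
  rw [← he, Matrix.mul_assoc, hQ, Matrix.mul_one]

end TI

end Cfsg.Agent.Lib.Helper99.TSp
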