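import Mathlib
import Cfsg.Agent.Lib.Helper99.SpD

set_option autoImplicit false
set_option linter.unusedSimpArgs false
set_option linter.unusedVariables false
set_option linter.unusedSectionVars false

/-! Step 2 continued: vanishing blocks. -/

namespace Cfsg.Agent.Lib.Helper99.TSp

open Matrix hiding col row
open scoped Kronecker
open Cfsg.Agent.Lib.Helper99.Tens

variable {A B : Type} [Fintype A] [DecidableEq A] [Fintype B] [DecidableEq B] {F : Type*} [Field F]
variable {J₁ : Matrix A A F} {J₂ : Matrix B B F} {G : Subgroup (GL (A × B) F)}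

section

variable {g g' : Matrix (A × B) (A × B) F}

/-- a 4-entry decomposition of `g col y'` forces `g` to be Kronecker. -/
lemma two_term [Nonempty A] (hS : HasSp J₁ J₂ G) (hK : KF J₂ G) (h5 : 5 ≤ Fintype.card B) (hg : g ∈ MS G)
    (h1 : g * g' = 1) (h2 : g' * g = 1) {y' y₂ x : B → F} (hy' : y' ≠ 0) (hy₂ : y₂ ≠ 0)
    {Q Q' κ₀ : Matrix A A F} (hQ : Q * Q' = 1) (hx : g * col A y' * Q = col A x + col A y₂ * κ₀)
    (hxy : pr J₂ x y₂ = 0) : IsKr g := by
  have hJ1 := hS.s1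
  have hJ2 := hS.s2
  have hQ' : Q' * Q = 1 := mul_eq_one_comm.1 hQ
  have hC : g * col A y' = col A x * Q' + col A y₂ * (κ₀ * Q') := by
    calc g * col A y' = (g * col A y' * Q) * Q' := by rw [Matrix.mul_assoc, hQ, Matrix.mul_one]
      _ = _ := by rw [hx, Matrix.add_mul, Matrix.mul_assoc]
  by_cases hI : Ind y₂ x
  · have e5 : rho A J₂ y' * g' = adj J₁ Q' * rho A J₂ x + adj J₁ (κ₀ * Q') * rho A J₂ y₂ := by
      rw [rho_g hS hg h1, hC, sharp_add, sharp_mul hJ1, sharp_mul hJ1, sharp_col hJ1 hJ2, sharp_col hJ1 hJ2]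
    have hl2 : 1 + (N J₂ y₂ y₂ (κ₀ * Q' * adj J₁ (κ₀ * Q')) + N J₂ y₂ x (κ₀ * Q' * adj J₁ Q')
        + N J₂ x y₂ (Q' * adj J₁ (κ₀ * Q')) + N J₂ x x (Q' * adj J₁ Q')) ∈ MS G := by
      have := MS_conj hg h1 (long_mem hS y' (1 : F))
      have e : g * N J₂ y' y' ((1 : F) • (1 : Matrix A A F)) * g'
          = N J₂ y₂ y₂ (κ₀ * Q' * adj J₁ (κ₀ * Q')) + N J₂ y₂ x (κ₀ * Q' * adj J₁ Q')
        + N J₂ x y₂ (Q' * adj J₁ (κ₀ * Q')) + N J₂ x x (Q' * adj J₁ Q') := by
        unfold N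
        calc g * (col A y' * ((1 : F) • (1 : Matrix A A F)) * rho A J₂ y') * g'
            = (g * col A y') * (rho A J₂ y' * g') := by
              simp only [one_smul, Matrix.mul_one, Matrix.mul_assoc]
          _ = _ := by
              rw [hC, e5]
              simp only [Matrix.mul_assoc, Matrix.mul_add, Matrix.add_mul]
              abel
      rwa [e] at this
    obtain ⟨c, hc⟩ := KF4 hS hK h5 hI (pr_swap0 hJ2 hxy) _ _ _ _ hl2
    have hl3 : 1 + (N J₂ x x (Q' * adj J₁ Q') + N J₂ x y₂ (Q' * adj J₁ (κ₀ * Q'))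
        + N J₂ y₂ x (κ₀ * Q' * adj J₁ Q') + N J₂ y₂ y₂ (κ₀ * Q' * adj J₁ (κ₀ * Q'))) ∈ MS G := by
      have : N J₂ x x (Q' * adj J₁ Q') + N J₂ x y₂ (Q' * adj J₁ (κ₀ * Q'))
        + N J₂ y₂ x (κ₀ * Q' * adj J₁ Q') + N J₂ y₂ y₂ (κ₀ * Q' * adj J₁ (κ₀ * Q'))
          = N J₂ y₂ y₂ (κ₀ * Q' * adj J₁ (κ₀ * Q')) + N J₂ y₂ x (κ₀ * Q' * adj J₁ Q')
        + N J₂ x y₂ (Q' * adj J₁ (κ₀ * Q')) + N J₂ x x (Q' * adj J₁ Q') := by abel
      rw [this]; exact hl2
    obtain ⟨m, hm⟩ := KF4d hS hK h5 hI.symm hxy _ _ _ _ hl3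
    have hm0 : m ≠ 0 := by
      rintro rfl
      rw [zero_smul] at hm
      have aa : adj J₁ Q' * adj J₁ Q = 1 := by rw [← adj_mul hJ1, hQ, adj_one hJ1]
      have : (1 : Matrix A A F) = 0 := by
        calc (1 : Matrix A A F) = Q * (Q' * adj J₁ Q') * adj J₁ Q := by
              rw [← Matrix.mul_assoc, hQ, Matrix.one_mul, aa]
          _ = 0 := by rw [hm, Matrix.mul_zero, Matrix.zero_mul]
      exact one_ne_zero this
    have hκ : κ₀ = (m⁻¹ * c) • (1 : Matrix A A F) := by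
      have : m • κ₀ = c • (1 : Matrix A A F) := by
        rw [← hc, Matrix.mul_assoc, hm, Matrix.mul_smul, Matrix.mul_one]
      rw [mul_smul, ← this, smul_smul, inv_mul_cancel₀ hm0, one_smul]
    refine TI' hS hK h5 hg h1 h2 (y' := y') (y₁ := x + (m⁻¹ * c) • y₂) ?_ (Q := Q) ?_
    · intro h0
      have := hI (m⁻¹ * c) 1 (by rw [one_smul, add_comm]; exact h0)
      exact one_ne_zero this.2
    · rw [hx, hκ, col_add, col_smul, Matrix.mul_smul, Matrix.mul_one]
  · obtain ⟨t, rfl⟩ := exists_smul_of_not_ind hy₂ hI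
    refine TI hS hK h5 hg h1 h2 hy' (y₁ := y₂) (α := t • Q' + κ₀ * Q') ?_
    rw [hC, col_smul, Matrix.mul_add, Matrix.smul_mul, Matrix.mul_smul]

/-- `g (A ⊗ y') ⊆ A ⊗ y₂^⊥` forces `g` to be a Kronecker product. -/
lemma star [Nonempty A] (hS : HasSp J₁ J₂ G) (hK : KF J₂ G) (h5 : 5 ≤ Fintype.card B) (hg : g ∈ MS G)
    (h1 : g * g' = 1) (h2 : g' * g = 1) {y' y₂ : B → F} (hy' : y' ≠ 0) (hy₂ : y₂ ≠ 0)
    (h0 : rho A J₂ y₂ * (g * col A y') = 0) : IsKr g := by
  have hJ1 := hS.s1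
  have hJ2 := hS.s2
  set C := g * col A y' with hCdef
  set S := rho A J₂ y' * g' with hSdef
  have hSs : S = sharp J₁ J₂ C := rho_g hS hg h1 y'
  have hQP : ∀ w, S * col A w = - adj J₁ (rho A J₂ w * C) := fun w => by rw [hSs, sharp_mul_col]
  have hPQ : ∀ w, rho A J₂ w * C = - adj J₁ (S * col A w) := fun w => by
    rw [hQP, adj_neg, adj_adj hJ1, neg_neg]
  have hSC : S * C = 0 := by
    rw [hSdef, hCdef, Matrix.mul_assoc, ← Matrix.mul_assoc g', h2, Matrix.one_mul, rho_col, pr_self hJ2, zero_smul]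
  have hS2 : S * col A y₂ = 0 := by rw [hQP, h0, adj_zero, neg_zero]
  have hx' : 1 + C * S ∈ MS G := by
    have := MS_conj hg h1 (long_mem hS y' (1 : F))
    have e : g * N J₂ y' y' ((1 : F) • (1 : Matrix A A F)) * g' = C * S := by
      unfold N
      simp only [one_smul, Matrix.mul_one, Matrix.mul_assoc, hCdef, hSdef]
    rwa [e] at this
  have hXX : (C * S) * (C * S) = 0 := by
    rw [Matrix.mul_assoc, ← Matrix.mul_assoc S, hSC, Matrix.zero_mul, Matrix.mul_zero]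
  have hinj : ∀ M : Matrix A A F, C * M = 0 → M = 0 := by
    intro M hM
    obtain ⟨η, hη⟩ := exists_dot_one hy'
    calc M = row A η * (g' * (C * M)) := by
          rw [hCdef, ← Matrix.mul_assoc g', ← Matrix.mul_assoc g', h2, Matrix.one_mul, row_col_assoc, hη, one_smul]
      _ = 0 := by rw [hM, Matrix.mul_zero, Matrix.mul_zero]
  -- Step 1
  have step1 : ∀ w y₃ : B → F, pr J₂ y₂ w = 0 → pr J₂ y₂ y₃ = 0 →
      ∃ c : F, (rho A J₂ w * C) * (S * col A y₃) = c • (1 : Matrix A A F) := by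
    intro w y₃ hw hy₃
    by_cases hI : Ind y₂ y₃
    swap
    · obtain ⟨t, rfl⟩ := exists_smul_of_not_ind hy₂ hI
      exact ⟨0, by rw [col_smul, Matrix.mul_smul, hS2, smul_zero, Matrix.mul_zero, zero_smul]⟩
    have hw' := pr_swap0 hJ2 hw
    have hs := short_mem hS hw (1 : F)
    rw [one_smul] at hs
    have hYY : (N J₂ y₂ w (1 : Matrix A A F) + N J₂ w y₂ 1) * (N J₂ y₂ w (1 : Matrix A A F) + N J₂ w y₂ 1) = 0 := by
      simp only [Matrix.add_mul, Matrix.mul_add, N_mul, hw, hw', pr_self hJ2, zero_smul, add_zero]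
    have c1 := MS_comm5 hXX hYY hx' hs
    have e1 : (C * S) * (N J₂ y₂ w (1 : Matrix A A F) + N J₂ w y₂ 1) = C * (S * col A w) * rho A J₂ y₂ := by
      unfold N
      have : (C * S) * (col A y₂ * (1 : Matrix A A F) * rho A J₂ w + col A w * (1 : Matrix A A F) * rho A J₂ y₂)
          = C * (S * col A y₂) * rho A J₂ w + C * (S * col A w) * rho A J₂ y₂ := by
        simp only [Matrix.mul_add, Matrix.mul_assoc, Matrix.one_mul]
      rw [this, hS2, Matrix.mul_zero, Matrix.zero_mul, zero_add]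
    have e2 : (N J₂ y₂ w (1 : Matrix A A F) + N J₂ w y₂ 1) * (C * S) = col A y₂ * (rho A J₂ w * C) * S := by
      unfold N
      have : (col A y₂ * (1 : Matrix A A F) * rho A J₂ w + col A w * (1 : Matrix A A F) * rho A J₂ y₂) * (C * S)
          = col A y₂ * (rho A J₂ w * C) * S + col A w * (rho A J₂ y₂ * C) * S := by
        simp only [Matrix.add_mul, Matrix.mul_assoc, Matrix.one_mul]
      rw [this, h0, Matrix.mul_zero, Matrix.zero_mul, add_zero]
    have e3 : (N J₂ y₂ w (1 : Matrix A A F) + N J₂ w y₂ 1) * (C * (S * col A w) * rho A J₂ y₂)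
        = col A y₂ * ((rho A J₂ w * C) * (S * col A w)) * rho A J₂ y₂ := by
      unfold N
      have : (col A y₂ * (1 : Matrix A A F) * rho A J₂ w + col A w * (1 : Matrix A A F) * rho A J₂ y₂)
            * (C * (S * col A w) * rho A J₂ y₂)
          = col A y₂ * ((rho A J₂ w * C) * (S * col A w)) * rho A J₂ y₂
            + col A w * (rho A J₂ y₂ * C) * (S * col A w) * rho A J₂ y₂ := by
        simp only [Matrix.add_mul, Matrix.mul_assoc, Matrix.one_mul]
      rw [this, h0, Matrix.mul_zero, Matrix.zero_mul, Matrix.zero_mul, add_zero]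
    have e4 : (C * (S * col A w) * rho A J₂ y₂) * (C * S) = 0 := by
      have : (C * (S * col A w) * rho A J₂ y₂) * (C * S) = C * (S * col A w) * (rho A J₂ y₂ * C) * S := by
        simp only [Matrix.mul_assoc]
      rw [this, h0, Matrix.mul_zero, Matrix.zero_mul]
    rw [Matrix.mul_assoc (N J₂ y₂ w (1 : Matrix A A F) + N J₂ w y₂ 1), e1, e2, e3, e4, Matrix.zero_mul] at c1
    have c1' : 1 + (col A y₂ * (-((rho A J₂ w * C) * S))
        + (C * (S * col A w) + col A y₂ * ((rho A J₂ w * C) * (S * col A w))) * rho A J₂ y₂) ∈ MS G := by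
      have : col A y₂ * (-((rho A J₂ w * C) * S))
        + (C * (S * col A w) + col A y₂ * ((rho A J₂ w * C) * (S * col A w))) * rho A J₂ y₂
          = C * (S * col A w) * rho A J₂ y₂ - col A y₂ * (rho A J₂ w * C) * S
            + col A y₂ * ((rho A J₂ w * C) * (S * col A w)) * rho A J₂ y₂ - 0 + 0 := by
        rw [Matrix.mul_neg, Matrix.add_mul, ← Matrix.mul_assoc (col A y₂) (rho A J₂ w * C) S]
        abel
      rw [this]; exact c1
    obtain ⟨⟨c, hc⟩, -⟩ := lemR hS hK h5 _ _ (by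
        rw [Matrix.neg_mul, Matrix.mul_assoc, hS2, Matrix.mul_zero, neg_zero]) (by
        rw [Matrix.mul_add, ← Matrix.mul_assoc, h0, Matrix.zero_mul, rho_col_assoc, pr_self hJ2, zero_smul,
          add_zero]) (by
        rw [Matrix.neg_mul, Matrix.mul_add, Matrix.mul_assoc (rho A J₂ w * C) S, ← Matrix.mul_assoc S C, hSC,
          Matrix.zero_mul, Matrix.mul_zero, Matrix.mul_assoc (rho A J₂ w * C) S, ← Matrix.mul_assoc S (col A y₂),
          hS2, Matrix.zero_mul, Matrix.mul_zero, add_zero, neg_zero]) c1' hI hy₃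
    refine ⟨-c, ?_⟩
    rw [neg_smul, ← hc, Matrix.neg_mul, neg_neg]
    simp only [Matrix.mul_assoc]
  by_cases hcase : ∀ w y₃ : B → F, pr J₂ y₂ w = 0 → pr J₂ y₂ y₃ = 0 → (rho A J₂ w * C) * (S * col A y₃) = 0
  · -- Case 2
    by_cases hall : ∀ w : B → F, pr J₂ y₂ w = 0 → S * col A w = 0
    · obtain ⟨κ, hκ⟩ := decomp hJ2 hy₂ C (by
        intro w hw
        rw [hPQ, hall w hw, adj_zero, neg_zero])
      exact TI hS hK h5 hg h1 h2 hy' hκ
    · push Not at hall
      obtain ⟨w, hw, hQw⟩ := hall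
      have hw' := pr_swap0 hJ2 hw
      obtain ⟨κ₀, hκ₀⟩ := decomp hJ2 hy₂ (C * (S * col A w)) (by
        intro y₃ hy₃
        rw [← Matrix.mul_assoc]
        exact hcase y₃ w hy₃ hw)
      have hI : Ind y₂ w := by
        by_contra hI
        obtain ⟨t, rfl⟩ := exists_smul_of_not_ind hy₂ hI
        apply hQw
        rw [col_smul, Matrix.mul_smul, hS2, smul_zero]
      have hPS : (rho A J₂ w * C) * S = - (adj J₁ κ₀ * rho A J₂ y₂) := by
        rw [hPQ, Matrix.neg_mul, hSs, ← sharp_mul hJ1, ← hSs, hκ₀, sharp_mul hJ1, sharp_col hJ1 hJ2]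
      have hl := long_mem hS w (1 : F)
      rw [one_smul] at hl
      have hYY : N J₂ w w (1 : Matrix A A F) * N J₂ w w (1 : Matrix A A F) = 0 := by
        rw [N_mul, pr_self hJ2, zero_smul]
      have c1 := MS_comm5 hXX hYY hx' hl
      have e1 : (C * S) * N J₂ w w (1 : Matrix A A F) = N J₂ y₂ w κ₀ := by
        unfold N
        calc (C * S) * (col A w * (1 : Matrix A A F) * rho A J₂ w) = (C * (S * col A w)) * rho A J₂ w := by
              simp only [Matrix.mul_assoc, Matrix.one_mul]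
          _ = _ := by rw [hκ₀]
      have e2 : N J₂ w w (1 : Matrix A A F) * (C * S) = - N J₂ w y₂ (adj J₁ κ₀) := by
        unfold N
        calc (col A w * (1 : Matrix A A F) * rho A J₂ w) * (C * S) = col A w * ((rho A J₂ w * C) * S) := by
              simp only [Matrix.mul_assoc, Matrix.one_mul]
          _ = _ := by rw [hPS, Matrix.mul_neg, Matrix.mul_assoc]
      have e3 : N J₂ w w (1 : Matrix A A F) * N J₂ y₂ w κ₀ = 0 := by
        rw [N_mul, hw, zero_smul]
      have e4 : N J₂ y₂ w κ₀ * (C * S) = - N J₂ y₂ y₂ (κ₀ * adj J₁ κ₀) := by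
        unfold N
        calc (col A y₂ * κ₀ * rho A J₂ w) * (C * S) = col A y₂ * κ₀ * ((rho A J₂ w * C) * S) := by
              simp only [Matrix.mul_assoc]
          _ = _ := by rw [hPS, Matrix.mul_neg]; simp only [Matrix.mul_assoc]
      have e5 : - N J₂ y₂ y₂ (κ₀ * adj J₁ κ₀) * N J₂ w w (1 : Matrix A A F) = 0 := by
        rw [Matrix.neg_mul, N_mul, hw', zero_smul, neg_zero]
      rw [Matrix.mul_assoc (N J₂ w w (1 : Matrix A A F)), e1, e2, e3, e4, e5] at c1
      have c1' : 1 + (N J₂ y₂ y₂ (κ₀ * adj J₁ κ₀) + N J₂ y₂ w κ₀ + N J₂ w y₂ (adj J₁ κ₀) + N J₂ w w 0) ∈ MS G := by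
        have : N J₂ y₂ y₂ (κ₀ * adj J₁ κ₀) + N J₂ y₂ w κ₀ + N J₂ w y₂ (adj J₁ κ₀) + N J₂ w w 0
            = N J₂ y₂ w κ₀ - -N J₂ w y₂ (adj J₁ κ₀) + 0 - -N J₂ y₂ y₂ (κ₀ * adj J₁ κ₀) + 0 := by
          rw [N_zero]; abel
        rw [this]; exact c1
      obtain ⟨c, hc⟩ := KF4 hS hK h5 hI hw _ _ _ _ c1'
      have hc0 : c ≠ 0 := by
        rintro rfl
        rw [zero_smul] at hc
        rw [hc, Matrix.mul_zero] at hκ₀
        exact hQw (hinj _ hκ₀)
      refine TI' hS hK h5 hg h1 h2 (y' := y') (y₁ := c • y₂) (smul_ne_zero hc0 hy₂) (Q := S * col A w) ?_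
      rw [← hCdef, hκ₀, hc, col_smul, Matrix.mul_smul, Matrix.mul_one]
  · -- Case 1
    push Not at hcase
    obtain ⟨w, y₃, hw, hy₃, hne⟩ := hcase
    obtain ⟨c, hc⟩ := step1 w y₃ hw hy₃
    have hc0 : c ≠ 0 := by
      rintro rfl
      rw [zero_smul] at hc
      exact hne hc
    have hQ' : (c⁻¹ • (rho A J₂ w * C)) * (S * col A y₃) = 1 := by
      rw [Matrix.smul_mul, hc, smul_smul, inv_mul_cancel₀ hc0, one_smul]
    have hQ : (S * col A y₃) * (c⁻¹ • (rho A J₂ w * C)) = 1 := mul_eq_one_comm.1 hQ'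
    obtain ⟨x, κ₀, hx⟩ := decomp2 hJ2 hy₂ (C * (S * col A y₃)) (by
      intro w' hw'
      rw [← Matrix.mul_assoc]
      exact step1 w' y₃ hw' hy₃)
    have hxy : pr J₂ x y₂ = 0 := by
      have : rho A J₂ y₂ * (C * (S * col A y₃)) = 0 := by rw [← Matrix.mul_assoc, h0, Matrix.zero_mul]
      rw [hx, Matrix.mul_add, rho_col, rho_col_assoc, pr_self hJ2, zero_smul, add_zero] at this
      by_contra hne2
      exact one_ne_zero ((smul_eq_zero.1 this).resolve_left hne2)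
    exact two_term hS hK h5 hg h1 h2 hy' hy₂ hQ hx hxy

end

end Cfsg.Agent.Lib.Helper99.TSp
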