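import Mathlib
import Cfsg.Agent.Lib.Helper99.SpE

set_option autoImplicit false
set_option linter.unusedSimpArgs false
set_option linter.unusedVariables false
set_option linter.unusedSectionVars false

/-! Step 2, end: the minimal rank argument. -/

namespace Cfsg.Agent.Lib.Helper99.TSp

open Matrix hiding col row
open scoped Kronecker
open Cfsg.Agent.Lib.Helper99.Tens

variable {A B : Type} [Fintype A] [DecidableEq A] [Fintype B] [DecidableEq B] {F : Type*} [Field F]
variable {J₁ : Matrix A A F} {J₂ : Matrix B B F} {G : Subgroup (GL (A × B) F)}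

section

variable {g g' : Matrix (A × B) (A × B) F}

/-- a conjugate of a root element which is a Kronecker product. -/
lemma root_conj_aux [Nonempty A] [Nonempty B] (hAB : Fintype.card A < Fintype.card B)
    (h1 : g * g' = 1) (h2 : g' * g = 1) {y' ψ' : B → F} (hf : ψ' ⬝ᵥ y' = 0)
    (hy' : y' ≠ 0) (hψ' : ψ' ≠ 0) (hk : IsKr (1 + g * nn y' ψ' (1 : Matrix A A F) * g')) :
    ∃ (Q : Matrix A A F) (y₁ : B → F), y₁ ≠ 0 ∧ g * col A y' * Q = col A y₁ := by
  obtain ⟨α, β, hαβ⟩ := hk
  have hsq := conj_sq (g := g) (g' := g') h2 (nn_sq hf (1 : Matrix A A F) 1)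
  have hun := unip_mul hsq
  rw [hαβ] at hun
  obtain ⟨hα, hβ⟩ := kr_units hun
  have hfac : g * nn y' ψ' (1 : Matrix A A F) * g' = (g * col A y') * (row A ψ' * g') := by
    unfold nn
    simp only [Matrix.mul_assoc, Matrix.one_mul]
  have hsc : ∃ c : F, α = c • 1 := by
    by_contra hcon
    push Not at hcon
    obtain ⟨z, hz⟩ := exists_not_eigen hcon
    obtain ⟨ζ, hζ1, hζ0⟩ := exists_dot_one_zero hz
    have e1 : rowA B ζ * (1 + g * nn y' ψ' (1 : Matrix A A F) * g') * colA B z = β := by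
      rw [hαβ, rowA_kron_colA, hζ1, one_smul]
    have e2 : rowA B ζ * (1 : Matrix (A × B) (A × B) F) * colA B z = 0 := by
      rw [← Matrix.one_kronecker_one, rowA_kron_colA, Matrix.one_mulVec, hζ0, zero_smul]
    rw [Matrix.mul_add, Matrix.add_mul, e2, zero_add, hfac] at e1
    have e3 : β = (rowA B ζ * (g * col A y')) * ((row A ψ' * g') * colA B z) := by
      rw [← e1]
      simp only [Matrix.mul_assoc]
    have r1 : β.rank ≤ Fintype.card A := by
      rw [e3]
      exact (Matrix.rank_mul_le_left _ _).trans (Matrix.rank_le_card_width _)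
    have r2 : β.rank = Fintype.card B :=
      Matrix.rank_of_isUnit _ ((Matrix.isUnit_iff_isUnit_det _).2 hβ)
    omega
  obtain ⟨c, rfl⟩ := hsc
  have hcol : ∀ u : B, g * col A y' * (row A ψ' * g' * col A (Pi.single u (1 : F)))
      = col A ((c • β) *ᵥ (Pi.single u (1 : F)) - Pi.single u (1 : F)) := by
    intro u
    have : g * col A y' * (row A ψ' * g' * col A (Pi.single u (1 : F)))
        = (1 + g * nn y' ψ' (1 : Matrix A A F) * g') * col A (Pi.single u (1 : F))
          - col A (Pi.single u (1 : F)) := by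
      rw [Matrix.add_mul, Matrix.one_mul, add_sub_cancel_left, hfac]
      simp only [Matrix.mul_assoc]
    rw [this, hαβ, Matrix.smul_kronecker, ← Matrix.kronecker_smul, kron_mul_col, Matrix.mul_one, col_sub]
  by_cases hall : ∀ u : B, (c • β) *ᵥ (Pi.single u (1 : F)) - Pi.single u (1 : F) = 0
  · exfalso
    have hM : (g * col A y') * (row A ψ' * g') = 0 := by
      rw [eq_sum_mul_col_row ((g * col A y') * (row A ψ' * g'))]
      refine Finset.sum_eq_zero (fun u _ => ?_)
      have := hcol u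
      rw [hall u, col_zero] at this
      rw [Matrix.mul_assoc (g * col A y'), this, Matrix.zero_mul]
    obtain ⟨η, hη⟩ := exists_dot_one hy'
    obtain ⟨η', hη'⟩ := exists_dot_one hψ'
    rw [dotProduct_comm] at hη'
    have : (row A η * g') * ((g * col A y') * (row A ψ' * g')) * (g * col A η') = (1 : Matrix A A F) := by
      calc (row A η * g') * ((g * col A y') * (row A ψ' * g')) * (g * col A η')
          = row A η * (g' * g) * col A y' * (row A ψ' * (g' * g) * col A η') := by
            simp only [Matrix.mul_assoc]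
        _ = 1 := by
            rw [h2, Matrix.mul_one, Matrix.mul_one, row_mul_col, row_mul_col, hη, hη', one_smul, Matrix.mul_one]
    rw [hM, Matrix.mul_zero, Matrix.zero_mul] at this
    exact zero_ne_one this
  · push Not at hall
    obtain ⟨u, hu⟩ := hall
    exact ⟨_, _, hu, hcol u⟩

lemma root_conj [Nonempty A] [Nonempty B] (hS : HasSp J₁ J₂ G) (hK : KF J₂ G) (h5 : 5 ≤ Fintype.card B)
    (hAB : Fintype.card A < Fintype.card B) (hg : g ∈ MS G) (h1 : g * g' = 1) (h2 : g' * g = 1)
    {y' : B → F} (hy' : y' ≠ 0) (hk : IsKr (1 + g * N J₂ y' y' (1 : Matrix A A F) * g')) : IsKr g := by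
  obtain ⟨Q, y₁, hy₁, he⟩ := root_conj_aux hAB h1 h2 (y' := y') (ψ' := J₂ *ᵥ y') (hS.s2.alt y') hy'
    (fun h => hy' (hS.s2.inj h)) hk
  exact TI' hS hK h5 hg h1 h2 hy₁ he

end

/-- the linear map `y ↦ (R * col y)ᵀ v`. -/
def colLinT (R : Matrix A (A × B) F) (v : A → F) : (B → F) →ₗ[F] (A → F) where
  toFun y := (R * col A y)ᵀ *ᵥ v
  map_add' y y' := by rw [col_add, Matrix.mul_add, Matrix.transpose_add, Matrix.add_mulVec]
  map_smul' c y := by
    rw [col_smul, Matrix.mul_smul, Matrix.transpose_smul, Matrix.smul_mulVec, RingHom.id_apply]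

lemma colLinT_apply (R : Matrix A (A × B) F) (v : A → F) (y : B → F) :
    colLinT R v y = (R * col A y)ᵀ *ᵥ v := rfl

lemma descent [Nonempty A] [Nonempty B] (hS : HasSp J₁ J₂ G) (hK : KF J₂ G) (h5 : 5 ≤ Fintype.card B)
    (hAB : Fintype.card A + 1 < Fintype.card B) :
    ∀ (r : ℕ) (g g' : Matrix (A × B) (A × B) F) (y' y₂ : B → F), g ∈ MS G → g * g' = 1 → g' * g = 1 →
      ¬ IsKr g → y' ≠ 0 → y₂ ≠ 0 → (rho A J₂ y₂ * (g * col A y')).rank = r → False := by
  intro r
  induction r using Nat.strong_induction_on with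
  | _ r ih =>
    intro g g' y' y₂ hg h1 h2 hnk hy' hy₂ hr
    have hJ2 := hS.s2
    set P := rho A J₂ y₂ * (g * col A y') with hP
    have hP0 : P ≠ 0 := fun h0 => hnk (star hS hK h5 hg h1 h2 hy' hy₂ h0)
    have : ∃ ξ : A → F, Pᵀ *ᵥ ξ ≠ 0 := by
      by_contra hcon
      push Not at hcon
      apply hP0
      ext i j
      have := congrFun (hcon (Pi.single i 1)) j
      simpa using this
    obtain ⟨ξ, hξ⟩ := this
    let L : (B → F) →ₗ[F] ((A → F) × F) :=
      LinearMap.prod (colLinT (rho A J₂ y' * g') (Pᵀ *ᵥ ξ)) (dotProductBilin F F (J₂ *ᵥ y₂))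
    obtain ⟨y₁, hy₁, hL⟩ := exists_ker L (by
      rw [Module.finrank_prod, Module.finrank_self, Module.finrank_fintype_fun_eq_card]
      omega)
    have hL1 : (rho A J₂ y' * g' * col A y₁)ᵀ *ᵥ (Pᵀ *ᵥ ξ) = 0 := congrArg Prod.fst hL
    have hL2 : pr J₂ y₁ y₂ = 0 := congrArg Prod.snd hL
    set Q := rho A J₂ y' * g' * col A y₁ with hQ
    have hNN : N J₂ y' y' (1 : Matrix A A F) * N J₂ y' y' (1 : Matrix A A F) = 0 := by
      rw [N_mul, pr_self hJ2, zero_smul]
    have hsq := conj_sq (g := g) (g' := g') h2 hNN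
    set N' := g * N J₂ y' y' (1 : Matrix A A F) * g' with hN'
    have hl := long_mem hS y' (1 : F)
    rw [one_smul] at hl
    have hX : 1 + N' ∈ MS G := MS_conj hg h1 hl
    have hXX : (1 + N') * (1 - N') = 1 := unip_mul hsq
    have hXX' : (1 - N') * (1 + N') = 1 := mul_eq_one_comm.1 hXX
    have hXk : ¬ IsKr (1 + N') := fun hk => hnk (root_conj hS hK h5 (by omega) hg h1 h2 hy' hk)
    have hb : rho A J₂ y₂ * ((1 + N') * col A y₁) = P * Q := by
      have : rho A J₂ y₂ * (N' * col A y₁) = P * Q := by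
        rw [hN', hP, hQ]
        unfold N
        simp only [Matrix.mul_assoc, Matrix.one_mul]
      rw [Matrix.add_mul, Matrix.one_mul, Matrix.mul_add, rho_col, hL2, zero_smul, zero_add, this]
    have hrk : (P * Q).rank < P.rank := by
      rw [← Matrix.rank_transpose (P * Q), ← Matrix.rank_transpose P]
      refine rank_lt_of_ker (a₁ := ξ) ?_ ?_ hξ
      · intro v hv
        rw [Matrix.transpose_mul, ← Matrix.mulVec_mulVec, hv, Matrix.mulVec_zero]
      · rw [Matrix.transpose_mul, ← Matrix.mulVec_mulVec]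
        exact hL1
    exact ih _ (hr ▸ hrk) (1 + N') (1 - N') y₁ y₂ hX hXX hXX' hXk hy₁ hy₂ (by rw [hb])

/-- if `KF` holds every element of `G` is a Kronecker product. -/
theorem isKr_of_KF [Nonempty A] [Nonempty B] (hS : HasSp J₁ J₂ G) (hK : KF J₂ G) (h5 : 5 ≤ Fintype.card B)
    (hAB : Fintype.card A + 1 < Fintype.card B) {g g' : Matrix (A × B) (A × B) F} (hg : g ∈ MS G)
    (h1 : g * g' = 1) : IsKr g := by
  by_contra hnk
  have h2 : g' * g = 1 := mul_eq_one_comm.1 h1
  obtain ⟨t⟩ := ‹Nonempty B›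
  have hψ : (Pi.single t (1 : F) : B → F) ≠ 0 := by
    intro h
    have := congrFun h t
    simp at this
  haveI : Nonempty B := ⟨t⟩
  exact descent hS hK h5 hAB _ g g' _ _ hg h1 h2 hnk hψ hψ rfl

end Cfsg.Agent.Lib.Helper99.TSp
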