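import Mathlib
import Cfsg.Agent.Lib.Helper99.SpF

set_option autoImplicit false
set_option linter.unusedSimpArgs false
set_option linter.unusedVariables false
set_option linter.unusedSectionVars false

/-! Step 1: the algebra `𝒦` of short elements. -/

namespace Cfsg.Agent.Lib.Helper99.TSp

open Matrix hiding col row
open scoped Kronecker
open Cfsg.Agent.Lib.Helper99.Tens

variable {A B : Type} [Fintype A] [DecidableEq A] [Fintype B] [DecidableEq B] {F : Type*} [Field F]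
variable {J₁ : Matrix A A F} {J₂ : Matrix B B F} {G : Subgroup (GL (A × B) F)}

/-- short elements. -/
noncomputable def sh (J₁ : Matrix A A F) (J₂ : Matrix B B F) (y w : B → F) (κ : Matrix A A F) :
    Matrix (A × B) (A × B) F := N J₂ y w κ + N J₂ w y (adj J₁ κ)

/-- the algebra `𝒦`. -/
def KS (J₁ : Matrix A A F) (J₂ : Matrix B B F) (G : Subgroup (GL (A × B) F)) : Set (Matrix A A F) :=
  {κ | ∀ y w : B → F, Ind y w → pr J₂ y w = 0 → 1 + sh J₁ J₂ y w κ ∈ MS G}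

lemma sh_mul_sh (hJ : Sym J₂) {y w : B → F} (h0 : pr J₂ y w = 0) (κ κ' : Matrix A A F) :
    sh J₁ J₂ y w κ * sh J₁ J₂ y w κ' = 0 := by
  unfold sh
  simp only [Matrix.add_mul, Matrix.mul_add, N_mul, h0, pr_swap0 hJ h0, pr_self hJ, zero_smul, add_zero]

lemma sh_add (y w : B → F) (κ κ' : Matrix A A F) :
    sh J₁ J₂ y w (κ + κ') = sh J₁ J₂ y w κ + sh J₁ J₂ y w κ' := by
  unfold sh
  rw [adj_add, N_add, N_add]
  abel

lemma sh_neg (y w : B → F) (κ : Matrix A A F) : sh J₁ J₂ y w (-κ) = - sh J₁ J₂ y w κ := by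
  unfold sh
  rw [adj_neg, N_neg, N_neg]
  abel

lemma KS_add (hS : HasSp J₁ J₂ G) {κ κ' : Matrix A A F} (h : κ ∈ KS J₁ J₂ G) (h' : κ' ∈ KS J₁ J₂ G) :
    κ + κ' ∈ KS J₁ J₂ G := by
  intro y w hI h0
  rw [sh_add]
  exact MS_add (sh_mul_sh hS.s2 h0 κ κ') (h y w hI h0) (h' y w hI h0)

lemma KS_neg (hS : HasSp J₁ J₂ G) {κ : Matrix A A F} (h : κ ∈ KS J₁ J₂ G) : -κ ∈ KS J₁ J₂ G := by
  intro y w hI h0
  rw [sh_neg, ← sub_eq_add_neg]
  exact MS_sub (sh_mul_sh hS.s2 h0 κ κ) (h y w hI h0)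

lemma KS_sub (hS : HasSp J₁ J₂ G) {κ κ' : Matrix A A F} (h : κ ∈ KS J₁ J₂ G) (h' : κ' ∈ KS J₁ J₂ G) :
    κ - κ' ∈ KS J₁ J₂ G := by
  rw [sub_eq_add_neg]
  exact KS_add hS h (KS_neg hS h')

lemma KS_smul_one (hS : HasSp J₁ J₂ G) (c : F) : c • (1 : Matrix A A F) ∈ KS J₁ J₂ G := by
  intro y w hI h0
  unfold sh
  rw [adj_smul_one hS.s1]
  exact short_mem hS h0 c

lemma KS_zero (hS : HasSp J₁ J₂ G) : (0 : Matrix A A F) ∈ KS J₁ J₂ G := by
  have := KS_smul_one hS (0 : F)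
  rwa [zero_smul] at this

lemma KS_conj (hS : HasSp J₁ J₂ G) {κ : Matrix A A F} (h : κ ∈ KS J₁ J₂ G) {r r' : Matrix A A F}
    (hr : r * r' = 1) (hi : IsoM J₁ r) : r * κ * r' ∈ KS J₁ J₂ G := by
  intro y w hI h0
  have := conjA_mem hS hr hi (h y w hI h0)
  unfold sh at this ⊢
  rw [Matrix.mul_add, Matrix.add_mul, conjA, conjA, ← adj_conj hS.s1 hi hr] at this
  exact this

lemma KS_adj (hS : HasSp J₁ J₂ G) {κ : Matrix A A F} (h : κ ∈ KS J₁ J₂ G) : adj J₁ κ ∈ KS J₁ J₂ G := by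
  intro y w hI h0
  have := h w y hI.symm (pr_swap0 hS.s2 h0)
  unfold sh at this ⊢
  rw [adj_adj hS.s1, add_comm (N J₂ y w (adj J₁ κ))]
  exact this

lemma exists_hyp_perp {n : Type} [Fintype n] [DecidableEq n] {J : Matrix n n F} (hJ : Sym J)
    (h5 : 5 ≤ Fintype.card n) {y w : n → F} (hI : Ind y w) :
    ∃ v v' : n → F, pr J v y = 0 ∧ pr J v w = 0 ∧ pr J v' y = 0 ∧ pr J v' w = 0 ∧ pr J v' v = 1 ∧
      Ind y v ∧ Ind v' w := by
  obtain ⟨a, haw, hay⟩ := exists_pr_one_zero hJ hI.not_smul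
  obtain ⟨a', ha'y, ha'w⟩ := exists_pr_one_zero hJ hI.symm.not_smul
  obtain ⟨v, hv, p1, p2, p3, p4⟩ := exists_perp4 (J := J) h5 y w a a'
  obtain ⟨u, hu⟩ := exists_pr_one hJ hv
  have q3 := pr_swap0 hJ p3
  have q4 := pr_swap0 hJ p4
  have hv'v : pr J (u - pr J u y • a' - pr J u w • a) v = 1 := by
    simp only [pr_sub_left, pr_smul_left, hu, q3, q4]; ring
  refine ⟨v, u - pr J u y • a' - pr J u w • a, p1, p2, ?_, ?_, hv'v, ?_, ?_⟩
  · simp only [pr_sub_left, pr_smul_left, ha'y, hay]; ring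
  · simp only [pr_sub_left, pr_smul_left, ha'w, haw]; ring
  · intro α β hab
    have h1 : pr J a' (α • y + β • v) = 0 := by rw [hab, pr_zero_right]
    rw [pr_add_right, pr_smul_right, pr_smul_right, ha'y, q4, mul_one, mul_zero, add_zero] at h1
    subst h1
    rw [zero_smul, zero_add] at hab
    exact ⟨rfl, (smul_eq_zero.1 hab).resolve_right hv⟩
  · intro α β hab
    have h1 : pr J (α • (u - pr J u y • a' - pr J u w • a) + β • w) v = 0 := by rw [hab, pr_zero_left]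
    rw [pr_add_left, pr_smul_left, pr_smul_left, hv'v, pr_swap0 hJ p2, mul_one, mul_zero, add_zero] at h1
    subst h1
    rw [zero_smul, zero_add] at hab
    exact ⟨rfl, (smul_eq_zero.1 hab).resolve_right hI.right_ne⟩

lemma KS_mul (hS : HasSp J₁ J₂ G) (h5 : 5 ≤ Fintype.card B) {κ κ' : Matrix A A F} (h : κ ∈ KS J₁ J₂ G)
    (h' : κ' ∈ KS J₁ J₂ G) : κ * κ' ∈ KS J₁ J₂ G := by
  intro y w hI h0
  have hJ := hS.s2
  obtain ⟨v, v', p1, p2, p3, p4, p5, hI1, hI2⟩ := exists_hyp_perp hJ h5 hI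
  have q1 := pr_swap0 hJ p1
  have q2 := pr_swap0 hJ p2
  have q3 := pr_swap0 hJ p3
  have q4 := pr_swap0 hJ p4
  have q5 := pr_swap1 hJ p5
  have h0' := pr_swap0 hJ h0
  have a1 := h y v hI1 q1
  have a2 := h' v' w hI2 p4
  have c1 := MS_comm5 (sh_mul_sh hJ q1 κ κ) (sh_mul_sh hJ p4 κ' κ') a1 a2
  have e1 : sh J₁ J₂ y v κ * sh J₁ J₂ v' w κ' = N J₂ y w (κ * κ') := by
    unfold sh
    simp only [Matrix.add_mul, Matrix.mul_add, N_mul, p5, q2, p3, h0', zero_smul, one_smul, add_zero]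
  have e2 : sh J₁ J₂ v' w κ' * sh J₁ J₂ y v κ = - N J₂ w y (adj J₁ (κ * κ')) := by
    unfold sh
    simp only [Matrix.add_mul, Matrix.mul_add, N_mul, h0, p2, q3, q5, zero_smul, neg_smul, one_smul, add_zero,
      zero_add, adj_mul hS.s1]
  have e3 : sh J₁ J₂ v' w κ' * N J₂ y w (κ * κ') = 0 := by
    unfold sh
    simp only [Matrix.add_mul, N_mul, h0, q3, zero_smul, add_zero]
  have e4 : N J₂ y w (κ * κ') * sh J₁ J₂ y v κ = 0 := by
    unfold sh
    simp only [Matrix.mul_add, N_mul, h0, p2, zero_smul, add_zero]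
  rw [Matrix.mul_assoc (sh J₁ J₂ v' w κ'), e1, e2, e3, e4, Matrix.zero_mul] at c1
  have : sh J₁ J₂ y w (κ * κ') = N J₂ y w (κ * κ') - -N J₂ w y (adj J₁ (κ * κ')) + 0 - 0 + 0 := by
    unfold sh; abel
  rw [this]; exact c1

lemma KS_smul (hS : HasSp J₁ J₂ G) (h5 : 5 ≤ Fintype.card B) (c : F) {κ : Matrix A A F}
    (h : κ ∈ KS J₁ J₂ G) : c • κ ∈ KS J₁ J₂ G := by
  have := KS_mul hS h5 (KS_smul_one hS c) h
  rwa [Matrix.smul_mul, Matrix.one_mul] at this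

/-- an element of `G` of short shape gives an element of `𝒦`. -/
lemma mem_KS_of_short [Nonempty A] (hS : HasSp J₁ J₂ G) {y w : B → F} (hI : Ind y w) (h0 : pr J₂ y w = 0)
    {κ κ' : Matrix A A F} (hm : 1 + (N J₂ y w κ + N J₂ w y κ') ∈ MS G) : κ ∈ KS J₁ J₂ G := by
  have hJ := hS.s2
  have h0' := pr_swap0 hJ h0
  have hXX : (N J₂ y w κ + N J₂ w y κ') * (N J₂ y w κ + N J₂ w y κ') = 0 := by
    simp only [Matrix.add_mul, Matrix.mul_add, N_mul, h0, h0', pr_self hJ, zero_smul, add_zero]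
  obtain ⟨v, hvw, hvy⟩ := exists_pr_one_zero hJ hI.not_smul
  have hwv := pr_swap1 hJ hvw
  have hyv := pr_swap0 hJ hvy
  have e := rho_g hS hm (unip_mul hXX) v
  have l1 : rho A J₂ v * (1 - (N J₂ y w κ + N J₂ w y κ')) = rho A J₂ v + κ' * rho A J₂ y := by
    rw [Matrix.mul_sub, Matrix.mul_one, Matrix.mul_add, rho_N, rho_N, hyv, hwv]
    simp
  have l2 : (1 + (N J₂ y w κ + N J₂ w y κ')) * col A v = col A v + col A y * κ := by
    rw [Matrix.add_mul, Matrix.one_mul, Matrix.add_mul, N_col, N_col, hvw, hvy]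
    simp
  rw [l1, l2, sharp_add, sharp_mul hS.s1, sharp_col hS.s1 hJ, sharp_col hS.s1 hJ] at e
  have e' : κ' * rho A J₂ y = adj J₁ κ * rho A J₂ y := add_left_cancel e
  obtain ⟨u, hu⟩ := exists_pr_one hJ hI.left_ne
  have e'' : κ' = adj J₁ κ := by
    have := congrArg (fun M => M * col A u) e'
    simp only [Matrix.mul_assoc, rho_col, hu, one_smul, Matrix.mul_one] at this
    exact this
  subst e''
  intro y₁ w₁ hI₁ h₁
  obtain ⟨s, s', hs, hi, hsy, hsw⟩ := witt_pair hJ hI hI₁ h0 h₁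
  have := conjB_mem hS hs hi hm
  rw [Matrix.mul_add, Matrix.add_mul, conjB hs hi, conjB hs hi, hsy, hsw] at this
  exact this

section rank

variable {n : Type} [Fintype n] [DecidableEq n] {J : Matrix n n F}

lemma vmv_conj {r r' : Matrix n n F} (hr : r * r' = 1) (hi : IsoM J r) (a b : n → F) :
    r * vecMulVec a (J *ᵥ b) * r' = vecMulVec (r *ᵥ a) (J *ᵥ (r *ᵥ b)) := by
  rw [Matrix.mul_vecMulVec, Matrix.vecMulVec_mul, ← Matrix.mulVec_transpose, Matrix.mulVec_mulVec,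
    hi.J_mul hr, Matrix.mulVec_mulVec]

lemma vmv_J_mul (a b c d : n → F) :
    vecMulVec a (J *ᵥ b) * vecMulVec c (J *ᵥ d) = pr J c b • vecMulVec a (J *ᵥ d) := vmv_mul_vmv _ _ _ _

lemma vmv_mul_mul (a b c d : n → F) (κ : Matrix n n F) :
    vecMulVec a (J *ᵥ b) * κ * vecMulVec c (J *ᵥ d) = pr J (κ *ᵥ c) b • vecMulVec a (J *ᵥ d) := by
  rw [Matrix.mul_assoc, Matrix.mul_vecMulVec, vmv_J_mul]

end rank

lemma exists_rank_one [Nonempty A] (hS : HasSp J₁ J₂ G) (h5 : 5 ≤ Fintype.card B)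
    (hex : 3 ≤ Fintype.card A ∨ ∃ c : F, c ≠ 0 ∧ c ≠ 1) {κ : Matrix A A F} (hκ : κ ∈ KS J₁ J₂ G)
    (hns : ∀ c : F, κ ≠ c • 1) : ∃ x : A → F, x ≠ 0 ∧ vecMulVec x (J₁ *ᵥ x) ∈ KS J₁ J₂ G := by
  have hJ := hS.s1
  obtain ⟨z, hz⟩ := exists_not_eigen hns
  have hz0 : z ≠ 0 := by
    rintro rfl
    exact hz 0 (by simp)
  -- case I
  have caseI : ∀ x : A → F, Ind z x → pr J₁ x z = 0 → pr J₁ (κ *ᵥ z) x ≠ 0 →
      vecMulVec x (J₁ *ᵥ x) ∈ KS J₁ J₂ G := by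
    intro x hI hxz hβ
    have hzx := pr_swap0 hJ hxz
    set Z := vecMulVec z (J₁ *ᵥ z) with hZ
    set X := vecMulVec x (J₁ *ᵥ x) with hX
    have hXZ : X * Z = 0 := by rw [hX, hZ, vmv_J_mul, hzx, zero_smul]
    have hZX : Z * X = 0 := by rw [hX, hZ, vmv_J_mul, hxz, zero_smul]
    have hD : (1 + Z) * κ * (1 - Z) - κ ∈ KS J₁ J₂ G := by
      have := KS_conj hS hκ (tv_mul hJ z 1) (tv_iso hJ z 1)
      unfold tv at this
      rw [one_smul, neg_smul, one_smul, ← sub_eq_add_neg] at this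
      exact KS_sub hS this hκ
    have hT : (1 + X) * ((1 + Z) * κ * (1 - Z) - κ) * (1 - X) - ((1 + Z) * κ * (1 - Z) - κ) ∈ KS J₁ J₂ G := by
      have := KS_conj hS hD (tv_mul hJ x 1) (tv_iso hJ x 1)
      unfold tv at this
      rw [one_smul, neg_smul, one_smul, ← sub_eq_add_neg] at this
      exact KS_sub hS this hD
    have eT : (1 + X) * ((1 + Z) * κ * (1 - Z) - κ) * (1 - X) - ((1 + Z) * κ * (1 - Z) - κ)
        = -(X * κ * Z + Z * κ * X) := by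
      have : (1 + X) * ((1 + Z) * κ * (1 - Z) - κ) * (1 - X) - ((1 + Z) * κ * (1 - Z) - κ)
          = -(X * κ * Z + Z * κ * X) + (X * Z) * κ - (X * Z) * κ * Z + κ * (Z * X) + Z * κ * (Z * X)
            - (X * Z) * κ * X + X * κ * (Z * X) + (X * Z) * κ * (Z * X) := by noncomm_ring
      rw [this, hXZ, hZX]
      simp
    rw [eT] at hT
    have hT' := KS_neg hS hT
    rw [neg_neg, hX, hZ, vmv_mul_mul, vmv_mul_mul] at hT'
    set β := pr J₁ (κ *ᵥ z) x with hβdef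
    set α := pr J₁ (κ *ᵥ x) z with hαdef
    obtain ⟨x', hx'z, hx'x⟩ := exists_pr_one_zero hJ hI.symm.not_smul
    have hI' : Ind x x' := by
      intro a b hab
      have h1 : pr J₁ (a • x + b • x') z = 0 := by rw [hab, pr_zero_left]
      rw [pr_add_left, pr_smul_left, pr_smul_left, hxz, hx'z, mul_zero, mul_one, zero_add] at h1
      subst h1
      rw [zero_smul, add_zero] at hab
      exact ⟨(smul_eq_zero.1 hab).resolve_right hI.right_ne, rfl⟩
    obtain ⟨r, r', hr, hi, hrz, hrx⟩ := witt_pair hJ hI hI' hzx (pr_swap0 hJ hx'x)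
    have hT'' := KS_conj hS hT' hr hi
    rw [Matrix.mul_add, Matrix.add_mul, Matrix.mul_smul, Matrix.mul_smul, Matrix.smul_mul, Matrix.smul_mul,
      vmv_conj hr hi, vmv_conj hr hi, hrz, hrx] at hT''
    have hprod := KS_mul hS h5 hT' hT''
    have eP : (β • vecMulVec x (J₁ *ᵥ z) + α • vecMulVec z (J₁ *ᵥ x)) *
        (β • vecMulVec x' (J₁ *ᵥ x) + α • vecMulVec x (J₁ *ᵥ x')) = (β * β) • vecMulVec x (J₁ *ᵥ x) := by
      simp only [Matrix.add_mul, Matrix.mul_add, Matrix.smul_mul, Matrix.mul_smul, vmv_J_mul, hx'z, hxz, hx'x,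
        pr_self hJ, zero_smul, smul_zero, add_zero, one_smul, smul_smul]
    rw [eP] at hprod
    have := KS_smul hS h5 (β * β)⁻¹ hprod
    rwa [smul_smul, inv_mul_cancel₀ (mul_ne_zero hβ hβ), one_smul] at this
  obtain ⟨x₁, hx₁, hx₁z⟩ := exists_pr_one_zero hJ hz
  have hβ₁ : pr J₁ (κ *ᵥ z) x₁ ≠ 0 := by
    rw [pr_swap hJ, hx₁]; simp
  by_cases hI₁ : Ind z x₁
  · exact ⟨x₁, hI₁.right_ne, caseI x₁ hI₁ hx₁z hβ₁⟩
  obtain ⟨t, ht⟩ := exists_smul_of_not_ind hz0 hI₁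
  have hq : pr J₁ (κ *ᵥ z) z ≠ 0 := by
    intro h
    apply hβ₁
    rw [ht, pr_smul_right, h, mul_zero]
  rcases hex with h3 | ⟨c, hc0, hc1⟩
  · obtain ⟨x₂, hI₂, hzx₂⟩ := exists_ind_perp hJ h3 hz0
    have hx₂z := pr_swap0 hJ hzx₂
    by_cases hβ₂ : pr J₁ (κ *ᵥ z) x₂ = 0
    · have hI₃ : Ind z (x₂ + z) := by
        have := hI₂.symm.add_left 1
        rw [one_smul] at this
        exact this.symm
      refine ⟨x₂ + z, hI₃.right_ne, caseI _ hI₃ ?_ ?_⟩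
      · rw [pr_add_left, hx₂z, pr_self hJ, add_zero]
      · rw [pr_add_right, hβ₂, zero_add]; exact hq
    · exact ⟨x₂, hI₂.right_ne, caseI x₂ hI₂ hx₂z hβ₂⟩
  · refine ⟨z, hz0, ?_⟩
    set Z := vecMulVec z (J₁ *ᵥ z) with hZ
    have hD : ∀ l : F, (1 + l • Z) * κ * (1 - l • Z) - κ ∈ KS J₁ J₂ G := by
      intro l
      have := KS_conj hS hκ (tv_mul hJ z l) (tv_iso hJ z l)
      unfold tv at this
      rw [neg_smul, ← sub_eq_add_neg] at this
      exact KS_sub hS this hκ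
    have h1 := KS_sub hS (hD c) (KS_smul hS h5 c (hD 1))
    have e : (1 + c • Z) * κ * (1 - c • Z) - κ - c • ((1 + (1 : F) • Z) * κ * (1 - (1 : F) • Z) - κ)
        = (c - c * c) • (Z * κ * Z) := by
      rw [one_smul, conj_expand, conj_expand]
      simp only [Matrix.smul_mul, Matrix.mul_smul, smul_sub, smul_smul, sub_smul]
      abel
    rw [e, hZ, vmv_mul_mul, smul_smul] at h1
    have hne : (c - c * c) * pr J₁ (κ *ᵥ z) z ≠ 0 := by
      refine mul_ne_zero ?_ hq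
      have : c - c * c = c * (1 - c) := by ring
      rw [this]
      exact mul_ne_zero hc0 (sub_ne_zero.2 (Ne.symm hc1))
    have := KS_smul hS h5 ((c - c * c) * pr J₁ (κ *ᵥ z) z)⁻¹ h1
    rwa [smul_smul, inv_mul_cancel₀ hne, one_smul] at this

lemma all_rank_one [Nonempty A] (hS : HasSp J₁ J₂ G) (h5 : 5 ≤ Fintype.card B) {x : A → F} (hx : x ≠ 0)
    (h : vecMulVec x (J₁ *ᵥ x) ∈ KS J₁ J₂ G) (z z' : A → F) : vecMulVec z (J₁ *ᵥ z') ∈ KS J₁ J₂ G := by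
  have hJ := hS.s1
  have hall : ∀ u : A → F, u ≠ 0 → vecMulVec u (J₁ *ᵥ u) ∈ KS J₁ J₂ G := by
    intro u hu
    obtain ⟨r, r', hr, hi, hrx⟩ := witt_one hJ hx hu
    have := KS_conj hS h hr hi
    rwa [vmv_conj hr hi, hrx] at this
  by_cases hz : z = 0
  · subst hz
    rw [Matrix.zero_vecMulVec]
    exact KS_zero hS
  have key : ∀ u : A → F, pr J₁ u z ≠ 0 → vecMulVec z (J₁ *ᵥ u) ∈ KS J₁ J₂ G := by
    intro u hu
    have hu0 : u ≠ 0 := by
      rintro rfl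
      exact hu (pr_zero_left _)
    have := KS_mul hS h5 (hall z hz) (hall u hu0)
    rw [vmv_J_mul] at this
    have := KS_smul hS h5 (pr J₁ u z)⁻¹ this
    rwa [smul_smul, inv_mul_cancel₀ hu, one_smul] at this
  by_cases hzz : pr J₁ z' z = 0
  · obtain ⟨u, hu⟩ := exists_pr_one hJ hz
    have a1 := key u (by rw [hu]; exact one_ne_zero)
    have a2 := key (z' - u) (by rw [pr_sub_left, hzz, hu]; simp)
    have := KS_add hS a2 a1
    rwa [← Matrix.vecMulVec_add, ← Matrix.mulVec_add, sub_add_cancel] at this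
  · exact key z' hzz

/-- **Core theorem**. -/
theorem core [Nonempty A] [Nonempty B] (hS : HasSp J₁ J₂ G) (h5 : 5 ≤ Fintype.card B)
    (hAB : Fintype.card A + 1 < Fintype.card B)
    (hex : 3 ≤ Fintype.card A ∨ ∃ c : F, c ≠ 0 ∧ c ≠ 1) {g : GL (A × B) F} (hg : g ∈ G)
    (hnk : ¬ IsKr (g : Matrix (A × B) (A × B) F)) (z z' : A → F) :
    vecMulVec z (J₁ *ᵥ z') ∈ KS J₁ J₂ G := by
  by_cases hK : KF J₂ G
  · exact absurd (isKr_of_KF hS hK h5 hAB (MS_coe hg) (g' := ((g⁻¹ : GL (A × B) F) : Matrix (A × B) (A × B) F))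
      (by rw [← Units.val_mul, mul_inv_cancel, Units.val_one])) hnk
  · unfold KF at hK
    push Not at hK
    obtain ⟨y, w, hI, h0, κ, κ', hm, hns⟩ := hK
    obtain ⟨x, hx, hx1⟩ := exists_rank_one hS h5 hex (mem_KS_of_short hS hI h0 hm) hns
    exact all_rank_one hS h5 hx hx1 z z'

end Cfsg.Agent.Lib.Helper99.TSp
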