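import Mathlib
import Cfsg.Agent.Lib.Helper99.SpG
import Cfsg.Agent.Lib.Helper13.OrthWrap

set_option autoImplicit false
set_option linter.unusedSimpArgs false
set_option linter.unusedVariables false
set_option linter.unusedSectionVars false

/-! The orthogonal group of `A ⊗ B`: Eichler transformations at pure tensors as matrices,
`Sp(A) ⊗ Sp(B) ≤ Ω`. -/

namespace Cfsg.Agent.Lib.Helper99.TSp

open Matrix hiding col row
open scoped Kronecker
open Cfsg.Agent.Lib.Helper99.Tens
open QuadraticMap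
open Cfsg.Agent.Lib.Helper44 Cfsg.Agent.Lib.Helper13.O

local notation "gl" => Cfsg.Agent.Lib.Helper94.glEquiv

section gen

variable {ι : Type} [Fintype ι] [DecidableEq ι] {F : Type*} [Field F]

lemma mat_ext {X Y : Matrix ι ι F} (h : ∀ x, X *ᵥ x = Y *ᵥ x) : X = Y := by
  ext i j
  have := congrFun (h (Pi.single j 1)) i
  simpa using this

lemma MS_of_gl {M : Subgroup (GL ι F)} {X : Matrix ι ι F} {φ : (ι → F) ≃ₗ[F] (ι → F)}
    (hφ : (gl ι F).symm φ ∈ M) (h : ∀ x, X *ᵥ x = φ x) : X ∈ MS M := by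
  refine ⟨_, hφ, mat_ext fun x => ?_⟩
  rw [h, ← Cfsg.Agent.Lib.Helper94.glEquiv_apply, MulEquiv.apply_symm_apply]

lemma gl_of_MS {M : Subgroup (GL ι F)} {X : Matrix ι ι F} {φ : (ι → F) ≃ₗ[F] (ι → F)}
    (hX : X ∈ MS M) (h : ∀ x, X *ᵥ x = φ x) : (gl ι F).symm φ ∈ M := by
  obtain ⟨g, hg, rfl⟩ := hX
  have : φ = gl ι F g := by
    ext1 x
    rw [← h, Cfsg.Agent.Lib.Helper94.glEquiv_apply]
  rw [this, MulEquiv.symm_apply_apply]
  exact hg

lemma MS_sum {M : Subgroup (GL ι F)} {κ : Type*} (s : Finset κ) (X : κ → Matrix ι ι F)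
    (h0 : ∀ i j, X i * X j = 0) (h : ∀ i, 1 + X i ∈ MS M) : 1 + ∑ i ∈ s, X i ∈ MS M := by
  classical
  induction s using Finset.induction_on with
  | empty => simpa using MS_one
  | insert a s ha ih =>
    rw [Finset.sum_insert ha]
    refine MS_add ?_ (h a) ih
    rw [Finset.mul_sum]
    exact Finset.sum_eq_zero fun i _ => h0 a i

/-- an alternating matrix as a sum of elementary alternating matrices. -/
lemma alt_eq_sum [LinearOrder ι] {J : Matrix ι ι F} (hJ : Sym J) :
    J = ∑ p : ι × ι, (if p.1 < p.2 then J p.1 p.2 • (Matrix.single p.1 p.2 (1 : F) - Matrix.single p.2 p.1 1) else 0) := by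
  have hd : ∀ i, J i i = 0 := by
    intro i
    rw [← pr_single (J := J)]
    exact pr_self hJ _
  have hs : ∀ i j, J j i = - J i j := by
    intro i j
    have := congrFun (congrFun hJ.transpose i) j
    simpa using this
  ext k l
  rw [Matrix.sum_apply, Fintype.sum_prod_type]
  have e : ∀ i j : ι, (if i < j then J i j • (Matrix.single i j (1 : F) - Matrix.single j i 1) else 0 : Matrix ι ι F) k l
      = (if i = k ∧ j = l then (if k < l then J k l else 0) else 0)
        + (if j = k ∧ i = l then (if l < k then J k l else 0) else 0) := by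
    intro i j
    by_cases hij : i < j
    · simp only [hij, if_true, Matrix.smul_apply, Matrix.sub_apply, Matrix.single_apply, smul_eq_mul]
      by_cases h1 : i = k ∧ j = l
      · obtain ⟨rfl, rfl⟩ := h1
        have h2 : ¬ (j = i ∧ i = j) := fun h => (ne_of_lt hij) h.2
        simp [hij, h2]
      · by_cases h2 : j = k ∧ i = l
        · obtain ⟨rfl, rfl⟩ := h2
          simp [hij, h1, hs i j]
        · simp [h1, h2]
    · simp only [hij, if_false, Matrix.zero_apply]
      by_cases h1 : i = k ∧ j = l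
      · obtain ⟨rfl, rfl⟩ := h1
        by_cases h2 : j = i
        · subst h2
          simp
        · have h3 : ¬ (j = i ∧ i = j) := fun h => h2 h.1
          simp [hij, h3]
      · by_cases h2 : j = k ∧ i = l
        · obtain ⟨rfl, rfl⟩ := h2
          simp [hij, h1]
        · simp [h1, h2]
  simp only [e, Finset.sum_add_distrib]
  have s1 : ∑ i : ι, ∑ j : ι, (if i = k ∧ j = l then (if k < l then J k l else 0) else 0)
      = if k < l then J k l else 0 := by
    rw [Finset.sum_eq_single k, Finset.sum_eq_single l]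
    · simp
    · intro j _ hj; simp [hj]
    · simp
    · intro i _ hi; simp [hi]
    · simp
  have s2 : ∑ i : ι, ∑ j : ι, (if j = k ∧ i = l then (if l < k then J k l else 0) else 0)
      = if l < k then J k l else 0 := by
    rw [Finset.sum_eq_single l, Finset.sum_eq_single k]
    · simp
    · intro j _ hj; simp [hj]
    · simp
    · intro i _ hi; simp [hi]
    · simp
  rw [s1, s2]
  rcases lt_trichotomy k l with h | h | h
  · simp [h, not_lt_of_gt h]
  · subst h; simp [hd]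
  · simp [h, not_lt_of_gt h]

/-- `1` as a sum of elementary self-adjoint matrices. -/
lemma one_eq_sum [LinearOrder ι] {J : Matrix ι ι F} (hJ : Sym J) :
    (1 : Matrix ι ι F) = ∑ p : ι × ι, (if p.1 < p.2 then J p.1 p.2 •
      (vecMulVec (J⁻¹ *ᵥ Pi.single p.1 1) (J *ᵥ (J⁻¹ *ᵥ Pi.single p.2 1))
        - vecMulVec (J⁻¹ *ᵥ Pi.single p.2 1) (J *ᵥ (J⁻¹ *ᵥ Pi.single p.1 1))) else 0) := by
  have e : ∀ i j : ι, vecMulVec (J⁻¹ *ᵥ Pi.single i 1) (J *ᵥ (J⁻¹ *ᵥ Pi.single j 1))
      = J⁻¹ * Matrix.single i j (1 : F) := by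
    intro i j
    rw [Matrix.mulVec_mulVec, hJ.mul_inv, Matrix.one_mulVec, ← Matrix.mul_vecMulVec, Matrix.single_eq_single_vecMulVec_single]
  have key := congrArg (fun M => J⁻¹ * M) (alt_eq_sum hJ)
  simp only [hJ.inv_mul, Matrix.mul_sum] at key
  rw [key]
  refine Finset.sum_congr rfl fun p _ => ?_
  by_cases h : p.1 < p.2
  · simp only [h, if_true, e, Matrix.mul_smul, Matrix.mul_sub]
  · simp only [h, if_false, Matrix.mul_zero]

end gen

section pure

variable {A B : Type} [Fintype A] [DecidableEq A] [Fintype B] [DecidableEq B] {F : Type*} [Field F]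
variable {J₁ : Matrix A A F} {J₂ : Matrix B B F}

/-- pure tensors. -/
def pc (z : A → F) (y : B → F) : A × B → F := fun p => z p.1 * y p.2

lemma pc_add_left (z z' : A → F) (y : B → F) : pc (z + z') y = pc z y + pc z' y := by
  funext p; simp [pc, add_mul]

lemma pc_add_right (z : A → F) (y y' : B → F) : pc z (y + y') = pc z y + pc z y' := by
  funext p; simp [pc, mul_add]

lemma pc_smul_left (c : F) (z : A → F) (y : B → F) : pc (c • z) y = c • pc z y := by
  funext p; simp [pc, mul_assoc]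

lemma pc_smul_right (c : F) (z : A → F) (y : B → F) : pc z (c • y) = c • pc z y := by
  funext p; simp [pc]; ring

lemma pc_zero_left (y : B → F) : pc (0 : A → F) y = 0 := by
  funext p; simp [pc]

lemma pc_zero_right (z : A → F) : pc z (0 : B → F) = 0 := by
  funext p; simp [pc]

lemma kron_mulVec_pc (α : Matrix A A F) (β : Matrix B B F) (a : A → F) (b : B → F) :
    (α ⊗ₖ β) *ᵥ pc a b = pc (α *ᵥ a) (β *ᵥ b) := by
  funext p
  obtain ⟨i, j⟩ := p
  simp only [Matrix.mulVec, dotProduct, pc, Matrix.kroneckerMap_apply, Fintype.sum_prod_type]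
  rw [Finset.sum_mul_sum]
  refine Finset.sum_congr rfl fun i' _ => Finset.sum_congr rfl fun j' _ => ?_
  ring

lemma kron_sub (α : Matrix A A F) (β β' : Matrix B B F) : α ⊗ₖ (β - β') = α ⊗ₖ β - α ⊗ₖ β' := by
  ext ⟨i, t⟩ ⟨j, u⟩
  simp only [Matrix.kroneckerMap_apply, Matrix.sub_apply, mul_sub]

lemma pc_dot_pc (a a' : A → F) (b b' : B → F) : pc a b ⬝ᵥ pc a' b' = (a ⬝ᵥ a') * (b ⬝ᵥ b') := by
  simp only [dotProduct, pc, Fintype.sum_prod_type]
  rw [Finset.sum_mul_sum]
  refine Finset.sum_congr rfl fun i' _ => Finset.sum_congr rfl fun j' _ => ?_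
  ring

lemma pr_pc (z z' : A → F) (y y' : B → F) :
    pr (J₁ ⊗ₖ J₂) (pc z y) (pc z' y') = pr J₁ z z' * pr J₂ y y' := by
  unfold pr
  rw [kron_mulVec_pc, pc_dot_pc]

lemma N_vmv (y w : B → F) (z ζ : A → F) :
    N J₂ y w (vecMulVec z ζ) = vecMulVec (pc z y) (pc ζ (J₂ *ᵥ w)) := by
  rw [N_eq_nn, nn_eq_kron]
  ext ⟨i, t⟩ ⟨j, u⟩
  simp only [Matrix.kroneckerMap_apply, vecMulVec_apply, pc]
  ring

lemma N_vmv_mulVec (y w : B → F) (z z' : A → F) (x : A × B → F) :
    N J₂ y w (vecMulVec z (J₁ *ᵥ z')) *ᵥ x = pr (J₁ ⊗ₖ J₂) x (pc z' w) • pc z y := by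
  rw [N_vmv, Matrix.vecMulVec_mulVec, op_smul_eq_smul, ← kron_mulVec_pc]
  rfl

/-- the data of the orthogonal space `A ⊗ B`. -/
structure TQ (J₁ : Matrix A A F) (J₂ : Matrix B B F) (Q : QuadraticForm F (A × B → F)) (c : F) : Prop where
  s1 : Sym J₁
  s2 : Sym J₂
  c0 : c ≠ 0
  pol : ∀ x y, polar Q x y = c * pr (J₁ ⊗ₖ J₂) x y
  pure : ∀ z y, Q (pc z y) = 0
  nd : (polarBilin Q).Nondegenerate

variable {Q : QuadraticForm F (A × B → F)} {c : F}

lemma TQ.pol_pc (h : TQ J₁ J₂ Q c) (z z' : A → F) (y y' : B → F) :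
    polar Q (pc z y) (pc z' y') = c * (pr J₁ z z' * pr J₂ y y') := by
  rw [h.pol, pr_pc]

/-- the matrix of an Eichler transformation at pure tensors. -/
def EM (J₁ : Matrix A A F) (J₂ : Matrix B B F) (c : F) (z : A → F) (y : B → F) (z' : A → F) (y' : B → F) :
    Matrix (A × B) (A × B) F :=
  c • (N J₂ y y' (vecMulVec z (J₁ *ᵥ z')) - N J₂ y' y (vecMulVec z' (J₁ *ᵥ z)))

lemma EM_mulVec (h : TQ J₁ J₂ Q c) (z : A → F) (y : B → F) (z' : A → F) (y' : B → F)
    (huv : polar Q (pc z y) (pc z' y') = 0) (x : A × B → F) :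
    (1 + EM J₁ J₂ c z y z' y') *ᵥ x = eichler Q (pc z y) (pc z' y') (h.pure z y) huv x := by
  rw [eichler_apply, h.pure z' y', zero_mul, zero_smul, sub_zero]
  unfold EM
  rw [Matrix.add_mulVec, Matrix.one_mulVec, Matrix.smul_mulVec, Matrix.sub_mulVec, N_vmv_mulVec, N_vmv_mulVec,
    polar_comm Q (pc z' y') x, polar_comm Q (pc z y) x, h.pol, h.pol, smul_sub, smul_smul, smul_smul, add_sub_assoc]

variable [Fintype F]

/-- `Ω` as a subgroup of `GL`. -/
noncomputable def OmG (Q : QuadraticForm F (A × B → F)) : Subgroup (GL (A × B) F) :=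
  (Om Q).comap (gl (A × B) F).toMonoidHom

lemma EM_mem (h : TQ J₁ J₂ Q c) (h4 : 4 < Fintype.card (A × B)) (z : A → F) (y : B → F) (z' : A → F)
    (y' : B → F) (huv : pr J₁ z z' * pr J₂ y y' = 0) : 1 + EM J₁ J₂ c z y z' y' ∈ MS (OmG Q) := by
  have huv' : polar Q (pc z y) (pc z' y') = 0 := by rw [h.pol_pc, huv, mul_zero]
  refine MS_of_gl (φ := eichler Q (pc z y) (pc z' y') (h.pure z y) huv') ?_ (EM_mulVec h z y z' y' huv')
  show gl (A × B) F ((gl (A × B) F).symm _) ∈ Om Q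
  rw [MulEquiv.apply_symm_apply]
  exact eichler_mem_Om h.nd (by rw [Module.finrank_fintype_fun_eq_card]; exact h4) _ _ _ _

lemma EM_smul (a : F) (z : A → F) (y : B → F) (z' : A → F) (y' : B → F) :
    EM J₁ J₂ c (a • z) y z' y' = a • EM J₁ J₂ c z y z' y' := by
  unfold EM
  rw [Matrix.smul_vecMulVec, Matrix.mulVec_smul, Matrix.vecMulVec_smul, N_smul, N_smul, ← smul_sub, smul_comm]

/-- `1 ⊗ t_y(l) ∈ Ω`. -/
lemma longB_mem [LinearOrder A] (h : TQ J₁ J₂ Q c) (h4 : 4 < Fintype.card (A × B)) (y : B → F) (l : F) :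
    1 + N J₂ y y (l • (1 : Matrix A A F)) ∈ MS (OmG Q) := by
  have hyy := pr_self h.s2 y
  have e : N J₂ y y (l • (1 : Matrix A A F)) = ∑ p : A × A, (if p.1 < p.2 then
      EM J₁ J₂ c ((c⁻¹ * l * J₁ p.1 p.2) • (J₁⁻¹ *ᵥ Pi.single p.1 1)) y (J₁⁻¹ *ᵥ Pi.single p.2 1) y else 0) := by
    conv_lhs => rw [one_eq_sum h.s1]
    unfold N
    rw [Finset.smul_sum, Matrix.mul_sum, Matrix.sum_mul]
    refine Finset.sum_congr rfl fun p _ => ?_
    by_cases hp : p.1 < p.2
    · simp only [hp, if_true, EM_smul]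
      unfold EM N
      simp only [Matrix.mul_smul, Matrix.smul_mul, Matrix.mul_sub, Matrix.sub_mul, smul_smul]
      congr 1
      field_simp [h.c0]
    · simp only [hp, if_false, smul_zero, Matrix.mul_zero, Matrix.zero_mul]
  rw [e]
  refine MS_sum _ _ ?_ ?_
  · intro p q
    by_cases hp : p.1 < p.2
    · by_cases hq : q.1 < q.2
      · simp only [hp, hq, if_true]
        unfold EM
        simp only [Matrix.smul_mul, Matrix.mul_smul, Matrix.sub_mul, Matrix.mul_sub, N_mul, hyy, zero_smul,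
          sub_zero, smul_zero]
      · simp [hq]
    · simp [hp]
  · intro p
    by_cases hp : p.1 < p.2
    · simp only [hp, if_true]
      exact EM_mem h h4 _ _ _ _ (by rw [hyy, mul_zero])
    · simp only [hp, if_false, add_zero]
      exact MS_one

/-- `t_z(l) ⊗ 1 ∈ Ω`. -/
lemma longA_mem [LinearOrder B] (h : TQ J₁ J₂ Q c) (h4 : 4 < Fintype.card (A × B)) (z : A → F) (l : F) :
    tv J₁ z l ⊗ₖ (1 : Matrix B B F) ∈ MS (OmG Q) := by
  have hzz := pr_self h.s1 z
  have hZZ : vecMulVec z (J₁ *ᵥ z) * vecMulVec z (J₁ *ᵥ z) = 0 := by rw [vmv_J_mul, hzz, zero_smul]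
  have e : tv J₁ z l ⊗ₖ (1 : Matrix B B F) = 1 + ∑ p : B × B, (if p.1 < p.2 then
      EM J₁ J₂ c ((c⁻¹ * l * J₂ p.1 p.2) • z) (J₂⁻¹ *ᵥ Pi.single p.1 1) z (J₂⁻¹ *ᵥ Pi.single p.2 1) else 0) := by
    unfold tv
    rw [Matrix.add_kronecker, Matrix.one_kronecker_one]
    congr 1
    conv_lhs => rw [one_eq_sum h.s2]
    have hk : ∀ (s : Finset (B × B)) (f : B × B → Matrix B B F),
        (l • vecMulVec z (J₁ *ᵥ z)) ⊗ₖ (∑ p ∈ s, f p) = ∑ p ∈ s, (l • vecMulVec z (J₁ *ᵥ z)) ⊗ₖ f p := by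
      intro s f
      ext ⟨i, t⟩ ⟨j, u⟩
      simp only [Matrix.kroneckerMap_apply, Matrix.sum_apply, Finset.mul_sum]
    rw [hk]
    refine Finset.sum_congr rfl fun p _ => ?_
    by_cases hp : p.1 < p.2
    · simp only [hp, if_true, EM_smul]
      unfold EM
      rw [N_eq_nn, N_eq_nn, nn_eq_kron, nn_eq_kron, Matrix.kronecker_smul, Matrix.smul_kronecker,
        kron_sub, smul_smul, smul_smul]
      congr 1
      field_simp [h.c0]
    · simp only [hp, if_false, Matrix.kronecker_zero]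
  rw [e]
  refine MS_sum _ _ ?_ ?_
  · intro p q
    by_cases hp : p.1 < p.2
    · by_cases hq : q.1 < q.2
      · simp only [hp, hq, if_true, EM_smul]
        unfold EM
        simp only [Matrix.smul_mul, Matrix.mul_smul, Matrix.sub_mul, Matrix.mul_sub, N_mul, hZZ, N_zero, smul_zero,
          sub_zero]
      · simp [hq]
    · simp [hp]
  · intro p
    by_cases hp : p.1 < p.2
    · simp only [hp, if_true]
      exact EM_mem h h4 _ _ _ _ (by rw [pr_smul_left, hzz, mul_zero, zero_mul])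
    · simp only [hp, if_false, add_zero]
      exact MS_one

end pure

end Cfsg.Agent.Lib.Helper99.TSp
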