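import Mathlib
import Cfsg.Agent.Lib.Helper99.SpH

set_option autoImplicit false
set_option linter.unusedSimpArgs false
set_option linter.unusedVariables false
set_option linter.unusedSectionVars false

/-! `Sp(A) ⊗ Sp(B)` is maximal in `Ω(A ⊗ B)`: assembling. -/

namespace Cfsg.Agent.Lib.Helper99.TSp

open Matrix hiding col row
open scoped Kronecker
open Cfsg.Agent.Lib.Helper99.Tens
open QuadraticMap
open Cfsg.Agent.Lib.Helper44 Cfsg.Agent.Lib.Helper13.O

local notation "gl" => Cfsg.Agent.Lib.Helper94.glEquiv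

variable {A B : Type} [Fintype A] [DecidableEq A] [Fintype B] [DecidableEq B] {F : Type*} [Field F]
variable {J₁ : Matrix A A F} {J₂ : Matrix B B F}

/-- `β ↦ 1 ⊗ β`. -/
def kB (A : Type) [Fintype A] [DecidableEq A] (B : Type) [Fintype B] [DecidableEq B] (F : Type*) [Field F] :
    Matrix B B F →* Matrix (A × B) (A × B) F where
  toFun β := (1 : Matrix A A F) ⊗ₖ β
  map_one' := Matrix.one_kronecker_one
  map_mul' β β' := by rw [← Matrix.mul_kronecker_mul, Matrix.one_mul]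

/-- `α ↦ α ⊗ 1`. -/
def kA (A : Type) [Fintype A] [DecidableEq A] (B : Type) [Fintype B] [DecidableEq B] (F : Type*) [Field F] :
    Matrix A A F →* Matrix (A × B) (A × B) F where
  toFun α := α ⊗ₖ (1 : Matrix B B F)
  map_one' := Matrix.one_kronecker_one
  map_mul' α α' := by rw [← Matrix.mul_kronecker_mul, Matrix.one_mul]

lemma symm_st_val {n : Type} [Fintype n] [DecidableEq n] {J : Matrix n n F} (hJ : Sym J) (v : n → F) (c : F) :
    (((gl n F).symm (Cfsg.Agent.Lib.Helper94.st (Bf J) (Bf_alt hJ) v c) : GL n F) : Matrix n n F) = tv J v c := by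
  apply mat_ext
  intro x
  rw [← Cfsg.Agent.Lib.Helper94.glEquiv_apply, MulEquiv.apply_symm_apply, Cfsg.Agent.Lib.Helper94.st_apply,
    tv_mulVec, Bf_apply]

/-- a subgroup of `GL(A ⊗ B)` containing the images of all transvections contains all isometries. -/
lemma iso_mem_of_tv {n : Type} [Fintype n] [DecidableEq n] {J : Matrix n n F} (hJ : Sym J)
    (k : Matrix n n F →* Matrix (A × B) (A × B) F) (M : Subgroup (GL (A × B) F))
    (h : ∀ v c, k (tv J v c) ∈ MS M) {s s' : Matrix n n F} (hs : s * s' = 1) (hi : IsoM J s) : k s ∈ MS M := by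
  let GB : Subgroup ((n → F) ≃ₗ[F] (n → F)) := (M.comap (Units.map k)).comap (gl n F).symm.toMonoidHom
  have hG : ∀ v c, Cfsg.Agent.Lib.Helper94.st (Bf J) (Bf_alt hJ) v c ∈ GB := by
    intro v c
    show Units.map k ((gl n F).symm (Cfsg.Agent.Lib.Helper94.st (Bf J) (Bf_alt hJ) v c)) ∈ M
    obtain ⟨g, hg, hgv⟩ := h v c
    have : g = Units.map k ((gl n F).symm (Cfsg.Agent.Lib.Helper94.st (Bf J) (Bf_alt hJ) v c)) := by
      apply Units.ext
      rw [hgv, Units.coe_map, symm_st_val hJ]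
    rwa [← this]
  let b : GL n F := ⟨s, s', hs, mul_eq_one_comm.1 hs⟩
  have hb : Cfsg.Agent.Lib.Helper94.IsIsom (Bf J) (gl n F b) := by
    intro x w
    rw [Bf_apply, Bf_apply, Cfsg.Agent.Lib.Helper94.glEquiv_apply, Cfsg.Agent.Lib.Helper94.glEquiv_apply]
    exact hi x w
  have := Cfsg.Agent.Lib.Helper94.mem_of_isIsom (Bf_alt hJ) (Bf_nondeg hJ) GB hG _ hb
  have h2 : Units.map k ((gl n F).symm (gl n F b)) ∈ M := this
  rw [MulEquiv.symm_apply_apply] at h2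
  exact ⟨_, h2, rfl⟩

variable {Q : QuadraticForm F (A × B → F)} {c : F}

section

variable [Fintype F] [LinearOrder A] [LinearOrder B]

lemma isoB_mem (h : TQ J₁ J₂ Q c) (h4 : 4 < Fintype.card (A × B)) {s s' : Matrix B B F} (hs : s * s' = 1)
    (hi : IsoM J₂ s) : (1 : Matrix A A F) ⊗ₖ s ∈ MS (OmG Q) := by
  refine iso_mem_of_tv h.s2 (kB A B F) (OmG Q) ?_ hs hi
  intro v l
  have e : kB A B F (tv J₂ v l) = 1 + N J₂ v v (l • (1 : Matrix A A F)) := by
    show (1 : Matrix A A F) ⊗ₖ tv J₂ v l = _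
    unfold tv
    rw [N_eq_nn, nn_eq_kron, Matrix.kronecker_add, Matrix.one_kronecker_one, Matrix.smul_kronecker,
      Matrix.kronecker_smul]
  rw [e]
  exact longB_mem h h4 v l

lemma isoA_mem (h : TQ J₁ J₂ Q c) (h4 : 4 < Fintype.card (A × B)) {r r' : Matrix A A F} (hr : r * r' = 1)
    (hi : IsoM J₁ r) : r ⊗ₖ (1 : Matrix B B F) ∈ MS (OmG Q) :=
  iso_mem_of_tv h.s1 (kA A B F) (OmG Q) (fun v l => longA_mem h h4 v l) hr hi

lemma hasSp (h : TQ J₁ J₂ Q c) (h4 : 4 < Fintype.card (A × B)) {Kr M : Subgroup (GL (A × B) F)}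
    (hKr : ∀ g : GL (A × B) F, g ∈ Kr ↔ IsKr (g : Matrix (A × B) (A × B) F)) (hHM : Kr ⊓ OmG Q ≤ M)
    (hMK : M ≤ OmG Q) : HasSp J₁ J₂ M where
  s1 := h.s1
  s2 := h.s2
  hB := by
    intro s s' hs hi
    obtain ⟨g, hg, hgv⟩ := isoB_mem h h4 hs hi
    exact ⟨g, hHM (Subgroup.mem_inf.2 ⟨(hKr g).2 ⟨1, s, hgv⟩, hg⟩), hgv⟩
  hA := by
    intro r r' hr hi
    obtain ⟨g, hg, hgv⟩ := isoA_mem h h4 hr hi
    exact ⟨g, hHM (Subgroup.mem_inf.2 ⟨(hKr g).2 ⟨r, 1, hgv⟩, hg⟩), hgv⟩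
  iso := by
    rintro _ ⟨g, hg, rfl⟩
    apply IsoM.eq
    intro x w
    have hO : gl (A × B) F g ∈ OQ Q := Om_le_OQ Q (hMK hg)
    have := OQ_polar hO x w
    rw [h.pol, h.pol, Cfsg.Agent.Lib.Helper94.glEquiv_apply, Cfsg.Agent.Lib.Helper94.glEquiv_apply] at this
    exact mul_left_cancel₀ h.c0 this

end

lemma eichler_congr {V : Type*} [AddCommGroup V] [Module F V] (Q : QuadraticForm F V) {u u' v v' : V}
    (h1 : u = u') (h2 : v = v') (hu : Q u = 0) (huv : polar Q u v = 0) (hu' : Q u' = 0)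
    (huv' : polar Q u' v' = 0) : eichler Q u v hu huv = eichler Q u' v' hu' huv' := by
  subst h1; subst h2; rfl

section UU

variable {V : Type*} [AddCommGroup V] [Module F V] {Q' : QuadraticForm F V} {K : Subgroup (V ≃ₗ[F] V)}

/-- `v ⊥ u` and the Eichler transformation lies in `K`. -/
def PP (Q' : QuadraticForm F V) (K : Subgroup (V ≃ₗ[F] V)) (u : V) (hu : Q' u = 0) (v : V) : Prop :=
  ∃ h : polar Q' u v = 0, eichler Q' u v hu h ∈ K

lemma PP_zero (u : V) (hu : Q' u = 0) : PP Q' K u hu 0 := by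
  refine ⟨by simp, ?_⟩
  have : eichler Q' u 0 hu (by simp) = 1 := by
    ext x
    simp [eichler_apply]
  rw [this]
  exact K.one_mem

lemma PP_add {u : V} {hu : Q' u = 0} {v v' : V} (h : PP Q' K u hu v) (h' : PP Q' K u hu v') :
    PP Q' K u hu (v + v') := by
  obtain ⟨h1, h2⟩ := h
  obtain ⟨h1', h2'⟩ := h'
  refine ⟨by rw [polar_add_right, h1, h1', add_zero], ?_⟩
  rw [← eichler_mul Q' u v v' hu h1 h1']
  exact K.mul_mem h2 h2'

lemma PP_cancel {u : V} {hu : Q' u = 0} {v v' : V} (h : PP Q' K u hu v) (h' : PP Q' K u hu (v + v')) :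
    PP Q' K u hu v' := by
  obtain ⟨h1, h2⟩ := h
  obtain ⟨h1', h2'⟩ := h'
  have h3 : polar Q' u v' = 0 := by
    rw [polar_add_right, h1, zero_add] at h1'
    exact h1'
  refine ⟨h3, ?_⟩
  have := eichler_mul Q' u v v' hu h1 h3
  have e : eichler Q' u v' hu h3 = (eichler Q' u v hu h1)⁻¹ * eichler Q' u (v + v') hu h1' := by
    rw [← this]; group
  rw [e]
  exact K.mul_mem (K.inv_mem h2) h2'

lemma PP_sum {u : V} {hu : Q' u = 0} {κ : Type*} (s : Finset κ) (f : κ → V) (h : ∀ i, PP Q' K u hu (f i)) :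
    PP Q' K u hu (∑ i ∈ s, f i) := by
  classical
  induction s using Finset.induction_on with
  | empty => simpa using PP_zero u hu
  | insert a s ha ih =>
    rw [Finset.sum_insert ha]
    exact PP_add (h a) ih

end UU

section final

variable {M : Subgroup (GL (A × B) F)}

/-- the group of linear maps. -/
noncomputable def KKg (M : Subgroup (GL (A × B) F)) : Subgroup ((A × B → F) ≃ₗ[F] (A × B → F)) :=
  Subgroup.map (gl (A × B) F).toMonoidHom M

lemma mem_KK_of_MS {X : Matrix (A × B) (A × B) F} {φ : (A × B → F) ≃ₗ[F] (A × B → F)}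
    (hX : X ∈ MS M) (h : ∀ x, X *ᵥ x = φ x) : φ ∈ KKg M :=
  ⟨_, gl_of_MS hX h, MulEquiv.apply_symm_apply _ _⟩

lemma first_ind (h : TQ J₁ J₂ Q c) (hcore : ∀ z z' : A → F, vecMulVec z (J₁ *ᵥ z') ∈ KS J₁ J₂ M)
    (z : A → F) (y : B → F) (z' : A → F) {y' : B → F} (hI : Ind y y') (h0 : pr J₂ y y' = 0) :
    PP Q (KKg M) (pc z y) (h.pure z y) (pc z' y') := by
  have huv : polar Q (pc z y) (pc z' y') = 0 := by rw [h.pol_pc, h0, mul_zero, mul_zero]
  refine ⟨huv, mem_KK_of_MS (X := 1 + EM J₁ J₂ c z y z' y') ?_ (EM_mulVec h z y z' y' huv)⟩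
  have := hcore (c • z) z' y y' hI h0
  have e : sh J₁ J₂ y y' (vecMulVec (c • z) (J₁ *ᵥ z')) = EM J₁ J₂ c z y z' y' := by
    unfold sh EM
    rw [adj_vmv h.s1, N_neg, Matrix.smul_vecMulVec, Matrix.mulVec_smul, Matrix.vecMulVec_smul, N_smul, N_smul,
      smul_sub, sub_eq_add_neg]
  rwa [e] at this

lemma first_kind (h : TQ J₁ J₂ Q c) (h3 : 3 ≤ Fintype.card B)
    (hcore : ∀ z z' : A → F, vecMulVec z (J₁ *ᵥ z') ∈ KS J₁ J₂ M)
    (z : A → F) {y : B → F} (hy : y ≠ 0) (z' : A → F) {y' : B → F} (h0 : pr J₂ y y' = 0) :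
    PP Q (KKg M) (pc z y) (h.pure z y) (pc z' y') := by
  by_cases hI : Ind y y'
  · exact first_ind h hcore z y z' hI h0
  · obtain ⟨t, rfl⟩ := exists_smul_of_not_ind hy hI
    obtain ⟨w, hIw, hw⟩ := exists_ind_perp h.s2 h3 hy
    have hI2 : Ind y (t • y - w) := by
      intro a b hab
      have := hIw (a + b * t) (-b) (by rw [← hab]; module)
      obtain ⟨h1, h2⟩ := this
      have hb : b = 0 := neg_eq_zero.1 h2
      subst hb
      simpa using h1
    have a1 := first_ind h hcore z y z' hIw hw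
    have a2 := first_ind h hcore z y z' hI2 (by rw [pr_sub_right, h0, hw, sub_zero])
    have := PP_add a1 a2
    rwa [← pc_add_right, add_sub_cancel] at this

lemma second_kind [Nonempty A] (h : TQ J₁ J₂ Q c) (h3 : 3 ≤ Fintype.card B) (hMO : ∀ g ∈ M, gl (A × B) F g ∈ OQ Q)
    (hcore : ∀ z z' : A → F, vecMulVec z (J₁ *ᵥ z') ∈ KS J₁ J₂ M)
    (z : A → F) {y : B → F} (hy : y ≠ 0) {z' : A → F} (hzz : pr J₁ z z' = 0) (y₄ : B → F) :
    PP Q (KKg M) (pc z y) (h.pure z y) (pc z' y₄) := by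
  have hJ1 := h.s1
  have hJ2 := h.s2
  by_cases h0 : pr J₂ y y₄ = 0
  · exact first_kind h h3 hcore z hy z' h0
  by_cases hz' : z' = 0
  · subst hz'
    rw [pc_zero_left]
    exact PP_zero _ _
  have hy₄ : y₄ ≠ 0 := by
    rintro rfl
    exact h0 (pr_zero_right _)
  obtain ⟨y₅, hy₅, p1, p2⟩ := exists_perp_two h3 (J₂ *ᵥ y) (J₂ *ᵥ y₄)
  have p1' : pr J₂ y₅ y = 0 := p1
  have p2' : pr J₂ y₅ y₄ = 0 := p2
  obtain ⟨y₁, hy₁₅, hy₁y⟩ := exists_pr_one_zero hJ2 (y := y) (w := y₅) (by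
    intro t ht
    rw [ht, pr_smul_left] at p2'
    rcases mul_eq_zero.1 p2' with h1 | h1
    · rw [h1, zero_smul] at ht
      exact hy₅ ht
    · exact h0 h1)
  obtain ⟨z₀, hz₀⟩ := exists_pr_one hJ1 hz'
  set z'' := (-c⁻¹) • z₀ with hz''
  have hg₂ := first_kind h h3 hcore z' hy₄ z'' (pr_swap0 hJ2 p2')
  obtain ⟨hp₂, hg₂K⟩ := hg₂
  have hv₁ := first_kind h h3 hcore z hy z' (pr_swap0 hJ2 hy₁y)
  obtain ⟨hp₁, hv₁K⟩ := hv₁
  have hO : eichler Q (pc z' y₄) (pc z'' y₅) (h.pure z' y₄) hp₂ ∈ OQ Q := eichler_mem Q _ _ _ _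
  have e1 : eichler Q (pc z' y₄) (pc z'' y₅) (h.pure z' y₄) hp₂ (pc z y) = pc z y := by
    rw [eichler_apply, h.pol_pc, h.pol_pc, p1', pr_swap0 hJ1 hzz]
    simp
  have e2 : eichler Q (pc z' y₄) (pc z'' y₅) (h.pure z' y₄) hp₂ (pc z' y₁) = pc z' y₁ + pc z' y₄ := by
    rw [eichler_apply, h.pol_pc, h.pol_pc, pr_self hJ1, hz'', pr_smul_left, hz₀, pr_swap1 hJ2 hy₁₅]
    have : c * (-c⁻¹ * 1 * -1) = 1 := by
      field_simp [h.c0]
    rw [this]
    simp
  have hconj := conj_eichler hO (pc z y) (pc z' y₁) (h.pure z y) hp₁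
  have hp₃ : polar Q (pc z y) (pc z' y₁ + pc z' y₄) = 0 := by
    rw [polar_add_right, h.pol_pc, h.pol_pc, hzz]
    simp
  rw [eichler_congr Q e1 e2 _ _ (h.pure z y) hp₃] at hconj
  have hmem : eichler Q (pc z y) (pc z' y₁ + pc z' y₄) (h.pure z y) hp₃ ∈ KKg M := by
    rw [← hconj]
    exact Subgroup.mul_mem _ (Subgroup.mul_mem _ hg₂K hv₁K) (Subgroup.inv_mem _ hg₂K)
  exact PP_cancel ⟨hp₁, hv₁K⟩ ⟨hp₃, hmem⟩

lemma pure_mem_UU [Nonempty A] (h : TQ J₁ J₂ Q c) (h3 : 3 ≤ Fintype.card B)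
    (hMO : ∀ g ∈ M, gl (A × B) F g ∈ OQ Q)
    (hcore : ∀ z z' : A → F, vecMulVec z (J₁ *ᵥ z') ∈ KS J₁ J₂ M)
    {z : A → F} (hz : z ≠ 0) {y : B → F} (hy : y ≠ 0) : pc z y ∈ UU Q (KKg M) := by
  have hJ1 := h.s1
  have hJ2 := h.s2
  refine ⟨h.pure z y, fun v hu huv => ?_⟩
  obtain ⟨zs, hzs⟩ := exists_pr_one hJ1 hz
  set cv : B → F := fun b => pr J₁ (fun a => v (a, b)) z with hcv
  have hdec : v = pc zs cv + ∑ b : B, pc ((fun a => v (a, b)) - cv b • zs) (Pi.single b (1 : F)) := by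
    funext p
    obtain ⟨a, b'⟩ := p
    simp only [Pi.add_apply, Finset.sum_apply, pc, Pi.sub_apply, Pi.smul_apply, smul_eq_mul, Pi.single_apply]
    rw [Finset.sum_eq_single b']
    · simp; ring
    · intro b _ hb
      simp [Ne.symm hb]
    · simp
  have hS : PP Q (KKg M) (pc z y) (h.pure z y)
      (∑ b : B, pc ((fun a => v (a, b)) - cv b • zs) (Pi.single b (1 : F))) := by
    refine PP_sum _ _ fun b => second_kind h h3 hMO hcore z hy ?_ _
    rw [pr_sub_right, pr_smul_right, pr_swap hJ1 z zs, hzs, pr_swap hJ1 z]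
    simp [hcv]
  have hpcv : pr J₂ y cv = 0 := by
    have h1 := huv
    rw [hdec, polar_add_right, hS.1, add_zero, h.pol_pc, pr_swap hJ1 z zs, hzs] at h1
    have h2 : -1 * pr J₂ y cv = 0 := (mul_eq_zero.1 h1).resolve_left h.c0
    simpa using h2
  have hF := first_kind h h3 hcore z hy zs hpcv
  have hall := PP_add hF hS
  rw [← hdec] at hall
  exact hall.2

end final

/-- short elements which are Kronecker products. -/
lemma scalar_of_isKr [Nonempty A] (hJ : Sym J₂) (h5 : 5 ≤ Fintype.card B) {y w : B → F} (hI : Ind y w)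
    {κ κ' : Matrix A A F} (hk : IsKr (1 + (N J₂ y w κ + N J₂ w y κ'))) : ∃ a : F, κ = a • (1 : Matrix A A F) := by
  obtain ⟨α, β, hαβ⟩ := hk
  obtain ⟨v, hv, p1, p2, _, _⟩ := exists_perp4 (J := J₂) h5 y w y w
  have e1 : col A (β *ᵥ v) * α = col A v := by
    rw [← kron_mul_col, ← hαβ, Matrix.add_mul, Matrix.one_mul, Matrix.add_mul, N_col, N_col, p1, p2]
    simp
  obtain ⟨η, hη⟩ := exists_dot_one hv
  have e2 : (η ⬝ᵥ (β *ᵥ v)) • α = 1 := by
    have := congrArg (fun M => row A η * M) e1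
    simp only [row_col_assoc, row_mul_col, hη, one_smul] at this
    exact this
  have ht : η ⬝ᵥ (β *ᵥ v) ≠ 0 := by
    intro h0
    rw [h0, zero_smul] at e2
    exact zero_ne_one e2
  have hα : α = (η ⬝ᵥ (β *ᵥ v))⁻¹ • (1 : Matrix A A F) := by
    rw [← e2, smul_smul, inv_mul_cancel₀ ht, one_smul]
  obtain ⟨v', hv'w, hv'y⟩ := exists_pr_one_zero hJ hI.not_smul
  have e3 : col A (β *ᵥ v') * α = col A v' + col A y * κ := by
    rw [← kron_mul_col, ← hαβ, Matrix.add_mul, Matrix.one_mul, Matrix.add_mul, N_col, N_col, hv'w, hv'y]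
    simp
  obtain ⟨η', hη'⟩ := exists_dot_one hI.left_ne
  have := congrArg (fun M => row A η' * M) e3
  simp only [row_col_assoc, row_mul_col, Matrix.mul_add, hη', one_smul] at this
  refine ⟨(η' ⬝ᵥ (β *ᵥ v')) * (η ⬝ᵥ (β *ᵥ v))⁻¹ - η' ⬝ᵥ v', ?_⟩
  rw [sub_smul, mul_smul, ← hα, this]
  abel

lemma vmv_not_scalar {n : Type} [Fintype n] [DecidableEq n] (h2 : 2 ≤ Fintype.card n) {z ζ : n → F}
    (hz : z ≠ 0) (hζ : ζ ≠ 0) (a : F) : vecMulVec z ζ ≠ a • (1 : Matrix n n F) := by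
  intro h
  obtain ⟨x, hx, hx0⟩ := exists_ker (dotProductBilin F F ζ) (by rw [Module.finrank_self]; omega)
  have hx0' : ζ ⬝ᵥ x = 0 := hx0
  have e := congrArg (fun M => M *ᵥ x) h
  simp only [Matrix.vecMulVec_mulVec, hx0', Matrix.smul_mulVec, Matrix.one_mulVec] at e
  have ha : a = 0 := by
    by_contra ha
    apply hx
    have : a • x = 0 := by rw [← e]; simp
    exact (smul_eq_zero.1 this).resolve_left ha
  rw [ha, zero_smul] at h
  obtain ⟨i, hi⟩ := Function.ne_iff.1 hz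
  obtain ⟨j, hj⟩ := Function.ne_iff.1 hζ
  have := congrFun (congrFun h i) j
  rw [vecMulVec_apply] at this
  exact (mul_ne_zero hi hj) this

/-- **Maximality** in the `A ⊗ B` model. -/
theorem maximal_AB [Fintype F] [LinearOrder A] [LinearOrder B] [Nonempty A] [Nonempty B]
    (h : TQ J₁ J₂ Q c) (h12 : 12 < Fintype.card (A × B)) (h5 : 5 ≤ Fintype.card B) (h2 : 2 ≤ Fintype.card A)
    (hAB : Fintype.card A + 1 < Fintype.card B)
    (hex : 3 ≤ Fintype.card A ∨ ∃ a : F, a ≠ 0 ∧ a ≠ 1) {Kr : Subgroup (GL (A × B) F)}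
    (hKr : ∀ g : GL (A × B) F, g ∈ Kr ↔ IsKr (g : Matrix (A × B) (A × B) F)) :
    Cfsg.Geo.IsMaximalIn (OmG Q) (Kr ⊓ OmG Q) := by
  have hJ1 := h.s1
  have hJ2 := h.s2
  obtain ⟨a₀⟩ := ‹Nonempty A›
  obtain ⟨b₀⟩ := ‹Nonempty B›
  have hz : (Pi.single a₀ (1 : F) : A → F) ≠ 0 := by
    intro h; have := congrFun h a₀; simp at this
  have hy : (Pi.single b₀ (1 : F) : B → F) ≠ 0 := by
    intro h; have := congrFun h b₀; simp at this
  set z := (Pi.single a₀ (1 : F) : A → F)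
  set y := (Pi.single b₀ (1 : F) : B → F)
  haveI : Nonempty A := ⟨a₀⟩
  haveI : Nonempty B := ⟨b₀⟩
  refine Cfsg.Agent.Lib.Helper94.isMaximalIn_of_core _ _ inf_le_right ?_ ?_
  · obtain ⟨w, hI, h0⟩ := exists_ind_perp hJ2 (by omega) hy
    obtain ⟨g, hg, hgv⟩ := EM_mem h (by omega) z y z w (by rw [h0, mul_zero])
    refine ⟨g, hg, fun hmem => ?_⟩
    have hk := (hKr g).1 (Subgroup.mem_inf.1 hmem).1
    rw [hgv] at hk
    have e : EM J₁ J₂ c z y z w = N J₂ y w (c • vecMulVec z (J₁ *ᵥ z)) + N J₂ w y (-(c • vecMulVec z (J₁ *ᵥ z))) := by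
      unfold EM
      rw [N_neg, N_smul, N_smul, smul_sub, sub_eq_add_neg]
    rw [e] at hk
    obtain ⟨a, ha⟩ := scalar_of_isKr hJ2 h5 hI hk
    have hne := vmv_not_scalar h2 hz (fun h0 => hz (hJ1.inj h0)) (c⁻¹ * a)
    apply hne
    rw [mul_smul, ← ha, smul_smul, inv_mul_cancel₀ h.c0, one_smul]
  · intro M hHM hMK g0 hg0 hg0H
    have hS := hasSp h (by omega) hKr hHM hMK
    have hnk : ¬ IsKr (g0 : Matrix (A × B) (A × B) F) := fun hk =>
      hg0H (Subgroup.mem_inf.2 ⟨(hKr g0).2 hk, hMK hg0⟩)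
    have hcore := core hS h5 hAB hex hg0 hnk
    have hMO : ∀ g ∈ M, gl (A × B) F g ∈ OQ Q := fun g hg => Om_le_OQ Q (hMK hg)
    obtain ⟨zs, hzs⟩ := exists_pr_one hJ1 hz
    obtain ⟨ys, hys⟩ := exists_pr_one hJ2 hy
    have hzs0 : zs ≠ 0 := by
      rintro rfl
      rw [pr_zero_left] at hzs
      exact zero_ne_one hzs
    have hys0 : ys ≠ 0 := by
      rintro rfl
      rw [pr_zero_left] at hys
      exact zero_ne_one hys
    have u1 := pure_mem_UU h (by omega) hMO hcore hzs0 hys0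
    have u2 := pure_mem_UU h (by omega) hMO hcore hz hy
    have hle := Om_le_of_UU h.nd (by rw [Module.finrank_fintype_fun_eq_card]; exact h12) u1 u2
      (by rw [h.pol_pc, hzs, hys]; simpa using h.c0)
    intro k hk
    obtain ⟨k', hk', hkk⟩ := hle hk
    have : k' = k := (gl (A × B) F).injective hkk
    exact this ▸ hk'

end Cfsg.Agent.Lib.Helper99.TSp
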