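import Mathlib
import Cfsg.Prelude.Def_GeometricClasses
import Cfsg.Agent.Lib.Helper94.SLGen
import Cfsg.Agent.Lib.Helper94.SympWrap
import Cfsg.Agent.Lib.Helper99.TensF

set_option autoImplicit false
set_option linter.unusedSimpArgs false
set_option linter.unusedVariables false
set_option linter.unusedSectionVars false

/-! Wrappers for the tensor product subgroups. -/

namespace Cfsg.Agent.Lib.Helper99.Tens

open Matrix
open scoped Kronecker

variable {F : Type*} [Field F]

section gen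

variable {ι : Type} [Fintype ι] [DecidableEq ι]

lemma mem_sl_iff (g : GL ι F) : g ∈ Cfsg.Geo.specialLinear ι F ↔ (g : Matrix ι ι F).det = 1 := by
  unfold Cfsg.Geo.specialLinear
  rw [MonoidHom.mem_ker, Units.ext_iff]
  rfl

/-- a subgroup containing all elementary transvections contains `SL`. -/
theorem sl_le_of_elem [Nontrivial ι] (M : Subgroup (GL ι F))
    (h : ∀ (p q : ι), p ≠ q → ∀ c : F, 1 + Matrix.single p q c ∈ MS M) :
    Cfsg.Geo.specialLinear ι F ≤ M := by
  have hel : ∀ (i j : ι) (hij : i ≠ j) (c : F),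
      Matrix.SpecialLinearGroup.toGL (Matrix.SpecialLinearGroup.transvection hij c) ∈ M := by
    intro i j hij c
    obtain ⟨g, hg, hgv⟩ := h i j hij c
    have : g = Matrix.SpecialLinearGroup.toGL (Matrix.SpecialLinearGroup.transvection hij c) := by
      apply Units.ext
      rw [hgv]
      simp [Matrix.SpecialLinearGroup.transvection_coe, Matrix.transvection]
    rwa [← this]
  have key : ∀ A : Matrix.SpecialLinearGroup ι F, Matrix.SpecialLinearGroup.toGL A ∈ M := by
    intro A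
    refine Matrix.SpecialLinearGroup.diagonal_transvection_induction'
      (fun A => Matrix.SpecialLinearGroup.toGL A ∈ M) A ?_ ?_ ?_
    · intro i j hij c hc
      have e : Matrix.SpecialLinearGroup.toGL (Matrix.SpecialLinearGroup.diag2n hij c hc) =
          Matrix.SpecialLinearGroup.toGL (Matrix.SpecialLinearGroup.transvection hij c) *
          Matrix.SpecialLinearGroup.toGL (Matrix.SpecialLinearGroup.transvection hij.symm (-c⁻¹)) *
          Matrix.SpecialLinearGroup.toGL (Matrix.SpecialLinearGroup.transvection hij c) *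
          Matrix.SpecialLinearGroup.toGL (Matrix.SpecialLinearGroup.transvection hij (-1)) *
          Matrix.SpecialLinearGroup.toGL (Matrix.SpecialLinearGroup.transvection hij.symm 1) *
          Matrix.SpecialLinearGroup.toGL (Matrix.SpecialLinearGroup.transvection hij (-1)) := by
        apply (Cfsg.Agent.Lib.Helper94.glEquiv ι F).injective
        simp only [map_mul, Cfsg.Agent.Lib.Helper94.glEquiv_transvection]
        exact Cfsg.Agent.Lib.Helper94.glEquiv_diag2n hij c hc
      show Matrix.SpecialLinearGroup.toGL (Matrix.SpecialLinearGroup.diag2n hij c hc) ∈ M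
      rw [e]
      exact M.mul_mem (M.mul_mem (M.mul_mem (M.mul_mem (M.mul_mem (hel _ _ _ _) (hel _ _ _ _))
        (hel _ _ _ _)) (hel _ _ _ _)) (hel _ _ _ _)) (hel _ _ _ _)
    · intro i j hij a
      exact hel _ _ _ _
    · intro A B hA hB
      show Matrix.SpecialLinearGroup.toGL (A * B) ∈ M
      rw [map_mul]
      exact M.mul_mem hA hB
  intro g hg
  have hd := (mem_sl_iff g).1 hg
  have : g = Matrix.SpecialLinearGroup.toGL ⟨(g : Matrix ι ι F), hd⟩ := by
    apply Units.ext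
    rfl
  rw [this]
  exact key _

end gen

section wrap

variable {ι : Type} [Fintype ι] [DecidableEq ι] {n₁ n₂ : ℕ}

/-- the transport isomorphism. -/
noncomputable def tensE (e : ι ≃ Fin n₁ × Fin n₂) (P : GL ι F) : GL (Fin n₁ × Fin n₂) F ≃* GL ι F :=
  (Cfsg.Geo.glReindex e.symm).trans (MulAut.conj P)

lemma tensE_val (e : ι ≃ Fin n₁ × Fin n₂) (P : GL ι F) (x : GL (Fin n₁ × Fin n₂) F) :
    ((tensE e P x : GL ι F) : Matrix ι ι F) =
      (P : Matrix ι ι F) * (Matrix.reindex e.symm e.symm (x : Matrix (Fin n₁ × Fin n₂) (Fin n₁ × Fin n₂) F)) *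
        ((P⁻¹ : GL ι F) : Matrix ι ι F) := by
  simp [tensE, Cfsg.Geo.glReindex, MulAut.conj_apply, Matrix.coe_reindexAlgEquiv]

lemma tensE_det (e : ι ≃ Fin n₁ × Fin n₂) (P : GL ι F) (x : GL (Fin n₁ × Fin n₂) F) :
    ((tensE e P x : GL ι F) : Matrix ι ι F).det = (x : Matrix (Fin n₁ × Fin n₂) (Fin n₁ × Fin n₂) F).det := by
  rw [tensE_val, Matrix.det_mul, Matrix.det_mul, Matrix.det_reindex_self, mul_right_comm, ← Matrix.det_mul,
    ← Units.val_mul, mul_inv_cancel, Units.val_one, Matrix.det_one, one_mul]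

lemma tensorProductSubgroup_eq (e : ι ≃ Fin n₁ × Fin n₂) (P : GL ι F) :
    Cfsg.Geo.tensorProductSubgroup n₁ n₂ e P =
      (Cfsg.Geo.kroneckerSubgroup n₁ n₂ F).comap (tensE e P).symm.toMonoidHom := by
  unfold Cfsg.Geo.tensorProductSubgroup
  rw [Subgroup.map_map]
  exact Subgroup.map_equiv_eq_comap_symm (tensE e P) _

lemma specialLinear_eq (e : ι ≃ Fin n₁ × Fin n₂) (P : GL ι F) :
    Cfsg.Geo.specialLinear ι F =
      (Cfsg.Geo.specialLinear (Fin n₁ × Fin n₂) F).comap (tensE e P).symm.toMonoidHom := by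
  ext g
  rw [Subgroup.mem_comap, mem_sl_iff, mem_sl_iff]
  have := tensE_det e P ((tensE e P).symm g)
  rw [MulEquiv.apply_symm_apply] at this
  rw [this]
  rfl

lemma mem_kron_iff [NeZero n₁] [NeZero n₂] (g : GL (Fin n₁ × Fin n₂) F) :
    g ∈ Cfsg.Geo.kroneckerSubgroup n₁ n₂ F ↔ IsKr (g : Matrix (Fin n₁ × Fin n₂) (Fin n₁ × Fin n₂) F) := by
  constructor
  · rintro ⟨a, b, h⟩
    exact ⟨a, b, h⟩
  · rintro ⟨α, β, h⟩
    have h1 : (α ⊗ₖ β) * ((g⁻¹ : GL _ F) : Matrix (Fin n₁ × Fin n₂) (Fin n₁ × Fin n₂) F) = 1 := by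
      rw [← h, ← Units.val_mul, mul_inv_cancel, Units.val_one]
    obtain ⟨hα, hβ⟩ := kr_units h1
    exact ⟨Matrix.GeneralLinearGroup.mk'' α hα, Matrix.GeneralLinearGroup.mk'' β hβ, h⟩

/-- elements of `SL ⊗ SL`. -/
lemma hasH_of_le [NeZero n₁] [NeZero n₂] {M : Subgroup (GL (Fin n₁ × Fin n₂) F)}
    (h : Cfsg.Geo.kroneckerSubgroup n₁ n₂ F ⊓ Cfsg.Geo.specialLinear (Fin n₁ × Fin n₂) F ≤ M) : HasH M := by
  intro α β hα hβ
  have hd : (α ⊗ₖ β).det = 1 := by rw [Matrix.det_kronecker, hα, hβ, one_pow, one_pow, one_mul]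
  refine ⟨Matrix.GeneralLinearGroup.mk'' (α ⊗ₖ β) (by rw [hd]; exact isUnit_one),
    h (Subgroup.mem_inf.2 ⟨?_, ?_⟩), rfl⟩
  · rw [mem_kron_iff]
    exact ⟨α, β, rfl⟩
  · rw [mem_sl_iff]
    exact hd

end wrap

end Cfsg.Agent.Lib.Helper99.Tens
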