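import Mathlib
import Cfsg.Agent.Lib.Helper99.SpI
import Cfsg.Agent.Lib.Helper99.TensW
import Cfsg.Agent.Lib.Helper94.Tens
import Cfsg.Agent.S0752

set_option autoImplicit false
set_option linter.unusedSimpArgs false
set_option linter.unusedVariables false
set_option linter.unusedSectionVars false

/-! Wrappers for `Sp ⊗ Sp ≤ Ω⁺`. -/

namespace Cfsg.Agent.Lib.Helper99.TSp

open Matrix hiding col row
open scoped Kronecker
open Cfsg.Agent.Lib.Helper99.Tens
open QuadraticMap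
open Cfsg.Agent.Lib.Helper44 Cfsg.Agent.Lib.Helper13.O

local notation "gl" => Cfsg.Agent.Lib.Helper94.glEquiv

variable {F : Type*} [Field F]

section form

variable {n : Type} [Fintype n] [DecidableEq n]

lemma pr_eq_formOfGram (G : Matrix n n F) (x w : n → F) : pr G x w = Cfsg.Geo.formOfGram id G x w := by
  unfold pr Cfsg.Geo.formOfGram
  simp only [dotProduct, Matrix.mulVec, id, Finset.sum_mul, Finset.mul_sum]
  refine Finset.sum_congr rfl fun a _ => Finset.sum_congr rfl fun b _ => ?_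
  ring

lemma pr_gram {f : (n → F) → (n → F) → F} (hf : Cfsg.Geo.IsSymplecticForm f) (x w : n → F) :
    pr (Cfsg.Geo.gramMatrix f) x w = f x w := by
  rw [pr_eq_formOfGram, Cfsg.Agent.Lib.Helper94.Tens.formOfGram_gram f hf.bilinear]

lemma sym_gram {f : (n → F) → (n → F) → F} (hf : Cfsg.Geo.IsSymplecticForm f) :
    Sym (Cfsg.Geo.gramMatrix f) where
  alt x := by
    have := pr_gram hf x x
    rw [hf.alternating] at this
    exact this
  unit := by
    rw [isUnit_iff_ne_zero]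
    intro h0
    obtain ⟨v, hv, hv0⟩ := Matrix.exists_mulVec_eq_zero_iff.2 h0
    obtain ⟨x, hx⟩ := (hf.nondegenerate v hv).1
    apply hx
    rw [← pr_gram hf]
    unfold pr
    rw [hv0, zero_dotProduct]

lemma Sym.even_card {J : Matrix n n F} (hJ : Sym J) : Even (Fintype.card n) := by
  obtain ⟨m, k, b, -, -, -, hrad⟩ := Cfsg.Agent.S0752.result (Bf J) (Bf_alt hJ)
  have hk : k = 0 := by
    by_contra hk
    have hpos : 0 < k := Nat.pos_of_ne_zero hk
    have h1 := hrad ⟨0, hpos⟩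
    have h2 : b (Sum.inr ⟨0, hpos⟩) ≠ 0 := b.ne_zero _
    obtain ⟨v, hv⟩ := exists_pr_one hJ h2
    have h3 := h1 v
    rw [Bf_apply, pr_swap hJ, hv] at h3
    simp at h3
  have hc := Module.finrank_eq_card_basis b
  rw [Module.finrank_fintype_fun_eq_card] at hc
  rw [hc, hk]
  simp

end form

section transport

variable {ι : Type} [Fintype ι] [DecidableEq ι] {n₁ n₂ : ℕ}

lemma tensE_mulVec (e : ι ≃ Fin n₁ × Fin n₂) (P : GL ι F) (g : GL (Fin n₁ × Fin n₂) F)
    (x : Fin n₁ × Fin n₂ → F) :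
    ((tensE e P g : GL ι F) : Matrix ι ι F) *ᵥ ((P : Matrix ι ι F) *ᵥ (x ∘ e))
      = (P : Matrix ι ι F) *ᵥ (((g : Matrix (Fin n₁ × Fin n₂) (Fin n₁ × Fin n₂) F) *ᵥ x) ∘ e) := by
  rw [tensE_val, Matrix.mulVec_mulVec, Matrix.mul_assoc, ← Units.val_mul, inv_mul_cancel, Units.val_one,
    Matrix.mul_one, ← Matrix.mulVec_mulVec]
  congr 1
  rw [Matrix.reindex_apply, Matrix.submatrix_mulVec_equiv]
  simp [Function.comp_assoc]

/-- the transported quadratic form. -/
def Q0 (e : ι ≃ Fin n₁ × Fin n₂) (P : GL ι F) (Q : (ι → F) → F) : (Fin n₁ × Fin n₂ → F) → F :=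
  fun x => Q ((P : Matrix ι ι F) *ᵥ (x ∘ e))

lemma Q0_eq (e : ι ≃ Fin n₁ × Fin n₂) (P : GL ι F) (Q : (ι → F) → F) (x : Fin n₁ × Fin n₂ → F) :
    Q0 e P Q x = Q (Cfsg.Agent.Lib.Helper94.Tens.TT e P x) := by
  rw [Cfsg.Agent.Lib.Helper94.Tens.TT_apply]
  rfl

lemma polar_Q0 (e : ι ≃ Fin n₁ × Fin n₂) (P : GL ι F) (Q : (ι → F) → F) (x y : Fin n₁ × Fin n₂ → F) :
    polar (Q0 e P Q) x y
      = polar Q (Cfsg.Agent.Lib.Helper94.Tens.TT e P x) (Cfsg.Agent.Lib.Helper94.Tens.TT e P y) := by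
  unfold polar
  rw [Q0_eq, Q0_eq, Q0_eq, map_add]

lemma Q0_nondeg (e : ι ≃ Fin n₁ × Fin n₂) (P : GL ι F) {Q : (ι → F) → F}
    (hQ : Cfsg.Geo.IsNondegenerateQuadraticForm Q) : Cfsg.Geo.IsNondegenerateQuadraticForm (Q0 e P Q) where
  smul c v := by rw [Q0_eq, Q0_eq, map_smul, hQ.smul]
  polar_bilinear :=
    { add_left := fun x y v => by simp only [polar_Q0, map_add, hQ.polar_bilinear.add_left]
      smul_left := fun c x v => by simp only [polar_Q0, map_smul, hQ.polar_bilinear.smul_left]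
      add_right := fun v x y => by simp only [polar_Q0, map_add, hQ.polar_bilinear.add_right]
      smul_right := fun c v x => by simp only [polar_Q0, map_smul, hQ.polar_bilinear.smul_right] }
  nondegenerate := by
    intro v hv
    have hv' : Cfsg.Agent.Lib.Helper94.Tens.TT e P v ≠ 0 := by
      intro h0
      exact hv ((Cfsg.Agent.Lib.Helper94.Tens.TT e P).map_eq_zero_iff.1 h0)
    obtain ⟨⟨x, hx⟩, ⟨x', hx'⟩⟩ := hQ.nondegenerate _ hv'
    refine ⟨⟨(Cfsg.Agent.Lib.Helper94.Tens.TT e P).symm x, ?_⟩, ⟨(Cfsg.Agent.Lib.Helper94.Tens.TT e P).symm x', ?_⟩⟩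
    · rw [polar_Q0, LinearEquiv.apply_symm_apply]; exact hx
    · rw [polar_Q0, LinearEquiv.apply_symm_apply]; exact hx'

lemma mem_iso_iff (e : ι ≃ Fin n₁ × Fin n₂) (P : GL ι F) (Q : (ι → F) → F) (g : GL (Fin n₁ × Fin n₂) F) :
    tensE e P g ∈ Cfsg.isometryGroup F Q ↔ g ∈ Cfsg.isometryGroup F (Q0 e P Q) := by
  rw [mem_isometryGroup, mem_isometryGroup]
  constructor
  · intro h x
    have := h ((P : Matrix ι ι F) *ᵥ (x ∘ e))
    rw [tensE_mulVec] at this
    exact this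
  · intro h u
    obtain ⟨x, rfl⟩ := (Cfsg.Agent.Lib.Helper94.Tens.TT e P).surjective u
    rw [Cfsg.Agent.Lib.Helper94.Tens.TT_apply, tensE_mulVec]
    exact h x

lemma omegaGL_eq_comm {κ : Type} [Fintype κ] [DecidableEq κ] (Q : (κ → F) → F) :
    Cfsg.Geo.omegaGL Q = ⁅Cfsg.isometryGroup F Q, Cfsg.isometryGroup F Q⁆ := by
  unfold Cfsg.Geo.omegaGL Cfsg.Omega
  exact Subgroup.map_subtype_commutator _

lemma omegaGL_eq (e : ι ≃ Fin n₁ × Fin n₂) (P : GL ι F) (Q : (ι → F) → F) :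
    Cfsg.Geo.omegaGL Q = (Cfsg.Geo.omegaGL (Q0 e P Q)).comap (tensE e P).symm.toMonoidHom := by
  have hI : Cfsg.isometryGroup F Q = (Cfsg.isometryGroup F (Q0 e P Q)).map (tensE e P).toMonoidHom := by
    ext g
    constructor
    · intro hg
      refine ⟨(tensE e P).symm g, ?_, MulEquiv.apply_symm_apply _ _⟩
      rw [SetLike.mem_coe, ← mem_iso_iff, MulEquiv.apply_symm_apply]
      exact hg
    · rintro ⟨g', hg', rfl⟩
      exact (mem_iso_iff e P Q g').2 hg'
  rw [omegaGL_eq_comm, omegaGL_eq_comm, hI, ← Subgroup.map_commutator]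
  exact Subgroup.map_equiv_eq_comap_symm (tensE e P) _

lemma OmG_eq {A B : Type} [Fintype A] [DecidableEq A] [Fintype B] [DecidableEq B]
    (Q : QuadraticForm F (A × B → F)) : OmG Q = Cfsg.Geo.omegaGL ⇑Q := by
  ext g
  rw [mem_omegaGL_iff]
  rfl

end transport

end Cfsg.Agent.Lib.Helper99.TSp
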