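import Mathlib
import Cfsg.Agent.Lib.Helper94.Symp

set_option autoImplicit false

namespace Cfsg.Agent.Lib.Helper99

open LinearMap (BilinForm)
open Module
open Cfsg.Agent.Lib.Helper94

variable {F V : Type*} [Field F] [AddCommGroup V] [Module F V]

/-- A quadratic form `Q` with nondegenerate polar form `B` over a field of odd characteristic in which
binary diagonal forms are universal (e.g. a finite field), in dimension at least 13. -/
structure OSetup (B : BilinForm F V) (Q : V → F) : Prop where
  nondeg : B.Nondegenerate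
  smul : ∀ (c : F) (v : V), Q (c • v) = c ^ 2 * Q v
  add : ∀ u v : V, Q (u + v) = Q u + Q v + B u v
  two : (2 : F) ≠ 0
  rep : ∀ a b c : F, a ≠ 0 → b ≠ 0 → ∃ x y : F, a * x ^ 2 + b * y ^ 2 = c
  dim : 13 ≤ finrank F V

variable {B : BilinForm F V} {Q : V → F}

namespace OSetup

lemma symm (h : OSetup B Q) (x y : V) : B x y = B y x := by
  have h1 := h.add x y
  have h2 := h.add y x
  rw [add_comm y x] at h2
  linear_combination h2 - h1

lemma zero (h : OSetup B Q) : Q 0 = 0 := by
  have := h.smul 0 0
  simpa using this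

lemma self (h : OSetup B Q) (x : V) : B x x = 2 * Q x := by
  have h1 := h.add x x
  have h2 := h.smul 2 x
  rw [two_smul] at h2
  linear_combination h2 - h1

lemma neg (h : OSetup B Q) (x : V) : Q (-x) = Q x := by
  have := h.smul (-1) x
  simpa using this

lemma sub (h : OSetup B Q) (x y : V) : Q (x - y) = Q x + Q y - B x y := by
  rw [sub_eq_add_neg, h.add, h.neg, map_neg]
  ring

lemma exists_ne [FiniteDimensional F V] (h : OSetup B Q) (S : Submodule F V)
    (hS : finrank F V < 2 * finrank F S) : ∃ z ∈ S, Q z ≠ 0 := by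
  by_contra hcon
  push Not at hcon
  have hle : S ≤ B.orthogonal S := by
    intro x hx
    rw [LinearMap.BilinForm.mem_orthogonal_iff]
    intro y hy
    change B y x = 0
    have h1 := h.add y x
    rw [hcon _ (S.add_mem hy hx), hcon _ hx, hcon _ hy] at h1
    simpa using h1.symm
  have h1 := Submodule.finrank_mono hle
  rw [LinearMap.BilinForm.finrank_orthogonal h.nondeg] at h1
  omega

lemma exists_perp_ne [FiniteDimensional F V] (h : OSetup B Q) (s : Finset V) (hs : s.card ≤ 6) :
    ∃ z, (∀ x ∈ s, B z x = 0) ∧ Q z ≠ 0 := by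
  set W : Submodule F V := Submodule.span F (s : Set V) with hW
  have hWd : finrank F W ≤ 6 := (finrank_span_finset_le_card _).trans hs
  have hSd := LinearMap.BilinForm.finrank_orthogonal h.nondeg W
  have hdim := h.dim
  obtain ⟨z, hz, hQz⟩ := h.exists_ne (B.orthogonal W) (by omega)
  rw [LinearMap.BilinForm.mem_orthogonal_iff] at hz
  refine ⟨z, fun x hx => ?_, hQz⟩
  rw [h.symm]
  exact hz x (Submodule.subset_span hx)

/-- the basic existence lemma: a vector of prescribed norm orthogonal to at most five given vectors -/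
lemma exists_perp [FiniteDimensional F V] (h : OSetup B Q) (s : Finset V) (hs : s.card ≤ 5) (γ : F) :
    ∃ z, (∀ x ∈ s, B z x = 0) ∧ Q z = γ := by
  classical
  obtain ⟨z₁, hz₁, hQ₁⟩ := h.exists_perp_ne s (by omega)
  obtain ⟨z₂, hz₂, hQ₂⟩ := h.exists_perp_ne (insert z₁ s)
    ((Finset.card_insert_le _ _).trans (by omega))
  obtain ⟨x, y, hxy⟩ := h.rep _ _ γ hQ₁ hQ₂
  refine ⟨x • z₁ + y • z₂, fun w hw => ?_, ?_⟩
  · simp [hz₁ w hw, hz₂ w (Finset.mem_insert_of_mem hw)]
  · have h12 : B z₁ z₂ = 0 := by rw [h.symm]; exact hz₂ z₁ (Finset.mem_insert_self _ _)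
    rw [h.add, h.smul, h.smul]
    simp only [map_smul, LinearMap.smul_apply, smul_eq_mul, h12]
    linear_combination hxy

lemma exists_pair_ne (h : OSetup B Q) {w : V} (hw : w ≠ 0) : ∃ y, B y w ≠ 0 := by
  by_contra hcon
  push Not at hcon
  exact hw (h.nondeg.2 w hcon)

/-- the reflection in a nonsingular vector -/
noncomputable def rf (h : OSetup B Q) (e : V) (he : Q e ≠ 0) : V ≃ₗ[F] V :=
  Module.reflection (f := (Q e)⁻¹ • B.flip e) (x := e) (by
    simp only [LinearMap.smul_apply, LinearMap.BilinForm.flip_apply, smul_eq_mul, h.self]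
    field_simp)

lemma rf_apply (h : OSetup B Q) (e : V) (he : Q e ≠ 0) (x : V) :
    h.rf e he x = x - (B x e / Q e) • e := by
  simp only [rf, Module.reflection_apply, LinearMap.smul_apply, LinearMap.BilinForm.flip_apply, smul_eq_mul]
  congr 2
  field_simp

lemma Q_rf (h : OSetup B Q) (e : V) (he : Q e ≠ 0) (x : V) : Q (h.rf e he x) = Q x := by
  rw [rf_apply, h.sub, h.smul, map_smul, smul_eq_mul]
  field_simp
  ring

lemma det_rf [FiniteDimensional F V] (h : OSetup B Q) (e : V) (he : Q e ≠ 0) :
    LinearMap.det ((h.rf e he : V ≃ₗ[F] V) : V →ₗ[F] V) = -1 := by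
  have : ((h.rf e he : V ≃ₗ[F] V) : V →ₗ[F] V) = LinearMap.transvection (-((Q e)⁻¹ • B.flip e)) e := by
    ext x
    simp only [LinearEquiv.coe_coe, rf_apply, LinearMap.transvection.apply, LinearMap.neg_apply,
      LinearMap.smul_apply, LinearMap.BilinForm.flip_apply, smul_eq_mul, neg_smul, sub_eq_add_neg]
    congr 3
    field_simp
  rw [this, LinearMap.transvection.det]
  simp only [LinearMap.neg_apply, LinearMap.smul_apply, LinearMap.BilinForm.flip_apply, smul_eq_mul, h.self]
  field_simp
  ring

/-- moving `x` to `y` by a reflection -/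
lemma rf_sub_apply (h : OSetup B Q) (x y : V) (hxy : Q x = Q y) (he : Q (x - y) ≠ 0) :
    h.rf (x - y) he x = y := by
  rw [rf_apply]
  have h1 : B x (x - y) = Q (x - y) := by
    rw [h.sub, map_sub, h.self, ← hxy]; ring
  rw [h1, div_self he, one_smul]
  abel

lemma rf_fix (h : OSetup B Q) (e : V) (he : Q e ≠ 0) (u : V) (hu : B u e = 0) : h.rf e he u = u := by
  rw [rf_apply, hu]; simp

end OSetup

end Cfsg.Agent.Lib.Helper99
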