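import Mathlib
import Cfsg.Agent.Lib.Helper13.OrthBasic

set_option autoImplicit false
set_option linter.unusedSimpArgs false
set_option linter.unusedVariables false

namespace Cfsg.Agent.Lib.Helper99

open QuadraticMap Module
open Cfsg.Agent.Lib.Helper44 Cfsg.Agent.Lib.Helper13.O

variable {F V : Type*} [Field F] [AddCommGroup V] [Module F V]

/-- hyperbolic pairs orthogonal to a finite set, with a better bound -/
lemma exists_hyp' [Finite F] [FiniteDimensional F V] {Q : QuadraticForm F V}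
    (hQ : (polarBilin Q).Nondegenerate) (s : Finset V) (hs : 2 * (s.card + 2) < finrank F V) :
    ∃ e f, e ∈ orth Q s ∧ f ∈ orth Q s ∧ Q e = 0 ∧ Q f = 0 ∧ polar Q e f = 1 := by
  classical
  obtain ⟨e, he, b, hb, hQe, heb⟩ : ∃ e ∈ orth Q s, ∃ b ∈ orth Q s, Q e = 0 ∧ polar Q e b ≠ 0 := by
    by_cases h2 : (2 : F) = 0
    · obtain ⟨a, ha, b, hb, hab⟩ := exists_pair_ne hQ s (by omega)
      by_cases hQa : Q a = 0
      · exact ⟨a, ha, b, hb, hQa, hab⟩
      · have hc1 : (insert a (insert b s)).card ≤ s.card + 2 := by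
          have h1 := Finset.card_insert_le a (insert b s)
          have h2 := Finset.card_insert_le b s
          omega
        obtain ⟨a', ha', hQa'⟩ := exists_ns hQ (insert a (insert b s)) (by omega)
        rw [mem_orth] at ha'
        obtain ⟨x, y, hxy⟩ := rep (Q a') (Q a') (-Q a) hQa' hQa'
        have h1 : polar Q a a' = 0 := ha' a (by simp)
        have h3 : polar Q b a' = 0 := ha' b (by simp)
        refine ⟨a + (x + y) • a', Submodule.add_mem _ ha (Submodule.smul_mem _ _ ?_), b, hb, ?_, ?_⟩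
        · rw [mem_orth]; intro z hz; exact ha' z (by simp [hz])
        · rw [Q_add_smul, h1]
          linear_combination hxy + x * y * Q a' * h2
        · rw [polar_add_left, polar_smul_left, polar_comm Q a' b, h3]
          simpa using hab
    · obtain ⟨a, ha, hQa⟩ := exists_ns hQ s (by omega)
      have hc1 : (insert a s).card ≤ s.card + 1 := Finset.card_insert_le a s
      obtain ⟨a', ha', hQa'⟩ := exists_ns hQ (insert a s) (by omega)
      have hc2 : (insert a' (insert a s)).card ≤ s.card + 2 := by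
        have h1 := Finset.card_insert_le a' (insert a s)
        omega
      obtain ⟨a'', ha'', hQa''⟩ := exists_ns hQ (insert a' (insert a s)) (by omega)
      rw [mem_orth] at ha' ha''
      obtain ⟨x, y, hxy⟩ := rep (Q a') (Q a'') (-Q a) hQa' hQa''
      have h1 : polar Q a a' = 0 := ha' a (by simp)
      have h3 : polar Q a a'' = 0 := ha'' a (by simp)
      have h5 : polar Q a' a'' = 0 := ha'' a' (by simp)
      refine ⟨a + x • a' + y • a'', ?_, a, ha, ?_, ?_⟩
      · refine Submodule.add_mem _ (Submodule.add_mem _ ha (Submodule.smul_mem _ _ ?_))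
          (Submodule.smul_mem _ _ ?_)
        · rw [mem_orth]; intro z hz; exact ha' z (by simp [hz])
        · rw [mem_orth]; intro z hz; exact ha'' z (by simp [hz])
      · rw [Q_add_smul, Q_add_smul, polar_add_left, polar_smul_left, h1, h3, h5]
        simp only [smul_eq_mul]
        linear_combination hxy
      · rw [polar_add_left, polar_add_left, polar_smul_left, polar_smul_left, polar_comm Q a' a,
          polar_comm Q a'' a, h1, h3, polar_self]
        simp only [smul_eq_mul, mul_zero, add_zero, nsmul_eq_mul]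
        exact mul_ne_zero (by exact_mod_cast h2) hQa
  set c := polar Q e b with hc
  have hee : polar Q e e = 0 := by rw [polar_self, hQe]; simp
  refine ⟨e, c⁻¹ • b + (-Q (c⁻¹ • b)) • e, he,
    Submodule.add_mem _ (Submodule.smul_mem _ _ hb) (Submodule.smul_mem _ _ he), hQe, ?_, ?_⟩
  · rw [Q_add_smul, hQe, polar_smul_left, polar_comm Q b e, ← hc, smul_eq_mul, inv_mul_cancel₀ heb]
    ring
  · rw [polar_add_right, polar_smul_right, polar_smul_right, hee, ← hc, smul_eq_mul,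
      inv_mul_cancel₀ heb]
    simp

/-- the data of a quadratic extension field `F[θ]`, `θ² = tθ - n₀`, acting on a quadratic space so that
the adjoint of `θ` is its conjugate `t - θ` -/
structure TSetup (Q : QuadraticForm F V) (θ : V →ₗ[F] V) (t n₀ : F) : Prop where
  nondeg : (polarBilin Q).Nondegenerate
  sq : ∀ x, θ (θ x) = t • θ x - n₀ • x
  adj : ∀ x y, polar Q (θ x) y = t * polar Q x y - polar Q x (θ y)
  Qθ : ∀ x, Q (θ x) = n₀ * Q x
  self : ∀ x, polar Q x (θ x) = t * Q x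
  aniso : ∀ X Y : F, X ^ 2 - t * X * Y + n₀ * Y ^ 2 = 0 → X = 0 ∧ Y = 0
  dim : 14 ≤ finrank F V

variable {Q : QuadraticForm F V} {θ : V →ₗ[F] V} {t n₀ : F}

/-- the `F[θ]`-line through `z` -/
def KL (θ : V →ₗ[F] V) (z : V) : Submodule F V := Submodule.span F {z, θ z}

lemma mem_KL {z w : V} : w ∈ KL θ z ↔ ∃ a b : F, a • z + b • θ z = w := by
  unfold KL
  rw [Submodule.mem_span_pair]

namespace TSetup

lemma n_ne (h : TSetup Q θ t n₀) : n₀ ≠ 0 := by
  rintro rfl
  have := (h.aniso 0 1 (by ring)).2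
  exact one_ne_zero this

lemma adjR (h : TSetup Q θ t n₀) (x y : V) : polar Q x (θ y) = t * polar Q x y - polar Q (θ x) y := by
  rw [h.adj]; ring

lemma pθθ (h : TSetup Q θ t n₀) (x y : V) : polar Q (θ x) (θ y) = n₀ * polar Q x y := by
  rw [h.adj, h.sq, polar_sub_right, polar_smul_right, polar_smul_right]
  simp only [smul_eq_mul]
  ring

lemma self' (h : TSetup Q θ t n₀) (x : V) : polar Q (θ x) x = t * Q x := by
  rw [polar_comm, h.self]

lemma Q_comb (h : TSetup Q θ t n₀) (a b : F) (x : V) :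
    Q (a • x + b • θ x) = (a ^ 2 + t * a * b + n₀ * b ^ 2) * Q x := by
  rw [Q_add_smul, QuadraticMap.map_smul, polar_smul_left, h.self, h.Qθ]
  simp only [smul_eq_mul]
  ring

lemma nrm_ne (h : TSetup Q θ t n₀) {a b : F} (hab : a ≠ 0 ∨ b ≠ 0) : a ^ 2 + t * a * b + n₀ * b ^ 2 ≠ 0 := by
  intro h0
  have := h.aniso a (-b) (by linear_combination h0)
  rcases hab with h1 | h1
  · exact h1 this.1
  · exact h1 (neg_eq_zero.1 this.2)

lemma KL_theta (h : TSetup Q θ t n₀) {z w : V} (hw : w ∈ KL θ z) : θ w ∈ KL θ z := by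
  rw [mem_KL] at hw ⊢
  obtain ⟨a, b, rfl⟩ := hw
  refine ⟨-(b * n₀), a + b * t, ?_⟩
  rw [map_add, map_smul, map_smul, h.sq]
  module

lemma self_mem_KL (z : V) : z ∈ KL θ z := Submodule.subset_span (by simp)

lemma KL_le (h : TSetup Q θ t n₀) {z w : V} (hw : w ∈ KL θ z) : KL θ w ≤ KL θ z := by
  unfold KL
  rw [Submodule.span_le]
  rintro x (rfl | rfl)
  · exact hw
  · exact h.KL_theta hw

lemma KL_symm (h : TSetup Q θ t n₀) {z w : V} (hw : w ∈ KL θ z) (hw0 : w ≠ 0) : z ∈ KL θ w := by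
  rw [mem_KL] at hw ⊢
  obtain ⟨a, b, rfl⟩ := hw
  have hab : a ≠ 0 ∨ b ≠ 0 := by
    by_contra hcon
    push Not at hcon
    apply hw0
    rw [hcon.1, hcon.2]; simp
  have hN := h.nrm_ne hab
  refine ⟨(a + b * t) / (a ^ 2 + t * a * b + n₀ * b ^ 2), - b / (a ^ 2 + t * a * b + n₀ * b ^ 2), ?_⟩
  rw [map_add, map_smul, map_smul, h.sq]
  have : z = ((a ^ 2 + t * a * b + n₀ * b ^ 2) / (a ^ 2 + t * a * b + n₀ * b ^ 2)) • z := by
    rw [div_self hN, one_smul]
  conv_rhs => rw [this]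
  set N := a ^ 2 + t * a * b + n₀ * b ^ 2 with hNdef
  have e1 : ((a + b * t) / N) • (a • z + b • θ z) + (-b / N) • (a • θ z + b • (t • θ z - n₀ • z))
      = N⁻¹ • ((a ^ 2 + t * a * b + n₀ * b ^ 2) • z) := by
    module
  rw [e1, ← hNdef, smul_smul, div_self hN, inv_mul_cancel₀ hN]

lemma theta_ne (h : TSetup Q θ t n₀) {z : V} (hz : z ≠ 0) (a b : F) (hab : a • z + b • θ z = 0) :
    a = 0 ∧ b = 0 := by
  by_contra hcon
  have hab' : a ≠ 0 ∨ b ≠ 0 := by
    by_contra h3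
    push Not at h3
    exact hcon h3
  have hN := h.nrm_ne hab'
  have e1 : (a ^ 2 + t * a * b + n₀ * b ^ 2) • z = (a + b * t) • (a • z + b • θ z) - b • θ (a • z + b • θ z) := by
    rw [map_add, map_smul, map_smul, h.sq]
    module
  rw [hab, map_zero, smul_zero, smul_zero, sub_zero] at e1
  rcases smul_eq_zero.1 e1 with h3 | h3
  · exact hN h3
  · exact hz h3

/-- a vector with a partner orthogonal to the line of `e` is not on that line -/
lemma not_mem_KL_of (h : TSetup Q θ t n₀) {e z f : V} (h1 : polar Q e f = 0) (h2 : polar Q (θ e) f = 0)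
    (h3 : polar Q z f ≠ 0) : z ∉ KL θ e := by
  intro hz
  rw [mem_KL] at hz
  obtain ⟨a, b, rfl⟩ := hz
  apply h3
  rw [polar_add_left, polar_smul_left, polar_smul_left, h1, h2]
  simp

lemma kill_step (h : TSetup Q θ t n₀) {ψ : V →ₗ[F] V} (hψ : ∀ z, Q z = 0 → ψ z ∈ KL θ z) {e z : V}
    (he : Q e = 0) (hz : Q z = 0) (hez : polar Q e z = 0) (hψe : ψ e = 0) (hnot : e ∉ KL θ z) :
    ψ z = 0 := by
  by_contra hw0
  have h1 : ψ z ∈ KL θ z := hψ z hz
  have h2 : ψ z ∈ KL θ (z + e) := by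
    have := hψ (z + e) (by rw [QuadraticMap.map_add (⇑Q), hz, he, polar_comm, hez]; simp)
    rwa [map_add, hψe, add_zero] at this
  have h3 : z + e ∈ KL θ (ψ z) := h.KL_symm h2 hw0
  have h4 : z + e ∈ KL θ z := h.KL_le h1 h3
  apply hnot
  have := Submodule.sub_mem _ h4 (self_mem_KL (θ := θ) z)
  rwa [add_sub_cancel_left] at this

/-- a linear map stabilising all singular `F[θ]`-lines lies in `F[θ]` -/
lemma exists_scalar [Finite F] [FiniteDimensional F V] (h : TSetup Q θ t n₀) (ψ : V →ₗ[F] V)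
    (hψ : ∀ z, Q z = 0 → ψ z ∈ KL θ z) : ∃ a b : F, ∀ x, ψ x = a • x + b • θ x := by
  classical
  have hdim := h.dim
  obtain ⟨e, f, -, -, he, hf, hef⟩ := exists_hyp' h.nondeg ∅ (by simp; omega)
  have he0 : e ≠ 0 := by
    rintro rfl
    simp at hef
  obtain ⟨a, b, hab⟩ := mem_KL.1 (hψ e he)
  refine ⟨a, b, ?_⟩
  set ψ' : V →ₗ[F] V := ψ - a • LinearMap.id - b • θ with hψ'
  have hψ'a : ∀ x, ψ' x = ψ x - a • x - b • θ x := by
    intro x
    simp [hψ']
  have hψ'K : ∀ z, Q z = 0 → ψ' z ∈ KL θ z := by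
    intro z hz
    rw [hψ'a]
    refine Submodule.sub_mem _ (Submodule.sub_mem _ (hψ z hz) (Submodule.smul_mem _ _ (self_mem_KL z)))
      (Submodule.smul_mem _ _ (h.KL_theta (self_mem_KL z)))
  have hψ'e : ψ' e = 0 := by rw [hψ'a, ← hab]; abel
  have hsing : ∀ z, Q z = 0 → ψ' z = 0 := by
    intro z hz
    have hc : ({e, θ e, z, θ z} : Finset V).card ≤ 4 := Finset.card_le_four
    obtain ⟨z', f', hz', hf', hQz', hQf', hzf'⟩ := exists_hyp' h.nondeg {e, θ e, z, θ z} (by omega)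
    rw [mem_orth] at hz' hf'
    have hz'0 : z' ≠ 0 := by
      rintro rfl
      simp at hzf'
    have h1 : z' ∉ KL θ e := h.not_mem_KL_of (hf' e (by simp)) (hf' (θ e) (by simp)) (by rw [hzf']; exact one_ne_zero)
    have h2 : z' ∉ KL θ z := h.not_mem_KL_of (hf' z (by simp)) (hf' (θ z) (by simp)) (by rw [hzf']; exact one_ne_zero)
    have h3 : ψ' z' = 0 := h.kill_step hψ'K he hQz' (hz' e (by simp)) hψ'e (fun hc => h1 (h.KL_symm hc he0))
    exact h.kill_step hψ'K hQz' hz (by rw [polar_comm]; exact hz' z (by simp)) h3 h2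
  intro x
  have hc : ({x} : Finset V).card ≤ 1 := by simp
  obtain ⟨e', f', he', hf', hQe', hQf', hef'⟩ := exists_hyp' h.nondeg {x} (by omega)
  rw [mem_orth] at he' hf'
  have hxe : polar Q x e' = 0 := he' x (by simp)
  have hxf : polar Q x f' = 0 := hf' x (by simp)
  have h1 : Q (x + e' + (-Q x) • f') = 0 := by
    rw [Q_add_smul, QuadraticMap.map_add (⇑Q), hQe', hQf', hxe, polar_add_left, hxf, hef']
    ring
  have h2 := hsing _ h1
  rw [map_add, map_add, map_smul, hsing e' hQe', hsing f' hQf', smul_zero, add_zero, add_zero, hψ'a] at h2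
  have : ψ x = (ψ x - a • x - b • θ x) + (a • x + b • θ x) := by abel
  rw [this, h2, zero_add]

end TSetup

/-- `φ` normalises `F[θ]` -/
def StabK (θ : V →ₗ[F] V) (φ : V ≃ₗ[F] V) : Prop :=
  ∃ a b : F, ∀ x, φ (θ x) = a • φ x + b • θ (φ x)

/-- `G` contains the elements of `Ω` commuting with `θ` -/
def HGK (Q : QuadraticForm F V) (θ : V →ₗ[F] V) (G : Subgroup (V ≃ₗ[F] V)) : Prop :=
  ∀ φ ∈ Om Q, (∀ x, φ (θ x) = θ (φ x)) → φ ∈ G

/-- the rotation `r_y r_{θ y}` -/
def rot (Q : QuadraticForm F V) (θ : V →ₗ[F] V) (y : V) : V ≃ₗ[F] V := refl Q y * refl Q (θ y)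

/-- the vectors `v` with `E(u,v) ∈ G` -/
def AA (Q : QuadraticForm F V) (G : Subgroup (V ≃ₗ[F] V)) (u : V) : Set V :=
  {v | ∃ (hu : Q u = 0) (h : polar Q u v = 0), eichler Q u v hu h ∈ G}

lemma eichler_congr {u u' v v' : V} (h1 : u = u') (h2 : v = v') (hu : Q u = 0) (huv : polar Q u v = 0)
    (hu' : Q u' = 0) (huv' : polar Q u' v' = 0) : eichler Q u v hu huv = eichler Q u' v' hu' huv' := by
  subst h1 h2; rfl

lemma AA_add {G : Subgroup (V ≃ₗ[F] V)} {u v v' : V} (hv : v ∈ AA Q G u) (hv' : v' ∈ AA Q G u) :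
    v + v' ∈ AA Q G u := by
  obtain ⟨hu, h1, h2⟩ := hv
  obtain ⟨hu', h3, h4⟩ := hv'
  refine ⟨hu, by rw [polar_add_right, h1, h3, add_zero], ?_⟩
  rw [← eichler_mul Q u v v' hu h1 h3]
  exact G.mul_mem h2 h4

lemma AA_neg {G : Subgroup (V ≃ₗ[F] V)} {u v : V} (hv : v ∈ AA Q G u) : -v ∈ AA Q G u := by
  obtain ⟨hu, h1, h2⟩ := hv
  have h3 : polar Q u (-v) = 0 := by rw [polar_neg_right, h1, neg_zero]
  refine ⟨hu, h3, ?_⟩
  have e : eichler Q u (-v) hu h3 = (eichler Q u v hu h1)⁻¹ := by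
    rw [eq_inv_iff_mul_eq_one, eichler_mul]
    ext x
    simp [eichler_apply]
  rw [e]
  exact G.inv_mem h2

lemma AA_sub {G : Subgroup (V ≃ₗ[F] V)} {u v v' : V} (hv : v ∈ AA Q G u) (hv' : v' ∈ AA Q G u) :
    v - v' ∈ AA Q G u := by
  rw [sub_eq_add_neg]
  exact AA_add hv (AA_neg hv')

lemma AA_map {G : Subgroup (V ≃ₗ[F] V)} {u v : V} (hv : v ∈ AA Q G u) {g : V ≃ₗ[F] V} (hg : g ∈ G)
    (hgO : g ∈ OQ Q) (hgu : g u = u) : g v ∈ AA Q G u := by
  obtain ⟨hu, h1, h2⟩ := hv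
  have h3 : polar Q u (g v) = 0 := by
    have := OQ_polar hgO u v
    rw [hgu] at this
    rw [this, h1]
  refine ⟨hu, h3, ?_⟩
  have e := conj_eichler hgO u v hu h1
  rw [eichler_congr hgu rfl _ _ hu h3] at e
  rw [← e]
  exact G.mul_mem (G.mul_mem hg h2) (G.inv_mem hg)

namespace TSetup

lemma exists_moved [Finite F] [FiniteDimensional F V] (h : TSetup Q θ t n₀) {g : V ≃ₗ[F] V}
    (hg : g ∈ OQ Q) (hns : ¬ StabK θ g) : ∃ u, Q u = 0 ∧ g (θ u) ∉ KL θ (g u) := by
  by_contra hcon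
  push Not at hcon
  apply hns
  obtain ⟨a, b, hab⟩ := h.exists_scalar (g.toLinearMap ∘ₗ θ ∘ₗ (g⁻¹ : V ≃ₗ[F] V).toLinearMap) (by
    intro z hz
    have h1 : Q (g⁻¹ z) = 0 := by rw [mem_OQ.1 ((OQ Q).inv_mem hg)]; exact hz
    have := hcon (g⁻¹ z) h1
    rw [OQ_inv_apply] at this
    exact this)
  refine ⟨a, b, fun x => ?_⟩
  have := hab (g x)
  simp only [LinearMap.comp_apply, LinearEquiv.coe_coe] at this
  rw [← this]
  congr 2
  rw [← LinearEquiv.mul_apply, inv_mul_cancel]; rfl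

lemma rot_apply (h : TSetup Q θ t n₀) {y : V} (hy : Q y ≠ 0) (x : V) :
    rot Q θ y x = x - ((Q y)⁻¹ * polar Q y x - t * (n₀ * Q y)⁻¹ * polar Q (θ y) x) • y
      - ((n₀ * Q y)⁻¹ * polar Q (θ y) x) • θ y := by
  unfold rot
  rw [LinearEquiv.mul_apply, refl_apply, refl_apply, h.Qθ, polar_sub_right, polar_smul_right, h.self]
  have h1 : (Q y)⁻¹ * Q y = 1 := inv_mul_cancel₀ hy
  simp only [smul_eq_mul]
  have e : (Q y)⁻¹ * (polar Q y x - (n₀ * Q y)⁻¹ * polar Q (θ y) x * (t * Q y))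
      = (Q y)⁻¹ * polar Q y x - t * (n₀ * Q y)⁻¹ * polar Q (θ y) x := by
    linear_combination (- (n₀ * Q y)⁻¹ * polar Q (θ y) x * t) * h1
  rw [e]
  module

lemma rot_comm (h : TSetup Q θ t n₀) {y : V} (hy : Q y ≠ 0) (x : V) :
    rot Q θ y (θ x) = θ (rot Q θ y x) := by
  rw [h.rot_apply hy, h.rot_apply hy, map_sub, map_sub, map_smul, map_smul, h.sq, h.pθθ, h.adjR y x]
  have hn := h.n_ne
  have h1 : (n₀ * Q y)⁻¹ * n₀ = (Q y)⁻¹ := by field_simp
  have e1 : (Q y)⁻¹ * (t * polar Q y x - polar Q (θ y) x) - t * (n₀ * Q y)⁻¹ * (n₀ * polar Q y x)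
      = - ((Q y)⁻¹ * polar Q (θ y) x) := by
    linear_combination (- t * polar Q y x) * h1
  have e2 : (n₀ * Q y)⁻¹ * (n₀ * polar Q y x) = (Q y)⁻¹ * polar Q y x := by
    linear_combination (polar Q y x) * h1
  rw [e1, e2]
  have e3 : ((n₀ * Q y)⁻¹ * polar Q (θ y) x) • (t • θ y - n₀ • y)
      = (t * (n₀ * Q y)⁻¹ * polar Q (θ y) x) • θ y - ((Q y)⁻¹ * polar Q (θ y) x) • y := by
    rw [← h1]; module
  rw [e3]
  module

lemma rot_fix (h : TSetup Q θ t n₀) {y : V} (hy : Q y ≠ 0) {x : V} (h1 : polar Q y x = 0)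
    (h2 : polar Q (θ y) x = 0) : rot Q θ y x = x := by
  rw [h.rot_apply hy, h1, h2]; simp

lemma rot_mem_OQ (y : V) : rot Q θ y ∈ OQ Q := (OQ Q).mul_mem (refl_mem Q y) (refl_mem Q (θ y))

lemma rot2_mem_Om [Fintype F] [FiniteDimensional F V] (h : TSetup Q θ t n₀) {y y' : V} (hy : Q y ≠ 0)
    (hy' : Q y' ≠ 0) : rot Q θ y * rot Q θ y' ∈ Om Q := by
  have hn := h.n_ne
  have := prod_refl_mem_Om h.nondeg (by have := h.dim; omega) [y, θ y, y', θ y'] (by
    intro v hv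
    simp only [List.mem_cons, List.not_mem_nil, or_false] at hv
    rcases hv with rfl | rfl | rfl | rfl
    · exact hy
    · rw [h.Qθ]; exact mul_ne_zero hn hy
    · exact hy'
    · rw [h.Qθ]; exact mul_ne_zero hn hy') ⟨2, rfl⟩ (by
    simp only [List.map_cons, List.map_nil, List.prod_cons, List.prod_nil, mul_one, h.Qθ]
    exact ⟨n₀ * Q y * Q y', by ring⟩)
  simpa [rot, mul_assoc] using this

lemma rot2_mem [Fintype F] [FiniteDimensional F V] (h : TSetup Q θ t n₀) {G : Subgroup (V ≃ₗ[F] V)}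
    (hG : HGK Q θ G) {y y' : V} (hy : Q y ≠ 0) (hy' : Q y' ≠ 0) : rot Q θ y * rot Q θ y' ∈ G := by
  refine hG _ (h.rot2_mem_Om hy hy') (fun x => ?_)
  rw [LinearEquiv.mul_apply, LinearEquiv.mul_apply, h.rot_comm hy', h.rot_comm hy]

lemma rot_polar_ne (h : TSetup Q θ t n₀) {y x : V} (hy : Q y ≠ 0) (hx : Q x = 0)
    (hyx : polar Q y x ≠ 0) : polar Q (rot Q θ y x) x ≠ 0 := by
  have hn := h.n_ne
  have hxx : polar Q x x = 0 := by rw [polar_self, hx]; simp
  rw [h.rot_apply hy, polar_sub_left, polar_sub_left, polar_smul_left, polar_smul_left, hxx]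
  simp only [smul_eq_mul]
  have h1 : (n₀ * Q y)⁻¹ * n₀ = (Q y)⁻¹ := by field_simp
  have e : 0 - ((Q y)⁻¹ * polar Q y x - t * (n₀ * Q y)⁻¹ * polar Q (θ y) x) * polar Q y x
      - (n₀ * Q y)⁻¹ * polar Q (θ y) x * polar Q (θ y) x
      = - (n₀ * Q y)⁻¹ * ((polar Q (θ y) x) ^ 2 - t * polar Q (θ y) x * polar Q y x
          + n₀ * (polar Q y x) ^ 2) := by
    rw [← h1]; ring
  rw [e]
  refine mul_ne_zero (neg_ne_zero.2 (inv_ne_zero (mul_ne_zero hn hy))) ?_
  intro h0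
  exact hyx (h.aniso _ _ h0).2

lemma AA_K [Fintype F] [FiniteDimensional F V] (h : TSetup Q θ t n₀) {G : Subgroup (V ≃ₗ[F] V)}
    (hG : HGK Q θ G) {u : V} (hu : Q u = 0) (a c : F) : a • u + c • θ u ∈ AA Q G u := by
  have huu : polar Q u u = 0 := by rw [polar_self, hu]; simp
  have huθ : polar Q u (θ u) = 0 := by rw [h.self, hu]; simp
  have h1 : polar Q u (a • u + c • θ u) = 0 := by
    rw [polar_add_right, polar_smul_right, polar_smul_right, huu, huθ]; simp
  refine ⟨hu, h1, hG _ (eichler_mem_Om h.nondeg (by have := h.dim; omega) _ _ _ _) (fun x => ?_)⟩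
  rw [eichler_apply, eichler_apply, h.Q_comb, hu]
  simp only [polar_add_left, polar_smul_left, map_add, map_sub, map_smul, h.sq, h.pθθ, h.adjR u x,
    smul_eq_mul, mul_zero, zero_mul, zero_smul, sub_zero]
  module

lemma exists_top [Fintype F] [FiniteDimensional F V] (h : TSetup Q θ t n₀) {G : Subgroup (V ≃ₗ[F] V)}
    (hG : HGK Q θ G) {g : V ≃ₗ[F] V} (hg : g ∈ G) (hgO : g ∈ OQ Q) {u : V} (hu : Q u = 0)
    (hmv : g (θ u) ∉ KL θ (g u)) :
    ∃ w, polar Q w (θ u) ≠ 0 ∧ ∀ μ : F, μ • w ∈ AA Q G u := by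
  classical
  have hdim := h.dim
  set u₁ := g u with hu₁
  set v := g (θ u) with hv
  have hQv : Q v = 0 := by rw [hv, mem_OQ.1 hgO, h.Qθ, hu, mul_zero]
  obtain ⟨y₁, hy₁, hvy₁⟩ : ∃ y₁ ∈ orth Q {u₁, θ u₁}, polar Q y₁ v ≠ 0 := by
    by_contra hcon
    push Not at hcon
    apply hmv
    unfold KL
    rw [← LinearMap.BilinForm.orthogonal_orthogonal h.nondeg (polarBilin_isRefl Q)
      (Submodule.span F {u₁, θ u₁}), LinearMap.BilinForm.mem_orthogonal_iff]
    intro y hy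
    refine hcon y ?_
    unfold orth
    simpa using hy
  obtain ⟨y, hy, hQy, hvy⟩ : ∃ y ∈ orth Q {u₁, θ u₁}, Q y ≠ 0 ∧ polar Q y v ≠ 0 := by
    by_cases hq : Q y₁ = 0
    · have hc : ({u₁, θ u₁, v, y₁} : Finset V).card ≤ 4 := Finset.card_le_four
      obtain ⟨y₂, hy₂, hQy₂⟩ := exists_ns h.nondeg {u₁, θ u₁, v, y₁} (by omega)
      rw [mem_orth] at hy₂
      refine ⟨y₁ + y₂, Submodule.add_mem _ hy₁ ?_, ?_, ?_⟩
      · rw [mem_orth]
        intro z hz
        exact hy₂ z (by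
          simp only [Finset.mem_insert, Finset.mem_singleton] at hz ⊢
          tauto)
      · rw [QuadraticMap.map_add (⇑Q), hq, hy₂ y₁ (by simp)]
        simpa using hQy₂
      · rw [polar_add_left, polar_comm Q y₂ v, hy₂ v (by simp), add_zero]
        exact hvy₁
    · exact ⟨y₁, hy₁, hq, hvy₁⟩
  have hc : ({u₁, θ u₁, v, θ v} : Finset V).card ≤ 4 := Finset.card_le_four
  obtain ⟨y', hy', hQy'⟩ := exists_ns h.nondeg {u₁, θ u₁, v, θ v} (by omega)
  rw [mem_orth] at hy hy'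
  have a1 : polar Q y u₁ = 0 := by rw [polar_comm]; exact hy u₁ (by simp)
  have a2 : polar Q (θ y) u₁ = 0 := by
    rw [h.adj, a1, polar_comm, hy (θ u₁) (by simp)]; ring
  have a3 : polar Q y' u₁ = 0 := by rw [polar_comm]; exact hy' u₁ (by simp)
  have a4 : polar Q (θ y') u₁ = 0 := by
    rw [h.adj, a3, polar_comm, hy' (θ u₁) (by simp)]; ring
  have a5 : polar Q y' v = 0 := by rw [polar_comm]; exact hy' v (by simp)
  have a6 : polar Q (θ y') v = 0 := by
    rw [h.adj, a5, polar_comm, hy' (θ v) (by simp)]; ring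
  set D := rot Q θ y * rot Q θ y' with hD
  have hDG : D ∈ G := h.rot2_mem hG hQy hQy'
  have hDO : D ∈ OQ Q := (OQ Q).mul_mem (rot_mem_OQ y) (rot_mem_OQ y')
  have hDu : D u₁ = u₁ := by
    rw [hD, LinearEquiv.mul_apply, h.rot_fix hQy' a3 a4, h.rot_fix hQy a1 a2]
  have hDv : D v = rot Q θ y v := by
    rw [hD, LinearEquiv.mul_apply, h.rot_fix hQy' a5 a6]
  have hD'G : g⁻¹ * D * g ∈ G := G.mul_mem (G.mul_mem (G.inv_mem hg) hDG) hg
  have hD'O : g⁻¹ * D * g ∈ OQ Q := (OQ Q).mul_mem ((OQ Q).mul_mem ((OQ Q).inv_mem hgO) hDO) hgO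
  have hD'u : (g⁻¹ * D * g) u = u := by
    rw [LinearEquiv.mul_apply, LinearEquiv.mul_apply, ← hu₁, hDu, hu₁, ← LinearEquiv.mul_apply,
      inv_mul_cancel]
    rfl
  refine ⟨(g⁻¹ * D * g) (θ u), ?_, fun μ => ?_⟩
  · rw [LinearEquiv.mul_apply, LinearEquiv.mul_apply, ← hv, hDv, polar_comm, OQ_polar_inv hgO, ← hv,
      polar_comm]
    exact h.rot_polar_ne hQy hQv hvy
  · have := AA_map (h.AA_K hG hu 0 μ) hD'G hD'O hD'u
    rwa [zero_smul, zero_add, map_smul] at this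

lemma sb_apply (h : TSetup Q θ t n₀) {u b : V} (hu : Q u = 0) (h1 : polar Q u b = 0)
    (h2 : polar Q (θ u) b = 0) (hu' : Q (θ u) = 0) (h3 : polar Q u (-θ b) = 0) (x : V) :
    (eichler Q u (-θ b) hu h3 * eichler Q (θ u) b hu' h2) x
      = x + polar Q b x • θ u - polar Q (θ u) x • b - polar Q (θ b) x • u + polar Q u x • θ b
        + Q b • (polar Q (θ u) x • (t • u - θ u) - (n₀ * polar Q u x) • u) := by
  have huθ : polar Q u (θ u) = 0 := by rw [h.self, hu]; simp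
  have e1 : polar Q (θ b) (θ u) = 0 := by rw [h.pθθ, polar_comm, h1, mul_zero]
  have e2 : polar Q (θ b) b = t * Q b := h.self' b
  rw [LinearEquiv.mul_apply, eichler_apply, eichler_apply]
  simp only [polar_add_right, polar_sub_right, polar_smul_right, polar_neg_left, QuadraticMap.map_neg,
    h.Qθ, e1, e2, huθ, h1, smul_eq_mul, mul_zero, add_zero, sub_zero]
  module

lemma sb_comm (h : TSetup Q θ t n₀) {u b : V} (hu : Q u = 0) (h1 : polar Q u b = 0)
    (h2 : polar Q (θ u) b = 0) (hu' : Q (θ u) = 0) (h3 : polar Q u (-θ b) = 0) (x : V) :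
    (eichler Q u (-θ b) hu h3 * eichler Q (θ u) b hu' h2) (θ x)
      = θ ((eichler Q u (-θ b) hu h3 * eichler Q (θ u) b hu' h2) x) := by
  rw [h.sb_apply hu h1 h2 hu' h3, h.sb_apply hu h1 h2 hu' h3]
  simp only [map_add, map_sub, map_smul, h.sq, h.pθθ, h.adjR b x, h.adjR u x]
  module

lemma AA_perp [Fintype F] [FiniteDimensional F V] (h : TSetup Q θ t n₀) {G : Subgroup (V ≃ₗ[F] V)}
    (hG : HGK Q θ G) {u w : V} (hu : Q u = 0) (hw : polar Q w (θ u) ≠ 0) (hwA : w ∈ AA Q G u)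
    {b' : V} (h1' : polar Q u b' = 0) (h2' : polar Q (θ u) b' = 0) : b' ∈ AA Q G u := by
  have hdim := h.dim
  set β := polar Q w (θ u) with hβ
  set b : V := (-β⁻¹) • b' with hb
  have h1 : polar Q u b = 0 := by rw [hb, polar_smul_right, h1', smul_zero]
  have h2 : polar Q (θ u) b = 0 := by rw [hb, polar_smul_right, h2', smul_zero]
  have hu' : Q (θ u) = 0 := by rw [h.Qθ, hu, mul_zero]
  have h3 : polar Q u (-θ b) = 0 := by rw [polar_neg_right, h.adjR, h1, h2]; ring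
  have huu : polar Q u u = 0 := by rw [polar_self, hu]; simp
  have huθ : polar Q u (θ u) = 0 := by rw [h.self, hu]; simp
  have huw : polar Q u w = 0 := hwA.2.1
  set S := eichler Q u (-θ b) hu h3 * eichler Q (θ u) b hu' h2 with hS
  have hSOm : S ∈ Om Q := (Om Q).mul_mem (eichler_mem_Om h.nondeg (by omega) _ _ _ _)
    (eichler_mem_Om h.nondeg (by omega) _ _ _ _)
  have hSG : S ∈ G := hG S hSOm (h.sb_comm hu h1 h2 hu' h3)
  have hSu : S u = u := by
    rw [hS, h.sb_apply hu h1 h2 hu' h3, polar_comm Q b u, h1, polar_comm Q (θ u) u, huθ, huu, h.adj,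
      polar_comm Q b u, h1, polar_comm Q b (θ u), h2]
    simp
  have hSw := AA_sub (AA_map hwA hSG (Om_le_OQ Q hSOm) hSu) hwA
  rw [hS, h.sb_apply hu h1 h2 hu' h3, huw, polar_comm Q (θ u) w, ← hβ] at hSw
  have hK := h.AA_K hG hu (- polar Q (θ b) w + Q b * β * t) (polar Q b w - Q b * β)
  have := AA_sub hSw hK
  have e : w + polar Q b w • θ u - β • b - polar Q (θ b) w • u + (0 : F) • θ b
      + Q b • (β • (t • u - θ u) - (n₀ * 0) • u) - w
      - ((- polar Q (θ b) w + Q b * β * t) • u + (polar Q b w - Q b * β) • θ u) = b' := by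
    have : b' = - (β • b) := by
      rw [hb, smul_smul, mul_neg, mul_inv_cancel₀ hw]; simp
    rw [this]
    module
  rwa [e] at this

lemma mem_UU [Fintype F] [FiniteDimensional F V] (h : TSetup Q θ t n₀) {G : Subgroup (V ≃ₗ[F] V)}
    (hG : HGK Q θ G) {u w : V} (hu : Q u = 0) (hw : polar Q w (θ u) ≠ 0)
    (hwA : ∀ μ : F, μ • w ∈ AA Q G u) : u ∈ UU Q G := by
  refine ⟨hu, fun v hu' huv => ?_⟩
  have hw1 : w ∈ AA Q G u := by
    have := hwA 1
    rwa [one_smul] at this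
  have huw : polar Q u w = 0 := hw1.2.1
  set c := polar Q v (θ u) / polar Q w (θ u) with hc
  have hb := h.AA_perp hG hu hw hw1 (b' := v - c • w)
    (by rw [polar_sub_right, polar_smul_right, huv, huw]; simp)
    (by
      rw [polar_sub_right, polar_smul_right, polar_comm Q (θ u) v, polar_comm Q (θ u) w, hc, smul_eq_mul,
        div_mul_cancel₀ _ hw, sub_self])
  have := AA_add hb (hwA c)
  rw [sub_add_cancel] at this
  exact this.2.2

lemma exists_second [Fintype F] [FiniteDimensional F V] (h : TSetup Q θ t n₀)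
    {G : Subgroup (V ≃ₗ[F] V)} (hG : HGK Q θ G) {u : V} (hu0 : u ≠ 0) (hu : u ∈ UU Q G) :
    ∃ u' ∈ UU Q G, polar Q u u' ≠ 0 := by
  classical
  have hdim := h.dim
  obtain ⟨y₁, hy₁⟩ := polar_nondeg_exists h.nondeg hu0
  obtain ⟨y, hQy, hyu⟩ : ∃ y, Q y ≠ 0 ∧ polar Q y u ≠ 0 := by
    by_cases hq : Q y₁ = 0
    · have hc : ({u, y₁} : Finset V).card ≤ 2 := Finset.card_le_two
      obtain ⟨y₂, hy₂, hQy₂⟩ := exists_ns h.nondeg {u, y₁} (by omega)
      rw [mem_orth] at hy₂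
      refine ⟨y₁ + y₂, ?_, ?_⟩
      · rw [QuadraticMap.map_add (⇑Q), hq, hy₂ y₁ (by simp)]
        simpa using hQy₂
      · rw [polar_add_left, polar_comm Q y₂ u, hy₂ u (by simp), add_zero, hy₁]
        exact one_ne_zero
    · exact ⟨y₁, hq, by rw [hy₁]; exact one_ne_zero⟩
  have hc : ({u, θ u} : Finset V).card ≤ 2 := Finset.card_le_two
  obtain ⟨y', hy', hQy'⟩ := exists_ns h.nondeg {u, θ u} (by omega)
  rw [mem_orth] at hy'
  have a3 : polar Q y' u = 0 := by rw [polar_comm]; exact hy' u (by simp)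
  have a4 : polar Q (θ y') u = 0 := by
    rw [h.adj, a3, polar_comm, hy' (θ u) (by simp)]; ring
  have hD := h.rot2_mem hG hQy hQy'
  have hDO : rot Q θ y * rot Q θ y' ∈ OQ Q := (OQ Q).mul_mem (rot_mem_OQ y) (rot_mem_OQ y')
  refine ⟨_, UU_map hu hD hDO, ?_⟩
  rw [LinearEquiv.mul_apply, h.rot_fix hQy' a3 a4, polar_comm]
  exact h.rot_polar_ne hQy hu.1 hyu

/-- the maximality core -/
theorem core [Fintype F] [FiniteDimensional F V] (h : TSetup Q θ t n₀) (G : Subgroup (V ≃ₗ[F] V))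
    (hG : ∀ φ ∈ Om Q, StabK θ φ → φ ∈ G) (hGO : G ≤ Om Q) (φ0 : V ≃ₗ[F] V) (hφ0 : φ0 ∈ G)
    (hS : ¬ StabK θ φ0) : Om Q ≤ G := by
  have hHG : HGK Q θ G := fun φ hφ hc => hG φ hφ ⟨0, 1, fun x => by rw [hc]; simp⟩
  have hO : φ0 ∈ OQ Q := Om_le_OQ Q (hGO hφ0)
  obtain ⟨u, hu, hmv⟩ := h.exists_moved hO hS
  have hu0 : u ≠ 0 := by
    rintro rfl
    apply hmv
    simp
  obtain ⟨w, hw, hwA⟩ := h.exists_top hHG hφ0 hO hu hmv
  have hU := h.mem_UU hHG hu hw hwA
  obtain ⟨u', hU', huu'⟩ := h.exists_second hHG hu0 hU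
  exact Om_le_of_UU h.nondeg (by have := h.dim; omega) hU hU' huu'

/-- `Ω` does not normalise `F[θ]` -/
lemma exists_not_stab [Fintype F] [FiniteDimensional F V] (h : TSetup Q θ t n₀) :
    ∃ φ ∈ Om Q, ¬ StabK θ φ := by
  classical
  have hdim := h.dim
  obtain ⟨u, f, -, -, hu, hf, huf⟩ := exists_hyp' h.nondeg ∅ (by simp; omega)
  have hu0 : u ≠ 0 := by
    rintro rfl
    simp at huf
  have hc : ({u, θ u} : Finset V).card ≤ 2 := Finset.card_le_two
  obtain ⟨v, f', hv, hf', hQv, hQf', hvf'⟩ := exists_hyp' h.nondeg {u, θ u} (by omega)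
  rw [mem_orth] at hv hf'
  have hv0 : v ≠ 0 := by
    rintro rfl
    simp at hvf'
  have hvK : v ∉ KL θ u := h.not_mem_KL_of (hf' u (by simp)) (hf' (θ u) (by simp))
    (by rw [hvf']; exact one_ne_zero)
  have huv : polar Q u v = 0 := hv u (by simp)
  have hθuv : polar Q (θ u) v = 0 := hv (θ u) (by simp)
  have huu : polar Q u u = 0 := by rw [polar_self, hu]; simp
  have huθ : polar Q u (θ u) = 0 := by rw [h.self, hu]; simp
  refine ⟨eichler Q u v hu huv, eichler_mem_Om h.nondeg (by omega) _ _ _ _, ?_⟩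
  rintro ⟨a, b, hab⟩
  have e1 := hab u
  rw [eichler_apply, eichler_apply, huθ, huu, polar_comm Q v u, huv, polar_comm Q v (θ u), hθuv] at e1
  simp only [zero_smul, mul_zero, add_zero, sub_zero] at e1
  have e2 := h.theta_ne hu0 a (b - 1) (by
    have : a • u + (b - 1) • θ u = (a • u + b • θ u) - θ u := by module
    rw [this, ← e1, sub_self])
  have ha : a = 0 := e2.1
  have hb : b = 1 := by linear_combination e2.2
  have e3 := hab f
  rw [ha, hb, zero_smul, zero_add, one_smul, eichler_apply, eichler_apply, huf, hQv] at e3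
  simp only [map_add, map_sub, map_smul, zero_mul, zero_smul, sub_zero, one_smul] at e3
  -- `θ v - c v ∈ KL u`
  have e4 : (- polar Q u (θ f)) • v + (1 : F) • θ v = (- polar Q v (θ f)) • u + polar Q v f • θ u := by
    have : (- polar Q u (θ f)) • v + (1 : F) • θ v
        = (θ f + polar Q v (θ f) • u - polar Q u (θ f) • v) - (θ f + polar Q v f • θ u - θ v)
          + ((- polar Q v (θ f)) • u + polar Q v f • θ u) := by module
    rw [this, e3, sub_self, zero_add]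
  have h5 : (- polar Q u (θ f)) • v + (1 : F) • θ v ∈ KL θ u := by
    rw [e4]; exact mem_KL.2 ⟨_, _, rfl⟩
  have h6 : (- polar Q u (θ f)) • v + (1 : F) • θ v ≠ 0 := by
    intro h0
    exact one_ne_zero (h.theta_ne hv0 _ _ h0).2
  have h7 : v ∈ KL θ ((- polar Q u (θ f)) • v + (1 : F) • θ v) := h.KL_symm (mem_KL.2 ⟨_, _, rfl⟩) h6
  exact hvK (h.KL_le h5 h7)

end TSetup

end Cfsg.Agent.Lib.Helper99
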