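import Mathlib
import Cfsg.Agent.Lib.Helper94.HermSU

set_option autoImplicit false
set_option linter.unusedSimpArgs false
set_option linter.unusedVariables false

/-! Rational structures (semilinear involutions) on unitary spaces: the orthogonal subfield subgroup. -/

namespace Cfsg.Agent.Lib.Helper99

open Module
open Cfsg.Agent.Lib.Helper94 Cfsg.Agent.Lib.Helper94.U

variable {F V : Type*} [Field F] [AddCommGroup V] [Module F V]
variable {σ : F →+* F} {B : V →ₛₗ[σ] V →ₗ[F] F} {τ : V →ₛₗ[σ] V}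

/-- A Hermitian space with a semilinear involution `τ` on whose fixed points the form is symmetric bilinear
over the fixed field of `σ`. -/
structure RSetup (σ : F →+* F) (B : V →ₛₗ[σ] V →ₗ[F] F) (τ : V →ₛₗ[σ] V) : Prop where
  H : HForm σ B
  two : (2 : F) ≠ 0
  invol : ∀ x, τ (τ x) = x
  rat : ∀ x y, τ x = x → τ y = y → σ (B x y) = B x y
  rep : ∀ a b c : F, σ a = a → σ b = b → σ c = c → a ≠ 0 → b ≠ 0 →
    ∃ x y : F, σ x = x ∧ σ y = y ∧ a * x ^ 2 + b * y ^ 2 = c
  dim : 13 ≤ finrank F V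

namespace RSetup

lemma symm (h : RSetup σ B τ) {x y : V} (hx : τ x = x) (hy : τ y = y) : B x y = B y x := by
  rw [← h.H.symm x y, h.rat x y hx hy]

lemma sigma_two (h : RSetup σ B τ) : σ 2 = 2 := map_ofNat σ 2

lemma exists_decomp (h : RSetup σ B τ) {ε : F} (hε0 : ε ≠ 0) (hε : σ ε = -ε) (x : V) :
    ∃ a b, τ a = a ∧ τ b = b ∧ x = a + ε • b := by
  have h2 := h.two
  refine ⟨(2 : F)⁻¹ • (x + τ x), (2 * ε)⁻¹ • (x - τ x), ?_, ?_, ?_⟩
  · rw [map_smulₛₗ, map_add, h.invol, map_inv₀, h.sigma_two, add_comm]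
  · rw [map_smulₛₗ, map_sub, h.invol, map_inv₀, map_mul, h.sigma_two, hε]
    have : (2 * -ε)⁻¹ = -(2 * ε)⁻¹ := by
      rw [mul_neg, inv_neg]
    rw [this, neg_smul, ← smul_neg, neg_sub]
  · rw [smul_smul]
    have : ε * (2 * ε)⁻¹ = (2 : F)⁻¹ := by field_simp
    rw [this, ← smul_add]
    have : x + τ x + (x - τ x) = (2 : F) • x := by rw [two_smul]; abel
    rw [this, smul_smul, inv_mul_cancel₀ h2, one_smul]

lemma tau_decomp (h : RSetup σ B τ) {ε : F} (hε : σ ε = -ε) {a b : V} (ha : τ a = a) (hb : τ b = b) :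
    τ (a + ε • b) = a - ε • b := by
  rw [map_add, map_smulₛₗ, ha, hb, hε, neg_smul, sub_eq_add_neg]

lemma compat (h : RSetup σ B τ) (x y : V) : B (τ x) (τ y) = σ (B x y) := by
  obtain ⟨ε, hε0, hε'⟩ := h.H.exists_skew
  have hε : σ ε = -ε := by linear_combination hε'
  obtain ⟨a, b, ha, hb, rfl⟩ := h.exists_decomp hε0 hε x
  obtain ⟨a', b', ha', hb', rfl⟩ := h.exists_decomp hε0 hε y
  rw [h.tau_decomp hε ha hb, h.tau_decomp hε ha' hb']
  simp only [map_add, map_sub, map_smulₛₗ, map_smul, LinearMap.add_apply, LinearMap.sub_apply,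
    LinearMap.smul_apply, smul_eq_mul, map_mul, hε, h.rat _ _ ha ha', h.rat _ _ ha hb', h.rat _ _ hb ha',
    h.rat _ _ hb hb', RingHom.id_apply, map_neg]
  ring

lemma compat' (h : RSetup σ B τ) (x y : V) : B x (τ y) = σ (B (τ x) y) := by
  rw [← h.compat, h.invol]

lemma compat_rat (h : RSetup σ B τ) {z : V} (hz : τ z = z) (y : V) : B z (τ y) = σ (B z y) := by
  rw [h.compat', hz]

lemma norm_fixed (h : RSetup σ B τ) (x : V) : σ (B x x) = B x x := h.H.norm_fixed x

/-- the perp of a `τ`-stable subspace is `τ`-stable -/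
lemma tau_mem_perp (h : RSetup σ B τ) {U : Submodule F V} (hU : ∀ u ∈ U, τ u ∈ U) {x : V}
    (hx : x ∈ perp B U) : τ x ∈ perp B U := by
  intro u hu
  rw [h.compat', hx _ (hU u hu), map_zero]

lemma exists_rat_ne [Finite F] [FiniteDimensional F V] (h : RSetup σ B τ) (U : Submodule F V)
    (hU : ∀ u ∈ U, τ u ∈ U) (hd : 2 * finrank F U < finrank F V) :
    ∃ z ∈ perp B U, τ z = z ∧ B z z ≠ 0 := by
  by_contra hcon
  push Not at hcon
  obtain ⟨ε, hε0, hε'⟩ := h.H.exists_skew
  have hε : σ ε = -ε := by linear_combination hε'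
  have h2 := h.two
  have key : ∀ a ∈ perp B U, ∀ b ∈ perp B U, τ a = a → τ b = b → B a b = 0 := by
    intro a ha b hb hta htb
    have h1 := hcon (a + b) ((perp B U).add_mem ha hb) (by rw [map_add, hta, htb])
    rw [h.H.norm_add, hcon a ha hta, hcon b hb htb, h.rat a b hta htb] at h1
    have : 2 * B a b = 0 := by linear_combination h1
    rcases mul_eq_zero.1 this with h3 | h3
    · exact absurd h3 h2
    · exact h3
  have hparts : ∀ x ∈ perp B U, ∃ a ∈ perp B U, ∃ b ∈ perp B U, τ a = a ∧ τ b = b ∧ x = a + ε • b := by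
    intro x hx
    have htx := h.tau_mem_perp hU hx
    refine ⟨(2 : F)⁻¹ • (x + τ x), (perp B U).smul_mem _ ((perp B U).add_mem hx htx),
      (2 * ε)⁻¹ • (x - τ x), (perp B U).smul_mem _ ((perp B U).sub_mem hx htx), ?_, ?_, ?_⟩
    · rw [map_smulₛₗ, map_add, h.invol, map_inv₀, h.sigma_two, add_comm]
    · rw [map_smulₛₗ, map_sub, h.invol, map_inv₀, map_mul, h.sigma_two, hε]
      have : (2 * -ε)⁻¹ = -(2 * ε)⁻¹ := by
        rw [mul_neg, inv_neg]
      rw [this, neg_smul, ← smul_neg, neg_sub]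
    · rw [smul_smul]
      have : ε * (2 * ε)⁻¹ = (2 : F)⁻¹ := by field_simp
      rw [this, ← smul_add]
      have : x + τ x + (x - τ x) = (2 : F) • x := by rw [two_smul]; abel
      rw [this, smul_smul, inv_mul_cancel₀ h2, one_smul]
  have hle : perp B U ≤ perp B (perp B U) := by
    intro x hx y hy
    obtain ⟨a, ha, b, hb, hta, htb, rfl⟩ := hparts x hx
    obtain ⟨a', ha', b', hb', hta', htb', rfl⟩ := hparts y hy
    simp only [map_add, map_smulₛₗ, RingHom.id_apply, map_smul, LinearMap.add_apply, LinearMap.smul_apply,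
      key a' ha' a ha hta' hta, key a' ha' b hb hta' htb, key b' hb' a ha htb' hta,
      key b' hb' b hb htb' htb, smul_zero, add_zero]
  rw [perp_perp h.H] at hle
  have h1 := Submodule.finrank_mono hle
  have h3 := finrank_perp h.H U
  omega

/-- the basic existence lemma -/
lemma exists_perp [Finite F] [FiniteDimensional F V] (h : RSetup σ B τ) (s : Finset V) (hs : s.card ≤ 5)
    (hst : ∀ x ∈ s, τ x ∈ s) (γ : F) (hγ : σ γ = γ) :
    ∃ z, τ z = z ∧ (∀ x ∈ s, B z x = 0) ∧ B z z = γ := by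
  classical
  have hdim := h.dim
  have hstab : ∀ t : Finset V, (∀ x ∈ t, τ x ∈ t) →
      ∀ u ∈ Submodule.span F (t : Set V), τ u ∈ Submodule.span F (t : Set V) := by
    intro t ht u hu
    induction hu using Submodule.span_induction with
    | mem x hx => exact Submodule.subset_span (ht x hx)
    | zero => rw [map_zero]; exact Submodule.zero_mem _
    | add x y _ _ hx hy => rw [map_add]; exact Submodule.add_mem _ hx hy
    | smul c x _ hx => rw [map_smulₛₗ]; exact Submodule.smul_mem _ _ hx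
  have hd1 : finrank F (Submodule.span F (s : Set V)) ≤ 5 := (finrank_span_finset_le_card _).trans hs
  obtain ⟨z₁, hz₁, ht₁, hn₁⟩ := h.exists_rat_ne _ (hstab s hst) (by omega)
  have hst' : ∀ x ∈ insert z₁ s, τ x ∈ insert z₁ s := by
    intro x hx
    rcases Finset.mem_insert.1 hx with rfl | hx
    · rw [ht₁]; exact Finset.mem_insert_self _ _
    · exact Finset.mem_insert_of_mem (hst x hx)
  have hd2 : finrank F (Submodule.span F ((insert z₁ s : Finset V) : Set V)) ≤ 6 :=
    (finrank_span_finset_le_card _).trans ((Finset.card_insert_le _ _).trans (by omega))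
  obtain ⟨z₂, hz₂, ht₂, hn₂⟩ := h.exists_rat_ne _ (hstab _ hst') (by omega)
  obtain ⟨x, y, hx, hy, hxy⟩ := h.rep _ _ γ (h.norm_fixed z₁) (h.norm_fixed z₂) hγ hn₁ hn₂
  have h12 : B z₁ z₂ = 0 := hz₂ z₁ (Submodule.subset_span (Finset.mem_insert_self _ _))
  have h21 : B z₂ z₁ = 0 := h.H.eq_zero_comm.1 h12
  refine ⟨x • z₁ + y • z₂, ?_, fun w hw => ?_, ?_⟩
  · rw [map_add, map_smulₛₗ, map_smulₛₗ, ht₁, ht₂, hx, hy]
  · have e1 : B z₁ w = 0 := h.H.eq_zero_comm.1 (hz₁ w (Submodule.subset_span hw))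
    have e2 : B z₂ w = 0 :=
      h.H.eq_zero_comm.1 (hz₂ w (Submodule.subset_span (Finset.mem_insert_of_mem hw)))
    simp only [map_add, map_smulₛₗ, RingHom.id_apply, LinearMap.add_apply, LinearMap.smul_apply, e1, e2, smul_zero, add_zero]
  · simp only [map_add, map_smulₛₗ, RingHom.id_apply, map_smul, LinearMap.add_apply, LinearMap.smul_apply, smul_eq_mul,
      h12, h21, hx, hy]
    linear_combination hxy


/-! ### reflections in vectors of norm two -/

lemma rf_cond (h : RSetup σ B τ) {y : V} (hy : B y y = 2) :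
    (-1 : F) + σ (-1) + (-1) * σ (-1) * B y y = 0 := by
  rw [hy, map_neg, map_one]; ring

/-- the reflection in a vector of norm two -/
noncomputable def rf (h : RSetup σ B τ) (y : V) (hy : B y y = 2) : V ≃ₗ[F] V :=
  ur h.H y (-1) (h.rf_cond hy)

lemma rf_apply (h : RSetup σ B τ) (y : V) (hy : B y y = 2) (x : V) : h.rf y hy x = x - B y x • y := by
  unfold rf
  rw [ur_apply, neg_one_mul, neg_smul, sub_eq_add_neg]

lemma rf_isom (h : RSetup σ B τ) (y : V) (hy : B y y = 2) : UIsom B (h.rf y hy) := ur_isom _ _ _ _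

lemma rf_det [FiniteDimensional F V] (h : RSetup σ B τ) (y : V) (hy : B y y = 2) :
    LinearMap.det ((h.rf y hy : V ≃ₗ[F] V) : V →ₗ[F] V) = -1 := by
  unfold rf
  rw [ur_det, hy]; ring

lemma conj_rf (h : RSetup σ B τ) {g : V ≃ₗ[F] V} (hg : UIsom B g) (y : V) (hy : B y y = 2) :
    g * h.rf y hy * g⁻¹ = h.rf (g y) (by rw [hg]; exact hy) := by
  unfold rf
  exact conj_ur h.H hg y (-1) _

lemma rf_mul_self (h : RSetup σ B τ) (y : V) (hy : B y y = 2) : h.rf y hy * h.rf y hy = 1 := by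
  ext x
  simp only [LinearEquiv.mul_apply, rf_apply, map_sub, map_smul, smul_eq_mul, hy, LinearEquiv.coe_one, id_eq]
  module

lemma rf_inv (h : RSetup σ B τ) (y : V) (hy : B y y = 2) : (h.rf y hy)⁻¹ = h.rf y hy :=
  inv_eq_of_mul_eq_one_left (h.rf_mul_self y hy)

lemma rf_fix (h : RSetup σ B τ) (y : V) (hy : B y y = 2) {x : V} (hx : B y x = 0) : h.rf y hy x = x := by
  rw [rf_apply, hx, zero_smul, sub_zero]

lemma tau_rf (h : RSetup σ B τ) (y : V) (hy : B y y = 2) (hty : τ y = y) (x : V) :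
    τ (h.rf y hy x) = h.rf y hy (τ x) := by
  rw [rf_apply, rf_apply, map_sub, map_smulₛₗ, hty, h.compat_rat hty]

/-- the Siegel element `rf (y + v) * rf y` -/
noncomputable def sg (h : RSetup σ B τ) (v y : V) (hy : B y y = 2) (hyv : B (y + v) (y + v) = 2) :
    V ≃ₗ[F] V := h.rf (y + v) hyv * h.rf y hy

lemma sg_apply (h : RSetup σ B τ) {v y : V} (hv : B v v = 0) (hvy : B v y = 0) (hy : B y y = 2)
    (hyv : B (y + v) (y + v) = 2) (x : V) :
    h.sg v y hy hyv x = x + B y x • v - B v x • y - B v x • v := by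
  have hyv' : B y v = 0 := h.H.eq_zero_comm.1 hvy
  unfold sg
  simp only [LinearEquiv.mul_apply, rf_apply, map_add, map_sub, map_smul, LinearMap.add_apply, smul_eq_mul,
    hv, hvy, hy, hyv']
  module

lemma norm_add_isotropic (h : RSetup σ B τ) {v y : V} (hv : B v v = 0) (hvy : B v y = 0) :
    B (y + v) (y + v) = B y y := by
  have hyv' : B y v = 0 := h.H.eq_zero_comm.1 hvy
  simp only [map_add, LinearMap.add_apply, hv, hvy, hyv', add_zero]

lemma sg_comm (h : RSetup σ B τ) {v y₁ y₂ : V} (hv : B v v = 0) (hv1 : B v y₁ = 0) (hv2 : B v y₂ = 0)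
    (h1 : B y₁ y₁ = 2) (h2 : B y₂ y₂ = 2) (h1v : B (y₁ + v) (y₁ + v) = 2)
    (h2v : B (y₂ + v) (y₂ + v) = 2) (k : F) (hk : k + σ k + k * σ k * B v v = 0)
    (hkk : k = B y₂ y₁ - B y₁ y₂) :
    h.sg v y₁ h1 h1v * h.sg v y₂ h2 h2v = ur h.H v k hk * (h.sg v y₂ h2 h2v * h.sg v y₁ h1 h1v) := by
  have hv1' : B y₁ v = 0 := h.H.eq_zero_comm.1 hv1
  have hv2' : B y₂ v = 0 := h.H.eq_zero_comm.1 hv2
  ext x
  simp only [LinearEquiv.mul_apply, h.sg_apply hv hv1, h.sg_apply hv hv2, ur_apply, map_add, map_sub,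
    map_smul, smul_eq_mul, hv, hv1, hv2, hv1', hv2', h1, h2, hkk]
  module

/-! ### the subgroup hypotheses and the set `X` of good isotropic vectors -/

/-- `G` contains the products of two rational reflections -/
def HG (h : RSetup σ B τ) (G : Subgroup (V ≃ₗ[F] V)) : Prop :=
  ∀ (y z : V) (hy : B y y = 2) (hz : B z z = 2), τ y = y → τ z = z → h.rf y hy * h.rf z hz ∈ G

/-- all transvections with centre `v` lie in `G` -/
def X (h : RSetup σ B τ) (G : Subgroup (V ≃ₗ[F] V)) (v : V) : Prop :=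
  B v v = 0 ∧ ∀ k hk, ur h.H v k hk ∈ G

lemma X_zero (h : RSetup σ B τ) (G : Subgroup (V ≃ₗ[F] V)) : h.X G 0 := by
  refine ⟨by simp, fun k hk => ?_⟩
  have : ur h.H 0 k hk = 1 := by
    ext x; simp [ur_apply]
  rw [this]; exact G.one_mem

lemma X_conj (h : RSetup σ B τ) {G : Subgroup (V ≃ₗ[F] V)} {v : V} (hX : h.X G v) {g : V ≃ₗ[F] V}
    (hg : g ∈ G) (hgI : UIsom B g) : h.X G (g v) := by
  refine ⟨by rw [hgI]; exact hX.1, fun k hk => ?_⟩
  have hk' : k + σ k + k * σ k * B v v = 0 := by rw [hgI] at hk; exact hk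
  have := conj_ur h.H hgI v k hk'
  rw [← this]
  exact G.mul_mem (G.mul_mem hg (hX.2 k hk')) (G.inv_mem hg)

lemma X_smul (h : RSetup σ B τ) {G : Subgroup (V ≃ₗ[F] V)} {v : V} (hX : h.X G v) (c : F) :
    h.X G (c • v) := by
  have h0 : B (c • v) (c • v) = 0 := by rw [h.H.norm_smul, hX.1, mul_zero]
  refine ⟨h0, fun k hk => ?_⟩
  have hk0 : k + σ k = 0 := by rw [h0] at hk; linear_combination hk
  have hk' : k * (c * σ c) + σ (k * (c * σ c)) + k * (c * σ c) * σ (k * (c * σ c)) * B v v = 0 := by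
    rw [hX.1, map_mul, map_mul, h.H.invol]
    linear_combination (c * σ c) * hk0
  have : ur h.H (c • v) k hk = ur h.H v (k * (c * σ c)) hk' := by
    ext x
    simp only [ur_apply, map_smulₛₗ, RingHom.id_apply, LinearMap.smul_apply, smul_eq_mul, smul_smul]
    congr 2
    ring
  rw [this]
  exact hX.2 _ _

lemma X_of_smul (h : RSetup σ B τ) {G : Subgroup (V ≃ₗ[F] V)} {v : V} {c : F} (hc : c ≠ 0)
    (hX : h.X G (c • v)) : h.X G v := by
  have := h.X_smul hX c⁻¹
  rwa [smul_smul, inv_mul_cancel₀ hc, one_smul] at this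

lemma X_line (h : RSetup σ B τ) {G : Subgroup (V ≃ₗ[F] V)} {p₁ p₂ : V} (h1 : h.X G p₁) (h2 : h.X G p₂)
    (hne : B p₂ p₁ ≠ 0) (hiso : B (p₁ + p₂) (p₁ + p₂) = 0) : h.X G (p₁ + p₂) := by
  have hs : B p₂ p₁ + σ (B p₂ p₁) = 0 := by
    rw [h.H.norm_add, h1.1, h2.1, h.H.symm] at hiso
    rw [h.H.symm]
    linear_combination hiso
  have hs0 : σ (B p₂ p₁) ≠ 0 := h.H.sigma_ne_zero hne
  have hk : (B p₂ p₁)⁻¹ + σ (B p₂ p₁)⁻¹ + (B p₂ p₁)⁻¹ * σ (B p₂ p₁)⁻¹ * B p₂ p₂ = 0 := by
    rw [h2.1, map_inv₀]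
    field_simp
    linear_combination hs
  have := h.X_conj h1 (h2.2 _ hk) (ur_isom _ _ _ _)
  rwa [ur_apply, inv_mul_cancel₀ hne, one_smul] at this

lemma X_rf [Finite F] [FiniteDimensional F V] (h : RSetup σ B τ) {G : Subgroup (V ≃ₗ[F] V)}
    (hG : h.HG G) {v : V} (hX : h.X G v) (y : V) (hy : B y y = 2) (hty : τ y = y) :
    h.X G (h.rf y hy v) := by
  classical
  obtain ⟨z, htz, hz, hzz⟩ := h.exists_perp {v, τ v} (Finset.card_le_two.trans (by omega)) (by
    intro x hx
    simp only [Finset.mem_insert, Finset.mem_singleton] at hx ⊢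
    rcases hx with rfl | rfl
    · right; rfl
    · left; exact h.invol _) 2 h.sigma_two
  have hzv : B z v = 0 := hz v (by simp)
  have := h.X_conj hX (hG y z hy hzz hty htz) ((h.rf_isom y hy).mul (h.rf_isom z hzz))
  rwa [LinearEquiv.mul_apply, h.rf_fix z hzz hzv] at this


/-! ### rational isotropic vectors -/

lemma fixed_pair_zero (h : RSetup σ B τ) {ε p q : F} (hε0 : ε ≠ 0) (hε : σ ε = -ε) (hp : σ p = p)
    (hq : σ q = q) (hpq : p + ε * q = 0) : p = 0 ∧ q = 0 := by
  have h2 := h.two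
  have h1 : p - ε * q = 0 := by
    have := congrArg σ hpq
    rw [map_add, map_mul, hp, hq, hε, map_zero] at this
    linear_combination this
  have hp0 : p = 0 := by
    have : 2 * p = 0 := by linear_combination hpq + h1
    rcases mul_eq_zero.1 this with h3 | h3
    · exact absurd h3 h2
    · exact h3
  refine ⟨hp0, ?_⟩
  rw [hp0, zero_add] at hpq
  rcases mul_eq_zero.1 hpq with h3 | h3
  · exact absurd h3 hε0
  · exact h3

lemma exists_rat_pair_ne (h : RSetup σ B τ) {v : V} (hv : v ≠ 0) : ∃ x, τ x = x ∧ B x v ≠ 0 := by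
  obtain ⟨ε, hε0, hε'⟩ := h.H.exists_skew
  have hε : σ ε = -ε := by linear_combination hε'
  obtain ⟨w, hw⟩ := h.H.exists_ne' hv
  obtain ⟨a, b, ha, hb, rfl⟩ := h.exists_decomp hε0 hε w
  by_cases h1 : B a v = 0
  · refine ⟨b, hb, fun h2 => hw ?_⟩
    simp only [map_add, map_smulₛₗ, RingHom.id_apply, LinearMap.add_apply, LinearMap.smul_apply, h1, h2, smul_zero, add_zero]
  · exact ⟨a, ha, h1⟩

lemma exists_rat_both_ne (h : RSetup σ B τ) {v v' : V} (hv : v ≠ 0) (hv' : v' ≠ 0) :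
    ∃ x, τ x = x ∧ B x v ≠ 0 ∧ B x v' ≠ 0 := by
  obtain ⟨x₁, h1, hx₁⟩ := h.exists_rat_pair_ne hv
  obtain ⟨x₂, h2, hx₂⟩ := h.exists_rat_pair_ne hv'
  by_cases h3 : B x₁ v' = 0
  · by_cases h4 : B x₂ v = 0
    · refine ⟨x₁ + x₂, by rw [map_add, h1, h2], ?_, ?_⟩
      · rw [map_add, LinearMap.add_apply, h4, add_zero]; exact hx₁
      · rw [map_add, LinearMap.add_apply, h3, zero_add]; exact hx₂
    · exact ⟨x₂, h2, h4, hx₂⟩
  · exact ⟨x₁, h1, hx₁, h3⟩

lemma X_rat_step [Finite F] [FiniteDimensional F V] (h : RSetup σ B τ) {G : Subgroup (V ≃ₗ[F] V)}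
    (hG : h.HG G) {v v' : V} (hX : h.X G v) (htv : τ v = v) (htv' : τ v' = v') (hv' : B v' v' = 0)
    (hne : B v v' ≠ 0) : h.X G v' := by
  have hfix : σ (B v v') = B v v' := h.rat _ _ htv htv'
  have hsym : B v' v = B v v' := h.symm htv' htv
  set s : F := -(B v v')⁻¹ with hs
  have hs0 : s ≠ 0 := by rw [hs]; exact neg_ne_zero.2 (inv_ne_zero hne)
  have hσs : σ s = s := by rw [hs, map_neg, map_inv₀, hfix]
  have hsB : s * B v v' = -1 := by rw [hs]; field_simp
  have hty : τ (v - s • v') = v - s • v' := by rw [map_sub, map_smulₛₗ, htv, htv', hσs]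
  have hy : B (v - s • v') (v - s • v') = 2 := by
    simp only [map_sub, map_smulₛₗ, RingHom.id_apply, map_smul, LinearMap.sub_apply, LinearMap.smul_apply, smul_eq_mul,
      hX.1, hv', hsym, hσs]
    linear_combination (-2 : F) * hsB
  have := h.X_rf hG hX _ hy hty
  have e : h.rf (v - s • v') hy v = s • v' := by
    rw [rf_apply]
    have : B (v - s • v') v = 1 := by
      simp only [map_sub, map_smulₛₗ, RingHom.id_apply, LinearMap.sub_apply, LinearMap.smul_apply, smul_eq_mul, hX.1, hsym, hσs]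
      linear_combination (-1 : F) * hsB
    rw [this, one_smul]; abel
  rw [e] at this
  exact h.X_of_smul hs0 this

lemma X_rat [Finite F] [FiniteDimensional F V] (h : RSetup σ B τ) {G : Subgroup (V ≃ₗ[F] V)}
    (hG : h.HG G) {v : V} (hX : h.X G v) (hv0 : v ≠ 0) (htv : τ v = v) (v' : V) (htv' : τ v' = v')
    (hv' : B v' v' = 0) : h.X G v' := by
  by_cases hne : B v v' = 0
  · by_cases hv'0 : v' = 0
    · rw [hv'0]; exact h.X_zero G
    obtain ⟨x, htx, hxv, hxv'⟩ := h.exists_rat_both_ne hv0 hv'0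
    have h2 := h.two
    set c : F := B x x / (2 * B x v) with hc
    have hσc : σ c = c := by
      rw [hc, map_div₀, map_mul, h.sigma_two, h.norm_fixed, h.rat _ _ htx htv]
    have htw : τ (x - c • v) = x - c • v := by rw [map_sub, map_smulₛₗ, htx, htv, hσc]
    have hvx : B v x = B x v := h.symm htv htx
    have hw : B (x - c • v) (x - c • v) = 0 := by
      simp only [map_sub, map_smulₛₗ, RingHom.id_apply, map_smul, LinearMap.sub_apply, LinearMap.smul_apply, smul_eq_mul,
        hX.1, hvx, hσc]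
      rw [hc]; field_simp; ring
    have h1 : B v (x - c • v) ≠ 0 := by
      rw [map_sub, map_smul, hX.1, smul_zero, sub_zero, hvx]; exact hxv
    have h3 : B (x - c • v) v' ≠ 0 := by
      rw [map_sub, map_smulₛₗ, LinearMap.sub_apply, LinearMap.smul_apply, hne, smul_zero, sub_zero]
      exact hxv'
    exact h.X_rat_step hG (h.X_rat_step hG hX htv htw hw h1) htw htv' hv' h3
  · exact h.X_rat_step hG hX htv htv' hv' hne

/-! ### spreading to all isotropic vectors -/

lemma exists_rat_perp_ne [Finite F] [FiniteDimensional F V] (h : RSetup σ B τ) {a b : V} (hta : τ a = a)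
    (htb : τ b = b) (hab : a ∉ Submodule.span F {b}) : ∃ a', τ a' = a' ∧ B a' b = 0 ∧ B a' a ≠ 0 := by
  obtain ⟨ε, hε0, hε'⟩ := h.H.exists_skew
  have hε : σ ε = -ε := by linear_combination hε'
  obtain ⟨x, hx, hne⟩ := exists_perp_ne h.H _ hab
  rw [mem_perp_span_singleton] at hx
  obtain ⟨c, d, hc, hd, rfl⟩ := h.exists_decomp hε0 hε x
  rw [map_add, map_smul, smul_eq_mul] at hx
  obtain ⟨h1, h2⟩ := h.fixed_pair_zero hε0 hε (h.rat _ _ htb hc) (h.rat _ _ htb hd) hx
  by_cases h3 : B a c = 0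
  · refine ⟨d, hd, by rw [h.symm hd htb]; exact h2, fun h4 => hne ?_⟩
    rw [map_add, map_smul, h3, h.symm hta hd, h4, smul_zero, add_zero]
  · exact ⟨c, hc, by rw [h.symm hc htb]; exact h1, by rw [h.symm hc hta]; exact h3⟩

lemma X_parts [Finite F] [FiniteDimensional F V] (h : RSetup σ B τ) {G : Subgroup (V ≃ₗ[F] V)}
    (hXr : ∀ v, τ v = v → B v v = 0 → h.X G v) {ε : F} (hε0 : ε ≠ 0) (hε : σ ε = -ε) {a b : V}
    (hta : τ a = a) (htb : τ b = b) (ha : B a a = 0) (hb : B b b = 0) : h.X G (a + ε • b) := by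
  have h2 := h.two
  have D1 : ∀ a b : V, τ a = a → τ b = b → B a a = 0 → B b b = 0 → B a b ≠ 0 → h.X G (a + ε • b) := by
    intro a b hta htb ha hb hne
    refine h.X_line (hXr a hta ha) (h.X_smul (hXr b htb hb) ε) ?_ ?_
    · rw [map_smulₛₗ, LinearMap.smul_apply, smul_eq_mul, hε, h.symm htb hta]
      exact mul_ne_zero (neg_ne_zero.2 hε0) hne
    · simp only [map_add, map_smulₛₗ, RingHom.id_apply, map_smul, LinearMap.add_apply, LinearMap.smul_apply, smul_eq_mul,
        ha, hb, hε, h.symm htb hta]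
      ring
  by_cases hm : B a b = 0
  · by_cases hab : a ∈ Submodule.span F {b}
    · obtain ⟨μ, rfl⟩ := Submodule.mem_span_singleton.1 hab
      rw [← add_smul]
      exact h.X_smul (hXr b htb hb) _
    · obtain ⟨a', hta', ha'b, ha'a⟩ := h.exists_rat_perp_ne hta htb hab
      set c : F := B a' a' / (2 * B a' a) with hc
      have hσc : σ c = c := by
        rw [hc, map_div₀, map_mul, h.sigma_two, h.norm_fixed, h.rat _ _ hta' hta]
      set w := a' - c • a with hw
      have htw : τ w = w := by rw [hw, map_sub, map_smulₛₗ, hta', hta, hσc]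
      have haa' : B a a' = B a' a := h.symm hta hta'
      have hww : B w w = 0 := by
        simp only [hw, map_sub, map_smulₛₗ, RingHom.id_apply, map_smul, LinearMap.sub_apply, LinearMap.smul_apply, smul_eq_mul,
          ha, haa', hσc]
        rw [hc]; field_simp; ring
      have haw : B a w = B a' a := by
        rw [hw, map_sub, map_smul, ha, smul_zero, sub_zero, haa']
      have hwb : B w b = 0 := by
        rw [hw, map_sub, map_smulₛₗ, LinearMap.sub_apply, LinearMap.smul_apply, ha'b, hm, smul_zero, sub_zero]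
      have hbw : B b w = 0 := by rw [h.symm htb htw]; exact hwb
      have hwa : B w a = B a' a := by rw [h.symm htw hta]; exact haw
      have hba : B b a = 0 := by rw [h.symm htb hta]; exact hm
      have p1 : h.X G (a + ε • w) := D1 a w hta htw ha hww (by rw [haw]; exact ha'a)
      have p2 : h.X G (ε • (b - w)) := by
        refine h.X_smul (hXr _ (by rw [map_sub, htb, htw]) ?_) ε
        simp only [map_sub, LinearMap.sub_apply, hb, hww, hwb, hbw, sub_zero]
      have e : a + ε • b = (a + ε • w) + ε • (b - w) := by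
        clear_value w
        module
      rw [e]
      refine h.X_line p1 p2 ?_ ?_
      · simp only [map_add, map_sub, map_smulₛₗ, RingHom.id_apply, map_smul, LinearMap.sub_apply, LinearMap.smul_apply,
          smul_eq_mul, hε, hba, hwa, hbw, hww]
        simpa using ⟨hε0, ha'a⟩
      · rw [← e]
        simp only [map_add, map_smulₛₗ, RingHom.id_apply, map_smul, LinearMap.add_apply, LinearMap.smul_apply, smul_eq_mul,
          ha, hb, hm, hba]
        ring
  · exact D1 a b hta htb ha hb hm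

lemma X_all [Finite F] [FiniteDimensional F V] (h : RSetup σ B τ) {G : Subgroup (V ≃ₗ[F] V)}
    (hXr : ∀ v, τ v = v → B v v = 0 → h.X G v) (x : V) (hx : B x x = 0) : h.X G x := by
  classical
  obtain ⟨ε, hε0, hε'⟩ := h.H.exists_skew
  have hε : σ ε = -ε := by linear_combination hε'
  have h2 := h.two
  obtain ⟨a, b, hta, htb, rfl⟩ := h.exists_decomp hε0 hε x
  have hba : B b a = B a b := h.symm htb hta
  have hnorm : B a a = ε ^ 2 * B b b := by
    simp only [map_add, map_smulₛₗ, RingHom.id_apply, map_smul, LinearMap.add_apply, LinearMap.smul_apply, smul_eq_mul,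
      hε, hba] at hx
    linear_combination hx
  by_cases hβ : B b b = 0
  · exact h.X_parts hXr hε0 hε hta htb (by rw [hnorm, hβ, mul_zero]) hβ
  · have hb0 : b ≠ 0 := by rintro rfl; simp at hβ
    have ha0 : a ≠ 0 := by
      rintro rfl
      rw [map_zero] at hnorm
      exact (mul_ne_zero (pow_ne_zero 2 hε0) hβ) hnorm.symm
    obtain ⟨x₀, htx₀, hx₀a, hx₀b⟩ := h.exists_rat_both_ne ha0 hb0
    obtain ⟨z, htz, hz, hzn⟩ := h.exists_perp {a, b, x₀} (Finset.card_le_three.trans (by omega)) (by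
      intro x hx
      simp only [Finset.mem_insert, Finset.mem_singleton] at hx ⊢
      rcases hx with rfl | rfl | rfl
      · left; exact hta
      · right; left; exact htb
      · right; right; exact htx₀) (-(B x₀ x₀)) (by rw [map_neg, h.norm_fixed])
    have hza := hz a (by simp)
    have hzb := hz b (by simp)
    have hzx := hz x₀ (by simp)
    have hxz : B x₀ z = 0 := h.H.eq_zero_comm.1 hzx
    set s := x₀ + z with hs
    have hts : τ s = s := by rw [hs, map_add, htx₀, htz]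
    have hss : B s s = 0 := by
      simp only [hs, map_add, LinearMap.add_apply, hzx, hxz, hzn]; ring
    have hsa : B s a = B x₀ a := by rw [hs, map_add, LinearMap.add_apply, hza, add_zero]
    have hsb : B s b = B x₀ b := by rw [hs, map_add, LinearMap.add_apply, hzb, add_zero]
    have hsa0 : B s a ≠ 0 := by rw [hsa]; exact hx₀a
    have hsb0 : B s b ≠ 0 := by rw [hsb]; exact hx₀b
    set k₁ : F := -(B b b) / (2 * B s a * B s b) with hk₁
    have hσk₁ : σ k₁ = k₁ := by
      rw [hk₁, map_div₀, map_neg, map_mul, map_mul, h.sigma_two, h.norm_fixed, h.rat _ _ hts hta,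
        h.rat _ _ hts htb]
    have hk : k₁ * ε + σ (k₁ * ε) + k₁ * ε * σ (k₁ * ε) * B s s = 0 := by
      rw [hss, map_mul, hσk₁, hε]; ring
    have hXs := hXr s hts hss
    have hmem := hXs.2 _ hk
    set a' := a + (k₁ * ε ^ 2 * B s b) • s with ha'
    set b' := b + (k₁ * B s a) • s with hb'
    have hta' : τ a' = a' := by
      rw [ha', map_add, map_smulₛₗ, hta, hts, map_mul, map_mul, map_pow, hσk₁, hε, h.rat _ _ hts htb]
      congr 2; ring
    have htb' : τ b' = b' := by
      rw [hb', map_add, map_smulₛₗ, htb, hts, map_mul, hσk₁, h.rat _ _ hts hta]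
    have e : ur h.H s (k₁ * ε) hk (a + ε • b) = a' + ε • b' := by
      rw [ur_apply, ha', hb', map_add, map_smul, smul_eq_mul]
      module
    have has : B a s = B s a := h.symm hta hts
    have hbs : B b s = B s b := h.symm htb hts
    have hfa : σ (B s a) = B s a := h.rat _ _ hts hta
    have hfb : σ (B s b) = B s b := h.rat _ _ hts htb
    have hkk : 2 * k₁ * (B s a * B s b) = -(B b b) := by
      rw [hk₁]; field_simp
    have hb'0 : B b' b' = 0 := by
      simp only [hb', map_add, map_smulₛₗ, RingHom.id_apply, map_smul, LinearMap.add_apply, LinearMap.smul_apply, smul_eq_mul,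
        hss, hbs, map_mul, hσk₁, hfa]
      linear_combination hkk
    have ha'0 : B a' a' = 0 := by
      simp only [ha', map_add, map_smulₛₗ, RingHom.id_apply, map_smul, LinearMap.add_apply, LinearMap.smul_apply, smul_eq_mul,
        hss, has, map_mul, map_pow, hσk₁, hfb, hε, hnorm]
      linear_combination (ε ^ 2) * hkk
    have hX' := h.X_parts hXr hε0 hε hta' htb' ha'0 hb'0
    rw [← e] at hX'
    have := h.X_conj hX' (G.inv_mem hmem) (ur_isom h.H s _ hk).inv
    rwa [inv_apply_self'] at this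


/-! ### irrational vectors and the first transvection -/

end RSetup

/-- `c` does not span a rational point -/
def Irr (τ : V →ₛₗ[σ] V) (c : V) : Prop := ∀ μ : F, τ c ≠ μ • c

/-- `φ` normalises the rational structure up to a scalar -/
def Stab (τ : V →ₛₗ[σ] V) (φ : V ≃ₗ[F] V) : Prop := ∃ μ : F, μ ≠ 0 ∧ ∀ x, τ (φ x) = μ • φ (τ x)

namespace RSetup

lemma exists_rat_val [Finite F] [FiniteDimensional F V] (h : RSetup σ B τ) {c : V} (hc : Irr τ c) (η : F) :
    ∃ y, τ y = y ∧ B c y = η := by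
  have h2 := h.two
  have hd : τ c ∉ Submodule.span F {c} := by
    intro hm
    obtain ⟨μ, hμ⟩ := Submodule.mem_span_singleton.1 hm
    exact hc μ hμ.symm
  have hx : c ∉ Submodule.span F {τ c} := by
    intro hm
    obtain ⟨μ, hμ⟩ := Submodule.mem_span_singleton.1 hm
    apply hc (σ μ)
    have := congrArg τ hμ
    rw [map_smulₛₗ, h.invol] at this
    exact this.symm
  obtain ⟨w, hw1, hw2⟩ := exists_two_values h.H hd hx η (σ η)
  refine ⟨(2 : F)⁻¹ • (w + τ w), ?_, ?_⟩
  · rw [map_smulₛₗ, map_add, h.invol, map_inv₀, h.sigma_two, add_comm]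
  · rw [map_smul, map_add, hw1, h.compat', hw2, h.H.invol, smul_eq_mul]
    field_simp
    ring

lemma rf_congr (h : RSetup σ B τ) {y y' : V} (hyy : y = y') (hy : B y y = 2) (hy' : B y' y' = 2) :
    h.rf y hy = h.rf y' hy' := by
  subst hyy; rfl

lemma conj_sg (h : RSetup σ B τ) {D : V ≃ₗ[F] V} (hD : UIsom B D) {v y y' : V} (hy : B y y = 2)
    (hyv : B (y + v) (y + v) = 2) (hDv : D v = v) (hDy : D y = y') (hy' : B y' y' = 2)
    (hyv' : B (y' + v) (y' + v) = 2) : D * h.sg v y hy hyv * D⁻¹ = h.sg v y' hy' hyv' := by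
  unfold sg
  have e : D * (h.rf (y + v) hyv * h.rf y hy) * D⁻¹ =
      (D * h.rf (y + v) hyv * D⁻¹) * (D * h.rf y hy * D⁻¹) := by group
  rw [e, h.conj_rf hD, h.conj_rf hD]
  congr 1
  · exact h.rf_congr (by rw [map_add, hDv, hDy]) _ _
  · exact h.rf_congr hDy _ _

lemma exists_X [Finite F] [FiniteDimensional F V] (h : RSetup σ B τ) {G : Subgroup (V ≃ₗ[F] V)}
    (hG : h.HG G) {g₀ : V ≃ₗ[F] V} (hg₀ : g₀ ∈ G) (hI : UIsom B g₀) {ys : V} (htys : τ ys = ys)
    (hys : B ys ys = 2) (hirr : Irr τ (g₀ ys)) : ∃ v, v ≠ 0 ∧ τ v = v ∧ h.X G v := by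
  classical
  obtain ⟨ε, hε0, hε'⟩ := h.H.exists_skew
  have hε : σ ε = -ε := by linear_combination hε'
  have h2 := h.two
  set y₁ := g₀ ys with hy₁
  have hy₁n : B y₁ y₁ = 2 := by rw [hy₁, hI]; exact hys
  obtain ⟨y₀, hty₀, hy₀⟩ := h.exists_rat_val hirr 1
  obtain ⟨e₀, hte₀, he₀⟩ := h.exists_rat_val hirr ε
  obtain ⟨z₁, htz₁, hz₁, hz₁n⟩ := h.exists_perp {y₁, τ y₁, y₀, e₀} (Finset.card_le_four.trans (by omega)) (by
    intro x hx
    simp only [Finset.mem_insert, Finset.mem_singleton] at hx ⊢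
    rcases hx with rfl | rfl | rfl | rfl
    · right; left; rfl
    · left; exact h.invol _
    · right; right; left; exact hty₀
    · right; right; right; exact hte₀) 2 h.sigma_two
  obtain ⟨z₂, htz₂, hz₂, hz₂n⟩ := h.exists_perp {y₁, τ y₁, y₀, e₀, z₁} Finset.card_le_five (by
    intro x hx
    simp only [Finset.mem_insert, Finset.mem_singleton] at hx ⊢
    rcases hx with rfl | rfl | rfl | rfl | rfl
    · right; left; rfl
    · left; exact h.invol _
    · right; right; left; exact hty₀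
    · right; right; right; left; exact hte₀
    · right; right; right; right; exact htz₁) (-2) (by rw [map_neg, h.sigma_two])
  have h21 : B z₂ z₁ = 0 := hz₂ z₁ (by simp)
  have h12 : B z₁ z₂ = 0 := h.H.eq_zero_comm.1 h21
  set v := z₁ + z₂ with hv
  have htv : τ v = v := by rw [hv, map_add, htz₁, htz₂]
  have hvv : B v v = 0 := by
    simp only [hv, map_add, LinearMap.add_apply, h12, h21, hz₁n, hz₂n]; ring
  have hv0 : v ≠ 0 := by
    intro h0
    have : B z₁ v = 2 := by rw [hv, map_add, hz₁n, h12, add_zero]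
    rw [h0, map_zero] at this
    exact h2 this.symm
  have hvy₁ : B v y₁ = 0 := by
    rw [hv, map_add, LinearMap.add_apply, hz₁ y₁ (by simp), hz₂ y₁ (by simp), add_zero]
  have hvy₀ : B v y₀ = 0 := by
    rw [hv, map_add, LinearMap.add_apply, hz₁ y₀ (by simp), hz₂ y₀ (by simp), add_zero]
  have hve₀ : B v e₀ = 0 := by
    rw [hv, map_add, LinearMap.add_apply, hz₁ e₀ (by simp), hz₂ e₀ (by simp), add_zero]
  clear_value v
  -- the vector `y`
  obtain ⟨z, htz, hz, hzn⟩ := h.exists_perp {y₁, τ y₁, v, y₀} (Finset.card_le_four.trans (by omega)) (by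
    intro x hx
    simp only [Finset.mem_insert, Finset.mem_singleton] at hx ⊢
    rcases hx with rfl | rfl | rfl | rfl
    · right; left; rfl
    · left; exact h.invol _
    · right; right; left; exact htv
    · right; right; right; exact hty₀) (2 - B y₀ y₀) (by rw [map_sub, h.sigma_two, h.norm_fixed])
  have hzy₁ : B y₁ z = 0 := h.H.eq_zero_comm.1 (hz y₁ (by simp))
  have hzv : B v z = 0 := h.H.eq_zero_comm.1 (hz v (by simp))
  have hzy₀ : B z y₀ = 0 := hz y₀ (by simp)
  have hy₀z : B y₀ z = 0 := h.H.eq_zero_comm.1 hzy₀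
  set y := y₀ + z with hy
  have hty : τ y = y := by rw [hy, map_add, hty₀, htz]
  have hyy : B y y = 2 := by
    simp only [hy, map_add, LinearMap.add_apply, hzy₀, hy₀z, hzn]; ring
  have hvy : B v y = 0 := by rw [hy, map_add, hvy₀, hzv, add_zero]
  have hy₁y : B y₁ y = 1 := by rw [hy, map_add, hy₀, hzy₁, add_zero]
  clear_value y
  -- the auxiliary reflection
  obtain ⟨zs, htzs, hzs, hzsn⟩ := h.exists_perp {g₀⁻¹ y, τ (g₀⁻¹ y), g₀⁻¹ v, τ (g₀⁻¹ v)}
    (Finset.card_le_four.trans (by omega)) (by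
    intro x hx
    simp only [Finset.mem_insert, Finset.mem_singleton] at hx ⊢
    rcases hx with rfl | rfl | rfl | rfl
    · right; left; rfl
    · left; exact h.invol _
    · right; right; right; rfl
    · right; right; left; exact h.invol _) 2 h.sigma_two
  have hzsy : B zs (g₀⁻¹ y) = 0 := hzs _ (by simp)
  have hzsv : B zs (g₀⁻¹ v) = 0 := hzs _ (by simp)
  set D := g₀ * (h.rf ys hys * h.rf zs hzsn) * g₀⁻¹ with hD
  have hDG : D ∈ G := G.mul_mem (G.mul_mem hg₀ (hG _ _ _ _ htys htzs)) (G.inv_mem hg₀)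
  have hDI : UIsom B D := (hI.mul ((h.rf_isom _ _).mul (h.rf_isom _ _))).mul hI.inv
  have hDy : D y = y - y₁ := by
    rw [hD]
    simp only [LinearEquiv.mul_apply]
    rw [h.rf_fix zs hzsn hzsy, h.rf_apply, hI.inv_right, ← hy₁, hy₁y, one_smul, map_sub, apply_inv_self']
  have hDv : D v = v := by
    rw [hD]
    simp only [LinearEquiv.mul_apply]
    rw [h.rf_fix zs hzsn hzsv, h.rf_apply, hI.inv_right, ← hy₁, h.H.eq_zero_comm.1 hvy₁, zero_smul, sub_zero,
      apply_inv_self']
  have hyv : B (y + v) (y + v) = 2 := by rw [h.norm_add_isotropic hvv hvy, hyy]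
  have hSG : h.sg v y hyy hyv ∈ G := hG _ _ _ _ (by rw [map_add, hty, htv]) hty
  have hy'n : B (y - y₁) (y - y₁) = 2 := by rw [← hDy, hDI]; exact hyy
  have hvy' : B v (y - y₁) = 0 := by rw [map_sub, hvy, hvy₁, sub_zero]
  have hy'v : B (y - y₁ + v) (y - y₁ + v) = 2 := by rw [h.norm_add_isotropic hvv hvy', hy'n]
  have hTG : h.sg v (y - y₁) hy'n hy'v ∈ G := by
    rw [← h.conj_sg hDI hyy hyv hDv hDy hy'n hy'v]
    exact G.mul_mem (G.mul_mem hDG hSG) (G.inv_mem hDG)
  refine ⟨v, hv0, htv, hvv, fun k hk => ?_⟩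
  have hσk : σ k = -k := by rw [hvv] at hk; linear_combination hk
  set s : F := k / (2 * ε) with hs
  have hσs : σ s = s := by
    rw [hs, map_div₀, map_mul, h.sigma_two, hε, hσk]
    field_simp
  obtain ⟨z', htz', hz', hz'n⟩ := h.exists_perp {y₁, τ y₁, v, e₀} (Finset.card_le_four.trans (by omega)) (by
    intro x hx
    simp only [Finset.mem_insert, Finset.mem_singleton] at hx ⊢
    rcases hx with rfl | rfl | rfl | rfl
    · right; left; rfl
    · left; exact h.invol _
    · right; right; left; exact htv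
    · right; right; right; exact hte₀) (2 - B (s • e₀) (s • e₀)) (by rw [map_sub, h.sigma_two, h.norm_fixed])
  have hz'y₁ : B y₁ z' = 0 := h.H.eq_zero_comm.1 (hz' y₁ (by simp))
  have hz'v : B v z' = 0 := h.H.eq_zero_comm.1 (hz' v (by simp))
  have hz'e : B z' e₀ = 0 := hz' e₀ (by simp)
  have hez' : B e₀ z' = 0 := h.H.eq_zero_comm.1 hz'e
  set y₂ := s • e₀ + z' with hy₂
  have hty₂ : τ y₂ = y₂ := by rw [hy₂, map_add, map_smulₛₗ, hte₀, htz', hσs]
  have hy₂n : B y₂ y₂ = 2 := by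
    have e1 : B (s • e₀) z' = 0 := by rw [map_smulₛₗ, LinearMap.smul_apply, hez', smul_zero]
    have e2 : B z' (s • e₀) = 0 := by rw [map_smul, hz'e, smul_zero]
    rw [hy₂, map_add, map_add, LinearMap.add_apply, LinearMap.add_apply, e1, e2, hz'n]; ring
  have hvy₂ : B v y₂ = 0 := by rw [hy₂, map_add, map_smul, hve₀, hz'v, smul_zero, add_zero]
  have hy₁y₂ : B y₁ y₂ = k / 2 := by
    rw [hy₂, map_add, map_smul, he₀, hz'y₁, add_zero, smul_eq_mul, hs]; field_simp
  clear_value y₂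
  have hy₂v : B (y₂ + v) (y₂ + v) = 2 := by rw [h.norm_add_isotropic hvv hvy₂, hy₂n]
  have hS₂G : h.sg v y₂ hy₂n hy₂v ∈ G := hG _ _ _ _ (by rw [map_add, hty₂, htv]) hty₂
  have hkk : k = B y₂ (y - y₁) - B (y - y₁) y₂ := by
    have e1 : B y₂ y₁ = -(k / 2) := by
      rw [← h.H.symm, hy₁y₂, map_div₀, hσk, h.sigma_two]; ring
    rw [map_sub, map_sub, LinearMap.sub_apply, h.symm hty₂ hty, e1, hy₁y₂]
    field_simp
    ring
  have hcomm := h.sg_comm hvv hvy' hvy₂ hy'n hy₂n hy'v hy₂v k hk hkk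
  have : ur h.H v k hk = (h.sg v (y - y₁) hy'n hy'v * h.sg v y₂ hy₂n hy₂v) *
      (h.sg v y₂ hy₂n hy₂v * h.sg v (y - y₁) hy'n hy'v)⁻¹ := by
    rw [hcomm]; group
  rw [this]
  exact G.mul_mem (G.mul_mem hTG hS₂G) (G.inv_mem (G.mul_mem hS₂G hTG))


/-! ### elements outside the stabiliser move some rational point to an irrational one -/

lemma exists_irr [Finite F] [FiniteDimensional F V] (h : RSetup σ B τ) (g : V ≃ₗ[F] V)
    (hg : ¬ Stab τ g) : ∃ y, τ y = y ∧ B y y = 2 ∧ Irr τ (g y) := by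
  classical
  by_contra hcon
  have h2 := h.two
  have hμ : ∀ y, τ y = y → B y y = 2 → ∃ μ : F, τ (g y) = μ • g y := by
    intro y hty hy
    by_contra hc
    push Not at hc
    exact hcon ⟨y, hty, hy, hc⟩
  have ne0 : ∀ y : V, B y y = 2 → y ≠ 0 := by
    rintro y hy rfl
    rw [map_zero] at hy
    exact h2 hy.symm
  -- basic comparison
  have key0 : ∀ (y y'' z : V) (μ μ'' : F), τ y = y → τ y'' = y'' → B y y = 2 → B (y'' - y) (y'' - y) = 2 →
      B z y = 0 → B z y'' ≠ 0 → τ (g y) = μ • g y → τ (g y'') = μ'' • g y'' → μ = μ'' := by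
    intro y y'' z μ μ'' hty hty'' hy hd hzy hzy'' h1 h3
    obtain ⟨μs, hμs⟩ := hμ (y'' - y) (by rw [map_sub, hty, hty'']) hd
    rw [map_sub, map_sub, h1, h3] at hμs
    have e : g ((μ'' - μs) • y'' - (μ - μs) • y) = 0 := by
      rw [map_sub, map_smul, map_smul]
      have : (μ'' - μs) • g y'' - (μ - μs) • g y = (μ'' • g y'' - μ • g y) - μs • (g y'' - g y) := by module
      rw [this, hμs, sub_self]
    have e' : (μ'' - μs) • y'' - (μ - μs) • y = 0 :=
      (LinearEquiv.map_eq_zero_iff g).1 e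
    have e1 := congrArg (B z) e'
    rw [map_sub, map_smul, map_smul, hzy, smul_zero, sub_zero, map_zero, smul_eq_mul] at e1
    have e2 : μ'' - μs = 0 := by
      rcases mul_eq_zero.1 e1 with h4 | h4
      · exact h4
      · exact absurd h4 hzy''
    rw [e2, zero_smul, zero_sub, neg_eq_zero] at e'
    have e3 : μ - μs = 0 := by
      rcases smul_eq_zero.1 e' with h4 | h4
      · exact h4
      · exact absurd h4 (ne0 y hy)
    linear_combination e3 - e2
  have key1 : ∀ (y y' : V) (μ μ' : F), τ y = y → τ y' = y' → B y y = 2 → B y' y' = 2 → B y y' = 0 →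
      τ (g y) = μ • g y → τ (g y') = μ' • g y' → μ = μ' := by
    intro y y' μ μ' hty hty' hy hy' hyy' h1 h3
    have hy'y : B y' y = 0 := h.H.eq_zero_comm.1 hyy'
    obtain ⟨z, htz, hz, hzn⟩ := h.exists_perp {y, y'} (Finset.card_le_two.trans (by omega)) (by
      intro x hx
      simp only [Finset.mem_insert, Finset.mem_singleton] at hx ⊢
      rcases hx with rfl | rfl
      · left; exact hty
      · right; exact hty') 1 (map_one σ)
    have hzy : B z y = 0 := hz y (by simp)
    have hzy' : B z y' = 0 := hz y' (by simp)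
    have hyz : B y z = 0 := h.H.eq_zero_comm.1 hzy
    have hy'z : B y' z = 0 := h.H.eq_zero_comm.1 hzy'
    have hσ2 : σ (2 : F)⁻¹ = (2 : F)⁻¹ := by rw [map_inv₀, h.sigma_two]
    set y'' := (2 : F)⁻¹ • (y + y') + z with hy''
    have hty'' : τ y'' = y'' := by
      rw [hy'', map_add, map_smulₛₗ, map_add, hty, hty', htz, hσ2]
    have hn'' : B y'' y'' = 2 := by
      simp only [hy'', map_add, map_smulₛₗ, RingHom.id_apply, map_smul, LinearMap.add_apply,
        LinearMap.smul_apply, smul_eq_mul, hy, hy', hyy', hy'y, hzy, hzy', hyz, hy'z, hzn, hσ2]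
      field_simp
      ring
    have hd1 : B (y'' - y) (y'' - y) = 2 := by
      simp only [hy'', map_add, map_sub, map_smulₛₗ, RingHom.id_apply, map_smul, LinearMap.add_apply,
        LinearMap.sub_apply, LinearMap.smul_apply, smul_eq_mul, hy, hy', hyy', hy'y, hzy, hzy', hyz, hy'z,
        hzn, hσ2]
      field_simp
      ring
    have hd2 : B (y'' - y') (y'' - y') = 2 := by
      simp only [hy'', map_add, map_sub, map_smulₛₗ, RingHom.id_apply, map_smul, LinearMap.add_apply,
        LinearMap.sub_apply, LinearMap.smul_apply, smul_eq_mul, hy, hy', hyy', hy'y, hzy, hzy', hyz, hy'z,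
        hzn, hσ2]
      field_simp
      ring
    have hzy'' : B z y'' ≠ 0 := by
      simp only [hy'', map_add, map_smul, hzy, hzy', hzn, add_zero, smul_zero, zero_add]
      exact one_ne_zero
    obtain ⟨μ'', h5⟩ := hμ y'' hty'' hn''
    rw [key0 y y'' z μ μ'' hty hty'' hy hd1 hzy hzy'' h1 h5,
      key0 y' y'' z μ' μ'' hty' hty'' hy' hd2 hzy' hzy'' h3 h5]
  have key2 : ∀ (y y' : V) (μ μ' : F), τ y = y → τ y' = y' → B y y = 2 → B y' y' = 2 →
      τ (g y) = μ • g y → τ (g y') = μ' • g y' → μ = μ' := by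
    intro y y' μ μ' hty hty' hy hy' h1 h3
    obtain ⟨z, htz, hz, hzn⟩ := h.exists_perp {y, y'} (Finset.card_le_two.trans (by omega)) (by
      intro x hx
      simp only [Finset.mem_insert, Finset.mem_singleton] at hx ⊢
      rcases hx with rfl | rfl
      · left; exact hty
      · right; exact hty') 2 h.sigma_two
    obtain ⟨μz, h5⟩ := hμ z htz hzn
    rw [key1 y z μ μz hty htz hy hzn (h.H.eq_zero_comm.1 (hz y (by simp))) h1 h5,
      key1 y' z μ' μz hty' htz hy' hzn (h.H.eq_zero_comm.1 (hz y' (by simp))) h3 h5]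
  obtain ⟨y₀, hty₀, -, hy₀⟩ := h.exists_perp ∅ (by simp) (by simp) 2 h.sigma_two
  obtain ⟨μ, hμ₀⟩ := hμ y₀ hty₀ hy₀
  have hall : ∀ y, τ y = y → B y y = 2 → τ (g y) = μ • g y := by
    intro y hty hy
    obtain ⟨μ', h1⟩ := hμ y hty hy
    rw [key2 y₀ y μ μ' hty₀ hty hy₀ hy hμ₀ h1]; exact h1
  have hrat : ∀ x, τ x = x → τ (g x) = μ • g x := by
    intro x htx
    have h4 : (4 : F) ≠ 0 := by
      have : (4 : F) = 2 * 2 := by norm_num
      rw [this]; exact mul_ne_zero h2 h2
    have hσ2 : σ (2 : F)⁻¹ = (2 : F)⁻¹ := by rw [map_inv₀, h.sigma_two]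
    obtain ⟨z, htz, hz, hzn⟩ := h.exists_perp {x} (by simp) (by
      intro w hw
      simp only [Finset.mem_singleton] at hw ⊢
      rw [hw]; exact htx) (2 - B x x / 4) (by
        rw [map_sub, map_div₀, h.sigma_two, h.norm_fixed, map_ofNat])
    have hzx : B z x = 0 := hz x (by simp)
    have hxz : B x z = 0 := h.H.eq_zero_comm.1 hzx
    have e1 := hall (z + (2 : F)⁻¹ • x) (by rw [map_add, map_smulₛₗ, htz, htx, hσ2]) (by
      simp only [map_add, map_smulₛₗ, RingHom.id_apply, map_smul, LinearMap.add_apply,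
        LinearMap.smul_apply, smul_eq_mul, hzx, hxz, hzn, hσ2]
      field_simp
      ring)
    have e2 := hall (z - (2 : F)⁻¹ • x) (by rw [map_sub, map_smulₛₗ, htz, htx, hσ2]) (by
      simp only [map_sub, map_smulₛₗ, RingHom.id_apply, map_smul, LinearMap.sub_apply,
        LinearMap.smul_apply, smul_eq_mul, hzx, hxz, hzn, hσ2]
      field_simp
      ring)
    have e3 : x = (z + (2 : F)⁻¹ • x) - (z - (2 : F)⁻¹ • x) := by
      have : (z + (2 : F)⁻¹ • x) - (z - (2 : F)⁻¹ • x) = ((2 : F)⁻¹ + (2 : F)⁻¹) • x := by module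
      rw [this]
      have : (2 : F)⁻¹ + (2 : F)⁻¹ = 1 := by field_simp; norm_num
      rw [this, one_smul]
    calc τ (g x) = τ (g ((z + (2 : F)⁻¹ • x) - (z - (2 : F)⁻¹ • x))) := by rw [← e3]
      _ = μ • g (z + (2 : F)⁻¹ • x) - μ • g (z - (2 : F)⁻¹ • x) := by rw [map_sub, map_sub, e1, e2]
      _ = μ • g ((z + (2 : F)⁻¹ • x) - (z - (2 : F)⁻¹ • x)) := by
          rw [map_sub g (z + (2 : F)⁻¹ • x), smul_sub]
      _ = μ • g x := by rw [← e3]
  apply hg
  obtain ⟨ε, hε0, hε'⟩ := h.H.exists_skew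
  have hε : σ ε = -ε := by linear_combination hε'
  refine ⟨μ, ?_, fun x => ?_⟩
  · rintro rfl
    rw [zero_smul] at hμ₀
    have : g y₀ = 0 := by
      have := congrArg τ hμ₀
      rwa [h.invol, map_zero] at this
    exact ne0 y₀ hy₀ (by simpa using this)
  · obtain ⟨a, b, ha, hb, rfl⟩ := h.exists_decomp hε0 hε x
    rw [h.tau_decomp hε ha hb, map_add, map_smul, map_add, map_smulₛₗ, hrat a ha, hrat b hb, hε, map_sub,
      map_smul]
    module

lemma rr_stab (h : RSetup σ B τ) (y z : V) (hy : B y y = 2) (hz : B z z = 2) (hty : τ y = y)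
    (htz : τ z = z) : Stab τ (h.rf y hy * h.rf z hz) := by
  refine ⟨1, one_ne_zero, fun x => ?_⟩
  rw [one_smul, LinearEquiv.mul_apply, LinearEquiv.mul_apply, h.tau_rf y hy hty, h.tau_rf z hz htz]

lemma ur_not_stab (h : RSetup σ B τ) {v : V} (hv0 : v ≠ 0) (htv : τ v = v) (hv : B v v = 0) {k : F}
    (hk0 : k ≠ 0) (hk : k + σ k + k * σ k * B v v = 0) : ¬ Stab τ (ur h.H v k hk) := by
  rintro ⟨μ, hμ0, hμ⟩
  have h2 := h.two
  have hσk : σ k = -k := by rw [hv] at hk; linear_combination hk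
  have h1 := hμ v
  rw [htv, ur_apply, hv, mul_zero, zero_smul, add_zero, htv] at h1
  have hμ1 : μ = 1 := by
    have : (μ - 1) • v = 0 := by rw [sub_smul, one_smul, ← h1, sub_self]
    rcases smul_eq_zero.1 this with h3 | h3
    · linear_combination h3
    · exact absurd h3 hv0
  obtain ⟨x, htx, hx⟩ := h.exists_rat_pair_ne hv0
  have hvx : B v x ≠ 0 := by rw [h.symm htv htx]; exact hx
  have h3 := hμ x
  rw [htx, ur_apply, map_add, map_smulₛₗ, htx, htv, map_mul, hσk, h.rat _ _ htv htx, hμ1, one_smul] at h3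
  have h4 : (2 * (k * B v x)) • v = 0 := by
    have : (2 * (k * B v x)) • v = (x + (k * B v x) • v) - (x + (-k * B v x) • v) := by module
    rw [this, h3, sub_self]
  rcases smul_eq_zero.1 h4 with h5 | h5
  · exact (mul_ne_zero h2 (mul_ne_zero hk0 hvx)) h5
  · exact hv0 h5

/-- there is a nonzero rational isotropic vector -/
lemma exists_rat_isotropic [Finite F] [FiniteDimensional F V] (h : RSetup σ B τ) :
    ∃ v, v ≠ 0 ∧ τ v = v ∧ B v v = 0 := by
  classical
  have h2 := h.two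
  obtain ⟨z₁, htz₁, -, hz₁n⟩ := h.exists_perp ∅ (by simp) (by simp) 2 h.sigma_two
  obtain ⟨z₂, htz₂, hz₂, hz₂n⟩ := h.exists_perp {z₁} (by simp) (by
    intro w hw
    simp only [Finset.mem_singleton] at hw ⊢
    rw [hw]; exact htz₁) (-2) (by rw [map_neg, h.sigma_two])
  have h21 : B z₂ z₁ = 0 := hz₂ z₁ (by simp)
  have h12 : B z₁ z₂ = 0 := h.H.eq_zero_comm.1 h21
  refine ⟨z₁ + z₂, ?_, by rw [map_add, htz₁, htz₂], ?_⟩
  · intro h0
    have : B z₁ (z₁ + z₂) = 2 := by rw [map_add, hz₁n, h12, add_zero]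
    rw [h0, map_zero] at this
    exact h2 this.symm
  · simp only [map_add, LinearMap.add_apply, h12, h21, hz₁n, hz₂n]; ring

/-- the maximality core -/
theorem core [Finite F] [FiniteDimensional F V] (h : RSetup σ B τ) (G : Subgroup (V ≃ₗ[F] V))
    (hG : ∀ φ : V ≃ₗ[F] V, UIsom B φ → LinearMap.det (φ : V →ₗ[F] V) = 1 → Stab τ φ → φ ∈ G)
    (φ0 : V ≃ₗ[F] V) (hφ0 : φ0 ∈ G) (hI : UIsom B φ0) (hS : ¬ Stab τ φ0)
    (φ : V ≃ₗ[F] V) (hφ : UIsom B φ) (hdet : LinearMap.det (φ : V →ₗ[F] V) = 1) : φ ∈ G := by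
  have hHG : h.HG G := by
    intro y z hy hz hty htz
    refine hG _ ((h.rf_isom y hy).mul (h.rf_isom z hz)) ?_ (h.rr_stab y z hy hz hty htz)
    rw [det_mul, h.rf_det, h.rf_det]; ring
  obtain ⟨ys, htys, hys, hirr⟩ := h.exists_irr φ0 hS
  obtain ⟨v, hv0, htv, hX⟩ := h.exists_X hHG hφ0 hI htys hys hirr
  have hXr : ∀ v', τ v' = v' → B v' v' = 0 → h.X G v' := fun v' => h.X_rat hHG hX hv0 htv v'
  have hdim := h.dim
  exact mem_of_sisom h.H (by omega) G (fun w k hk hw => (h.X_all hXr w hw).2 k hk) φ hφ hdet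

end RSetup

end Cfsg.Agent.Lib.Helper99
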