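import Mathlib
import Cfsg.Agent.Lib.Helper99.RatU
import Cfsg.Agent.Lib.Helper99.SubfieldGrp
import Cfsg.Agent.Lib.Helper94.HermStd

set_option autoImplicit false
set_option linter.unusedSimpArgs false
set_option linter.unusedVariables false
set_option linter.unusedSectionVars false

/-! The subfield subgroup (index two subfield) as the stabiliser of a semilinear involution. -/

namespace Cfsg.Agent.Lib.Helper99

open Matrix Module
open Cfsg.Agent.Lib.Helper94 Cfsg.Agent.Lib.Helper94.U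
open Cfsg.Agent.Lib.Helper13 (frobQ frobQ_apply frobQ_ne_id pow_q_pow_q add_pow_q sum_pow_q two_le_of_card_sq)

variable {F : Type*} [Field F] [Fintype F] {n q : ℕ}

lemma frob_mulVec (hF : Fintype.card F = q ^ 2) (F₀ : Subfield F)
    (hcard : Fintype.card F = Nat.card F₀ ^ 2) (A : Matrix (Fin n) (Fin n) F) (hA : ∀ i j, A i j ∈ F₀)
    (u : Fin n → F) : (fun i => (A *ᵥ u) i ^ q) = A *ᵥ (fun i => u i ^ q) := by
  funext i
  simp only [Matrix.mulVec, dotProduct]
  rw [sum_pow_q hF]
  refine Finset.sum_congr rfl fun j _ => ?_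
  rw [mul_pow, (mem_subfield_iff hF F₀ hcard _).1 (hA i j)]

theorem mem_subfieldSubgroup_iff_stab (hF : Fintype.card F = q ^ 2) (hn : 0 < n) (F₀ : Subfield F)
    (hcard : Fintype.card F = Nat.card F₀ ^ 2) (P g : Matrix.GeneralLinearGroup (Fin n) F) :
    g ∈ Cfsg.Geo.subfieldSubgroup F₀ P ↔ Stab (tauP hF P) (glEquiv _ F g) := by
  rw [mem_subfieldSubgroup_iff]
  have hconj : ∀ (c : F) (u : Fin n → F), (P : Matrix (Fin n) (Fin n) F) *ᵥ
      ((c • (((P⁻¹ * g * P : Matrix.GeneralLinearGroup (Fin n) F)) : Matrix (Fin n) (Fin n) F)) *ᵥ u) =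
      c • ((g : Matrix (Fin n) (Fin n) F) *ᵥ ((P : Matrix (Fin n) (Fin n) F) *ᵥ u)) := by
    intro c u
    rw [Matrix.smul_mulVec, Matrix.mulVec_smul, Matrix.mulVec_mulVec, Matrix.mulVec_mulVec, ← Units.val_mul,
      ← Units.val_mul]
    congr 3
    group
  constructor
  · rintro ⟨c, hc0, hc⟩
    have hcq : c ^ q ≠ 0 := pow_ne_zero _ hc0
    refine ⟨c / c ^ q, div_ne_zero hc0 hcq, fun x => ?_⟩
    obtain ⟨u, rfl⟩ : ∃ u, x = (P : Matrix (Fin n) (Fin n) F) *ᵥ u := ⟨_, (mulVec_inv_mulVec P x).symm⟩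
    have h1 : ∀ w : Fin n → F, (g : Matrix (Fin n) (Fin n) F) *ᵥ ((P : Matrix (Fin n) (Fin n) F) *ᵥ w) =
        c⁻¹ • ((P : Matrix (Fin n) (Fin n) F) *ᵥ
      ((c • (((P⁻¹ * g * P : Matrix.GeneralLinearGroup (Fin n) F)) : Matrix (Fin n) (Fin n) F)) *ᵥ w)) := by
      intro w
      rw [hconj, smul_smul, inv_mul_cancel₀ hc0, one_smul]
    rw [glEquiv_apply, glEquiv_apply, tauP_mulVec, h1, h1, map_smulₛₗ, tauP_mulVec,
      frob_mulVec hF F₀ hcard _ hc, smul_smul, frobQ_apply]
    congr 1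
    rw [inv_pow]
    field_simp
  · rintro ⟨μ, hμ0, hμ⟩
    set φ := glEquiv _ F g with hφ
    set τ := tauP hF P with hτ
    have hN : μ * frobQ hF μ = 1 := by
      set x : Fin n → F := Pi.single ⟨0, hn⟩ 1 with hx
      have hx0 : φ x ≠ 0 := by
        intro h0
        have : x = 0 := (LinearEquiv.map_eq_zero_iff φ).1 h0
        have h1 := congrFun this ⟨0, hn⟩
        simp [hx] at h1
      have h1 : τ (τ (φ x)) = φ x := tauP_invol hF P _
      rw [hμ x, map_smulₛₗ, hμ, tauP_invol hF P, smul_smul] at h1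
      have h3 : (frobQ hF μ * μ - 1) • φ x = 0 := by rw [sub_smul, one_smul, h1, sub_self]
      rcases smul_eq_zero.1 h3 with h4 | h4
      · linear_combination h4
      · exact absurd h4 hx0
    obtain ⟨d, hd0, hd⟩ := Cfsg.Agent.Lib.Helper13.hilbert90 (frobQ hF) (frobQ_ne_id hF)
      (fun a => pow_q_pow_q hF a) μ hN
    refine ⟨d, hd0, fun i j => ?_⟩
    rw [mem_subfield_iff hF F₀ hcard]
    set A : Matrix (Fin n) (Fin n) F :=
      d • (((P⁻¹ * g * P : Matrix.GeneralLinearGroup (Fin n) F)) : Matrix (Fin n) (Fin n) F) with hA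
    set u : Fin n → F := Pi.single j 1 with hu
    have hfu : (fun i => u i ^ q) = u := by
      funext i
      have hq := two_le_of_card_sq hF
      by_cases hij : i = j
      · subst hij; simp [hu]
      · simp [hu, hij]; omega
    have h1 : τ ((P : Matrix (Fin n) (Fin n) F) *ᵥ (A *ᵥ u)) = (P : Matrix (Fin n) (Fin n) F) *ᵥ (A *ᵥ u) := by
      rw [hA, hconj, map_smulₛₗ, ← glEquiv_apply, ← hφ, hμ, hτ, tauP_mulVec, hfu, smul_smul, mul_comm, ← hd]
    rw [hτ, tauP_mulVec] at h1
    have h3 := congrFun (mulVec_injective P h1) i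
    have h4 : (A *ᵥ u) i = A i j := by
      rw [hu, Matrix.mulVec_single_one]; rfl
    rw [h4] at h3
    exact h3

/-- the abstract setup attached to a form-rational structure -/
theorem rsetup_of_rational (hF : Fintype.card F = q ^ 2) (hn : 13 ≤ n) (hodd : Odd q) (F₀ : Subfield F)
    (hcard : Fintype.card F = Nat.card F₀ ^ 2) (P : Matrix.GeneralLinearGroup (Fin n) F)
    (hP : Cfsg.Geo.IsFormRationalStructure (Cfsg.hermForm n F q) F₀ 1 P) :
    RSetup (frobQ hF) (stdB n hF) (tauP hF P) where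
  H := stdB_hform hF
  two := by
    intro h0
    have hchar : ringChar F = 2 := by
      have : ringChar F ∣ 2 := by
        rw [← ringChar.spec]
        exact_mod_cast h0
      rcases (Nat.dvd_prime Nat.prime_two).1 this with h1 | h1
      · exact absurd h1 (CharP.ringChar_ne_one)
      · exact h1
    have := FiniteField.even_card_of_char_two hchar
    rw [hF] at this
    have h3 : Odd (q ^ 2) := hodd.pow
    rw [Nat.odd_iff] at h3
    omega
  invol := tauP_invol hF P
  rat := by
    intro x y hx hy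
    obtain ⟨u, hu, rfl⟩ := (tauP_eq_self_iff hF F₀ hcard P x).1 hx
    obtain ⟨w, hw, rfl⟩ := (tauP_eq_self_iff hF F₀ hcard P y).1 hy
    have := hP w u hw hu
    rw [one_mul, mem_subfield_iff hF F₀ hcard] at this
    rw [stdB_apply, frobQ_apply]
    exact this
  rep := by
    intro a b c ha hb hc ha0 hb0
    classical
    have hq : Nat.card F₀ = q := card_subfield_eq hF F₀ hcard
    have : Fintype F₀ := Fintype.ofFinite _
    have hcq : Fintype.card F₀ % 2 = 1 := by
      rw [← Nat.card_eq_fintype_card, hq]; exact Nat.odd_iff.1 hodd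
    have ha' : a ∈ F₀ := (mem_subfield_iff hF F₀ hcard a).2 ha
    have hb' : b ∈ F₀ := (mem_subfield_iff hF F₀ hcard b).2 hb
    have hc' : c ∈ F₀ := (mem_subfield_iff hF F₀ hcard c).2 hc
    have ha0' : (⟨a, ha'⟩ : F₀) ≠ 0 := by
      intro h; exact ha0 (congrArg Subtype.val h)
    have hb0' : (⟨b, hb'⟩ : F₀) ≠ 0 := by
      intro h; exact hb0 (congrArg Subtype.val h)
    open Polynomial in
    have hf : degree (C (⟨a, ha'⟩ : F₀) * X ^ 2 : F₀[X]) = 2 := degree_C_mul_X_pow 2 ha0'
    open Polynomial in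
    have hg : degree (C (⟨b, hb'⟩ : F₀) * X ^ 2 - C (⟨c, hc'⟩ : F₀) : F₀[X]) = 2 := by
      rw [degree_sub_C, degree_C_mul_X_pow 2 hb0']
      · rfl
      · rw [degree_C_mul_X_pow 2 hb0']; norm_num
    obtain ⟨x, y, hxy⟩ := FiniteField.exists_root_sum_quadratic hf hg hcq
    refine ⟨x, y, (mem_subfield_iff hF F₀ hcard _).1 x.2, (mem_subfield_iff hF F₀ hcard _).1 y.2, ?_⟩
    simp at hxy
    have := congrArg Subtype.val hxy
    simp at this
    linear_combination this
  dim := by
    rw [Module.finrank_fintype_fun_eq_card, Fintype.card_fin]; exact hn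

end Cfsg.Agent.Lib.Helper99
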