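import Mathlib
import Cfsg.Agent.Lib.Helper94.Symp
import Cfsg.Agent.Lib.Helper99.Orth
import Cfsg.Agent.S5644

set_option autoImplicit false
set_option linter.unusedSimpArgs false
set_option linter.unusedVariables false

/-! A symplectic space with a skew-adjoint `J`, `J² = d` a non-square: the unitary group over the quadratic
extension is (up to index two) maximal in the symplectic group. -/

namespace Cfsg.Agent.Lib.Helper99

open LinearMap (BilinForm)
open Module
open Cfsg.Agent.Lib.Helper94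

variable {F V : Type*} [Field F] [AddCommGroup V] [Module F V]

structure JSetup (B : BilinForm F V) (J : V →ₗ[F] V) (d : F) : Prop where
  alt : B.IsAlt
  nondeg : B.Nondegenerate
  two : (2 : F) ≠ 0
  sq : ∀ x, J (J x) = d • x
  adj : ∀ x y, B (J x) y = - B x (J y)
  nsq : ∀ a b : F, a ^ 2 = d * b ^ 2 → b = 0
  rep : ∀ a b c : F, a ≠ 0 → b ≠ 0 → ∃ x y : F, a * x ^ 2 + b * y ^ 2 = c
  dim : 13 ≤ finrank F V

/-- the symmetric form `B x (J y)` -/
def sF (B : BilinForm F V) (J : V →ₗ[F] V) : BilinForm F V := B.compRight J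

/-- the quadratic form `B x (J x) / 2` -/
def qF (B : BilinForm F V) (J : V →ₗ[F] V) (x : V) : F := B x (J x) / 2

lemma sF_apply (B : BilinForm F V) (J : V →ₗ[F] V) (x y : V) : sF B J x y = B x (J y) := rfl

variable {B : BilinForm F V} {J : V →ₗ[F] V} {d : F}

namespace JSetup

lemma d_ne (h : JSetup B J d) : d ≠ 0 := by
  rintro rfl
  have := h.nsq 0 1 (by ring)
  exact one_ne_zero this

lemma swap (h : JSetup B J d) (x y : V) : B x y = - B y x := alt_swap h.alt x y

lemma self (h : JSetup B J d) (x : V) : B x x = 0 := h.alt x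

lemma ssymm (h : JSetup B J d) (x y : V) : B x (J y) = B y (J x) := by
  rw [h.swap y (J x), h.adj, neg_neg]

lemma BJJ (h : JSetup B J d) (x y : V) : B (J x) (J y) = - (d * B x y) := by
  rw [h.adj, h.sq, map_smul, smul_eq_mul]

lemma BJself (h : JSetup B J d) (x : V) : B (J x) x = - B x (J x) := h.adj x x

lemma B_comb (h : JSetup B J d) (y₁ y₂ : V) (p q r s : F) :
    B (p • y₂ + q • J y₂) (r • y₁ + s • J y₁) =
      (p * r - d * q * s) * B y₂ y₁ + (p * s - q * r) * B y₂ (J y₁) := by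
  simp only [map_add, map_smul, LinearMap.add_apply, LinearMap.smul_apply, smul_eq_mul, h.BJJ, h.adj y₂ y₁]
  ring

lemma nrm_ne (h : JSetup B J d) {a b : F} (hab : a ≠ 0 ∨ b ≠ 0) : a ^ 2 - d * b ^ 2 ≠ 0 := by
  intro h0
  have hb : b = 0 := h.nsq a b (by linear_combination h0)
  rw [hb] at h0
  have ha : a = 0 := by
    have : a ^ 2 = 0 := by linear_combination h0
    exact pow_eq_zero_iff (two_ne_zero) |>.1 this
  rcases hab with h1 | h1
  · exact h1 ha
  · exact h1 hb

lemma os (h : JSetup B J d) : OSetup (sF B J) (qF B J) where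
  nondeg := by
    have hd := h.d_ne
    constructor
    · intro x hx
      apply h.nondeg.1
      intro y
      have := hx (d⁻¹ • J y)
      rw [sF_apply, map_smul, h.sq, smul_smul, inv_mul_cancel₀ hd, one_smul] at this
      exact this
    · intro y hy
      have h1 : J y = 0 := by
        apply h.nondeg.2
        intro x
        exact hy x
      have h2 := h.sq y
      rw [h1, map_zero] at h2
      rcases smul_eq_zero.1 h2.symm with h3 | h3
      · exact absurd h3 hd
      · exact h3
  smul := by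
    intro c v
    unfold qF
    simp only [map_smul, LinearMap.smul_apply, smul_eq_mul]
    ring
  add := by
    intro u v
    have h2 := h.two
    unfold qF
    rw [sF_apply]
    simp only [map_add, LinearMap.add_apply]
    rw [h.ssymm v u]
    field_simp
    ring
  two := h.two
  rep := h.rep
  dim := h.dim

lemma qF_eq_zero_iff (h : JSetup B J d) (x : V) : qF B J x = 0 ↔ B x (J x) = 0 := by
  unfold qF
  rw [div_eq_zero_iff]
  constructor
  · rintro (h1 | h1)
    · exact h1
    · exact absurd h1 h.two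
  · intro h1; exact Or.inl h1

/-- existence lemma in terms of `B` and `J` -/
lemma exists_perp [FiniteDimensional F V] (h : JSetup B J d) (s : Finset V) (hs : s.card ≤ 5) (γ : F) :
    ∃ z, (∀ x ∈ s, B z (J x) = 0) ∧ B z (J z) = γ := by
  obtain ⟨z, hz, hq⟩ := h.os.exists_perp s hs (γ / 2)
  refine ⟨z, hz, ?_⟩
  unfold qF at hq
  have h2 := h.two
  field_simp at hq
  exact hq

lemma perp_of_J (h : JSetup B J d) {z x : V} (hz : B z (J (J x)) = 0) : B z x = 0 := by
  rw [h.sq, map_smul, smul_eq_mul] at hz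
  rcases mul_eq_zero.1 hz with h1 | h1
  · exact absurd h1 h.d_ne
  · exact h1

/-! ### the involutions `rho` -/

end JSetup

/-- `x ↦ x - 2 B(x,a) w + 2 B(x,w) a` -/
noncomputable def rhoL (B : BilinForm F V) (w a : V) : V →ₗ[F] V :=
  LinearMap.id - (2 : F) • (B.flip a).smulRight w + (2 : F) • (B.flip w).smulRight a

lemma rhoL_apply (B : BilinForm F V) (w a x : V) :
    rhoL B w a x = x - (2 * B x a) • w + (2 * B x w) • a := by
  simp only [rhoL, LinearMap.add_apply, LinearMap.sub_apply, LinearMap.id_apply, LinearMap.smul_apply,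
    LinearMap.smulRight_apply, LinearMap.BilinForm.flip_apply, smul_smul]

namespace JSetup

lemma rhoL_invol (h : JSetup B J d) (w a : V) (hwa : B w a = 1) : Function.Involutive (rhoL B w a) := by
  intro x
  have haw : B a w = -1 := by rw [h.swap, hwa]
  simp only [rhoL_apply, map_add, map_sub, map_smul, LinearMap.add_apply, LinearMap.sub_apply,
    LinearMap.smul_apply, smul_eq_mul, hwa, haw, h.self]
  module

/-- minus the identity on the hyperbolic plane `⟨w, a⟩`, the identity on its orthogonal complement -/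
noncomputable def rho (h : JSetup B J d) (w a : V) (hwa : B w a = 1) : V ≃ₗ[F] V :=
  LinearEquiv.ofInvolutive (rhoL B w a) (h.rhoL_invol w a hwa)

lemma rho_apply (h : JSetup B J d) (w a : V) (hwa : B w a = 1) (x : V) :
    h.rho w a hwa x = x - (2 * B x a) • w + (2 * B x w) • a := rhoL_apply B w a x

lemma rho_isIsom (h : JSetup B J d) (w a : V) (hwa : B w a = 1) : IsIsom B (h.rho w a hwa) := by
  intro x y
  have haw : B a w = -1 := by rw [h.swap, hwa]
  simp only [rho_apply, map_add, map_sub, map_smul, LinearMap.add_apply, LinearMap.sub_apply,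
    LinearMap.smul_apply, smul_eq_mul, hwa, haw, h.self]
  rw [h.swap w y, h.swap a y]
  ring

lemma rho_mul_self (h : JSetup B J d) (w a : V) (hwa : B w a = 1) : h.rho w a hwa * h.rho w a hwa = 1 := by
  ext x
  exact h.rhoL_invol w a hwa x

lemma rho_inv (h : JSetup B J d) (w a : V) (hwa : B w a = 1) : (h.rho w a hwa)⁻¹ = h.rho w a hwa :=
  inv_eq_of_mul_eq_one_left (h.rho_mul_self w a hwa)

lemma conj_rho (h : JSetup B J d) {g : V ≃ₗ[F] V} (hg : IsIsom B g) (w a : V) (hwa : B w a = 1) :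
    g * h.rho w a hwa * g⁻¹ = h.rho (g w) (g a) (by rw [hg]; exact hwa) := by
  ext x
  have e1 : B (g⁻¹ x) a = B x (g a) := by rw [← hg (g⁻¹ x) a, apply_inv_self']
  have e2 : B (g⁻¹ x) w = B x (g w) := by rw [← hg (g⁻¹ x) w, apply_inv_self']
  simp only [LinearEquiv.mul_apply, rho_apply, map_add, map_sub, map_smul, apply_inv_self', e1, e2]

lemma rho_congr (h : JSetup B J d) {w a a' : V} (haa : a = a') (hwa : B w a = 1) (hwa' : B w a' = 1) :
    h.rho w a hwa = h.rho w a' hwa' := by
  subst haa; rfl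

/-- product of two such involutions sharing the vector `w` -/
noncomputable def rr (h : JSetup B J d) (w a a₂ : V) (hwa : B w a = 1) (hwa₂ : B w a₂ = 1) : V ≃ₗ[F] V :=
  h.rho w a hwa * h.rho w a₂ hwa₂

lemma rr_apply (h : JSetup B J d) (w a a₂ : V) (hwa : B w a = 1) (hwa₂ : B w a₂ = 1) (x : V) :
    h.rr w a a₂ hwa hwa₂ x = x + (2 * B x (a₂ - a)) • w + (2 * B x w) • (a₂ - a)
      - (4 * B a₂ a * B x w) • w := by
  have haw : B a w = -1 := by rw [h.swap, hwa]
  have haw₂ : B a₂ w = -1 := by rw [h.swap, hwa₂]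
  unfold rr
  simp only [LinearEquiv.mul_apply, rho_apply, map_add, map_sub, map_smul, LinearMap.add_apply,
    LinearMap.sub_apply, LinearMap.smul_apply, smul_eq_mul, hwa, hwa₂, haw, haw₂, h.self]
  module

lemma rr_comm (h : JSetup B J d) (w a a₁ a₂ : V) (hwa : B w a = 1) (hwa₁ : B w a₁ = 1)
    (hwa₂ : B w a₂ = 1) :
    h.rr w a a₁ hwa hwa₁ * h.rr w a a₂ hwa hwa₂ =
      st B h.alt w (8 * B (a₂ - a) (a₁ - a)) * (h.rr w a a₂ hwa hwa₂ * h.rr w a a₁ hwa hwa₁) := by
  have haw : B a w = -1 := by rw [h.swap, hwa]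
  have haw₁ : B a₁ w = -1 := by rw [h.swap, hwa₁]
  have haw₂ : B a₂ w = -1 := by rw [h.swap, hwa₂]
  ext x
  simp only [LinearEquiv.mul_apply, rr_apply, st_apply, map_add, map_sub, map_smul, LinearMap.add_apply,
    LinearMap.sub_apply, LinearMap.smul_apply, smul_eq_mul, hwa, hwa₁, hwa₂, haw, haw₁, haw₂, h.self]
  rw [h.swap a a₁, h.swap a a₂, h.swap a₁ a₂]
  module


lemma rho_congr2 (h : JSetup B J d) {w w' a a' : V} (hww : w = w') (haa : a = a') (hwa : B w a = 1)
    (hwa' : B w' a' = 1) : h.rho w a hwa = h.rho w' a' hwa' := by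
  subst hww; subst haa; rfl

/-! ### the reflections of the unitary group -/

lemma kr_cond (h : JSetup B J d) {y : V} (hy : B y (J y) ≠ 0) : B y ((B y (J y))⁻¹ • J y) = 1 := by
  rw [map_smul, smul_eq_mul, inv_mul_cancel₀ hy]

/-- minus the identity on `⟨y, J y⟩` -/
noncomputable def kr (h : JSetup B J d) (y : V) (hy : B y (J y) ≠ 0) : V ≃ₗ[F] V :=
  h.rho y ((B y (J y))⁻¹ • J y) (h.kr_cond hy)

lemma kr_apply (h : JSetup B J d) (y : V) (hy : B y (J y) ≠ 0) (x : V) :
    h.kr y hy x = x - (2 * B x (J y) / B y (J y)) • y + (2 * B x y / B y (J y)) • J y := by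
  unfold kr
  rw [rho_apply, map_smul, smul_eq_mul, smul_smul]
  congr 2
  · congr 1; field_simp
  · field_simp

lemma kr_isIsom (h : JSetup B J d) (y : V) (hy : B y (J y) ≠ 0) : IsIsom B (h.kr y hy) :=
  h.rho_isIsom _ _ _

lemma kr_inv (h : JSetup B J d) (y : V) (hy : B y (J y) ≠ 0) : (h.kr y hy)⁻¹ = h.kr y hy :=
  h.rho_inv _ _ _

lemma kr_comm_J (h : JSetup B J d) (y : V) (hy : B y (J y) ≠ 0) (x : V) :
    h.kr y hy (J x) = J (h.kr y hy x) := by
  simp only [kr_apply, map_add, map_sub, map_smul, h.sq, h.BJJ, h.adj x y, smul_smul]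
  have e1 : 2 * -(d * B x y) / B y (J y) = -(2 * B x y / B y (J y) * d) := by ring
  have e2 : 2 * -B x (J y) / B y (J y) = -(2 * B x (J y) / B y (J y)) := by ring
  rw [e1, e2]
  module

lemma kr_fix (h : JSetup B J d) (y : V) (hy : B y (J y) ≠ 0) {x : V} (h1 : B x y = 0) (h2 : B x (J y) = 0) :
    h.kr y hy x = x := by
  rw [kr_apply, h1, h2]; simp

end JSetup

/-- `G` contains the isometries commuting with `J` -/
def HGJ (B : BilinForm F V) (J : V →ₗ[F] V) (G : Subgroup (V ≃ₗ[F] V)) : Prop :=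
  ∀ φ : V ≃ₗ[F] V, IsIsom B φ → (∀ x, φ (J x) = J (φ x)) → φ ∈ G

namespace JSetup

lemma kr_mem (h : JSetup B J d) {G : Subgroup (V ≃ₗ[F] V)} (hG : HGJ B J G) (y : V) (hy : B y (J y) ≠ 0) :
    h.kr y hy ∈ G := hG _ (h.kr_isIsom y hy) (h.kr_comm_J y hy)

/-- the first transvections -/
lemma first_tv [FiniteDimensional F V] (h : JSetup B J d) {G : Subgroup (V ≃ₗ[F] V)} (hG : HGJ B J G)
    {g : V ≃ₗ[F] V} (hg : g ∈ G) (hgI : IsIsom B g) {w : V} (hw : B w (J w) = 0)
    (hgw : B (g w) (J (g w)) ≠ 0) : w ∈ tvSet B h.alt G := by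
  classical
  intro c
  by_cases hc : c = 0
  · have : st B h.alt w c = 1 := by
      ext x; simp [st_apply, hc]
    rw [this]; exact G.one_mem
  have hd := h.d_ne
  have h2 := h.two
  set a' := g⁻¹ ((B (g w) (J (g w)))⁻¹ • J (g w)) with ha'
  have hwa' : B w a' = 1 := by
    rw [ha', ← hgI w, apply_inv_self', map_smul, smul_eq_mul, inv_mul_cancel₀ hgw]
  have hρG : h.rho w a' hwa' ∈ G := by
    have e := h.conj_rho hgI.inv (g w) ((B (g w) (J (g w)))⁻¹ • J (g w)) (h.kr_cond hgw)
    have e2 : h.rho (g⁻¹ (g w)) (g⁻¹ ((B (g w) (J (g w)))⁻¹ • J (g w)))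
        (by rw [hgI.inv]; exact h.kr_cond hgw) = h.rho w a' hwa' :=
      h.rho_congr2 (inv_apply_self' g w) rfl _ _
    rw [← e2, ← e]
    exact G.mul_mem (G.mul_mem (G.inv_mem hg) (h.kr_mem hG (g w) hgw)) (G.inv_mem (G.inv_mem hg))
  clear_value a'
  have ha'w : B a' w = -1 := by rw [h.swap, hwa']
  set α := B a' (J w) with hα
  have hαd : α ^ 2 - d ≠ 0 := by
    have := h.nrm_ne (a := α) (b := 1) (Or.inr one_ne_zero)
    simpa using this
  set n₁ : F := 32 * (α ^ 2 - d) / (d * c) with hn₁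
  have hn₁0 : n₁ ≠ 0 := by
    rw [hn₁]
    have h32 : (32 : F) ≠ 0 := by
      have : (32 : F) = 2 ^ 5 := by norm_num
      rw [this]; exact pow_ne_zero 5 h2
    exact div_ne_zero (mul_ne_zero h32 hαd) (mul_ne_zero hd hc)
  obtain ⟨z, hz, hzn⟩ := h.exists_perp {w, J w, a', J a'} (Finset.card_le_four.trans (by omega)) n₁
  have hzJw : B z (J w) = 0 := hz w (by simp)
  have hzw : B z w = 0 := h.perp_of_J (hz (J w) (by simp))
  have hzJa : B z (J a') = 0 := hz a' (by simp)
  have hza : B z a' = 0 := h.perp_of_J (hz (J a') (by simp))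
  have hwz : B w z = 0 := by rw [h.swap, hzw, neg_zero]
  have hwJz : B w (J z) = 0 := by rw [h.ssymm, hzJw]
  have haz : B a' z = 0 := by rw [h.swap, hza, neg_zero]
  have haJz : B a' (J z) = 0 := by rw [h.ssymm, hzJa]
  have hJzw : B (J z) w = 0 := by rw [h.adj, hzJw, neg_zero]
  have hJzz : B (J z) z = -n₁ := by rw [h.adj, hzn]
  -- the two reflection vectors
  have hν₁ : B (w + z) (J (w + z)) = n₁ := by
    simp only [map_add, LinearMap.add_apply, hw, hwJz, hzJw, hzn]; ring
  have hν₂ : B (w + J z) (J (w + J z)) = -(d * n₁) := by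
    simp only [map_add, LinearMap.add_apply, hw, h.sq, map_smul, smul_eq_mul, hwz, h.BJJ, hzw, hJzz]; ring
  have hν₁0 : B (w + z) (J (w + z)) ≠ 0 := by rw [hν₁]; exact hn₁0
  have hν₂0 : B (w + J z) (J (w + J z)) ≠ 0 := by rw [hν₂]; exact neg_ne_zero.2 (mul_ne_zero hd hn₁0)
  have hfix₁ : h.kr (w + z) hν₁0 w = w := by
    apply h.kr_fix
    · rw [map_add, h.self, hwz, add_zero]
    · rw [map_add, map_add, hw, hwJz, add_zero]
  have hfix₂ : h.kr (w + J z) hν₂0 w = w := by
    apply h.kr_fix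
    · rw [map_add, h.self, hwJz, add_zero]
    · rw [map_add, map_add, hw, h.sq, map_smul, hwz, smul_zero, add_zero]
  have key : ∀ (y : V) (hy : B y (J y) ≠ 0), h.kr y hy w = w →
      ∃ hh : B w (h.kr y hy a') = 1, h.rr w a' (h.kr y hy a') hwa' hh ∈ G := by
    intro y hy hfix
    have hh : B w (h.kr y hy a') = 1 := by
      conv_lhs => rw [← hfix]
      rw [h.kr_isIsom y hy, hwa']
    refine ⟨hh, ?_⟩
    unfold rr
    refine G.mul_mem hρG ?_
    have e := h.conj_rho (h.kr_isIsom y hy) w a' hwa'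
    have e2 : h.rho (h.kr y hy w) (h.kr y hy a') (by rw [h.kr_isIsom y hy]; exact hwa') =
        h.rho w (h.kr y hy a') hh := h.rho_congr2 hfix rfl _ _
    rw [← e2, ← e]
    exact G.mul_mem (G.mul_mem (h.kr_mem hG y hy) hρG) (G.inv_mem (h.kr_mem hG y hy))
  obtain ⟨hh₁, hE₁⟩ := key _ hν₁0 hfix₁
  obtain ⟨hh₂, hE₂⟩ := key _ hν₂0 hfix₂
  have hcomm := h.rr_comm w a' _ _ hwa' hh₁ hh₂
  have e1 : h.kr (w + z) hν₁0 a' - a' = -(2 * α / n₁) • (w + z) - (2 / n₁) • J (w + z) := by
    rw [kr_apply, hν₁]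
    have t1 : B a' (J (w + z)) = α := by rw [map_add, map_add, haJz, add_zero]
    have t2 : B a' (w + z) = -1 := by rw [map_add, ha'w, haz, add_zero]
    rw [t1, t2]
    have : 2 * (-1 : F) / n₁ = -(2 / n₁) := by ring
    rw [this]
    module
  have e2 : h.kr (w + J z) hν₂0 a' - a' = (2 * α / (d * n₁)) • (w + J z) + (2 / (d * n₁)) • J (w + J z) := by
    rw [kr_apply, hν₂]
    have t1 : B a' (J (w + J z)) = α := by
      rw [map_add, map_add, h.sq, map_smul, haz, smul_zero, add_zero]
    have t2 : B a' (w + J z) = -1 := by rw [map_add, ha'w, haJz, add_zero]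
    rw [t1, t2]
    have t3 : 2 * α / -(d * n₁) = -(2 * α / (d * n₁)) := by rw [div_neg]
    have t4 : 2 * (-1 : F) / -(d * n₁) = 2 / (d * n₁) := by rw [mul_neg, neg_div_neg_eq, mul_one]
    rw [t3, t4]
    module
  have hB21 : B (w + J z) (w + z) = -n₁ := by
    simp only [map_add, LinearMap.add_apply, h.self, hwz, hJzw, hJzz]; ring
  have hval : 8 * B (h.kr (w + J z) hν₂0 a' - a') (h.kr (w + z) hν₁0 a' - a') = c := by
    have hrel : n₁ * (d * c) = 32 * (α ^ 2 - d) := by
      rw [hn₁]; field_simp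
    clear_value n₁
    rw [e1, e2, sub_eq_add_neg, ← neg_smul, h.B_comb, hB21]
    field_simp
    linear_combination (-n₁) * hrel
  rw [hval] at hcomm
  have : st B h.alt w c = (h.rr w a' _ hwa' hh₁ * h.rr w a' _ hwa' hh₂) *
      (h.rr w a' _ hwa' hh₂ * h.rr w a' _ hwa' hh₁)⁻¹ := by
    rw [hcomm]; group
  rw [this]
  exact G.mul_mem (G.mul_mem hE₁ hE₂) (G.inv_mem (G.mul_mem hE₂ hE₁))


/-! ### spreading over the isotropic vectors -/

lemma iso_step1 (h : JSetup B J d) {G : Subgroup (V ≃ₗ[F] V)} (hG : HGJ B J G) {w v : V}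
    (hX : w ∈ tvSet B h.alt G) (hw : B w (J w) = 0) (hv : B v (J v) = 0) (h0 : B w v = 0)
    (hne : B w (J v) ≠ 0) : v ∈ tvSet B h.alt G := by
  have h2 := h.two
  have hν : B (w - v) (J (w - v)) = -(2 * B w (J v)) := by
    simp only [map_sub, LinearMap.sub_apply, hw, hv, h.ssymm v w]; ring
  have hν0 : B (w - v) (J (w - v)) ≠ 0 := by
    rw [hν]; exact neg_ne_zero.2 (mul_ne_zero h2 hne)
  have := tvSet_map hX (h.kr_mem hG _ hν0) (h.kr_isIsom _ hν0)
  have e : h.kr (w - v) hν0 w = v := by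
    rw [kr_apply, hν]
    have t1 : B w (J (w - v)) = - B w (J v) := by rw [map_sub, map_sub, hw, zero_sub]
    have t2 : B w (w - v) = 0 := by rw [map_sub, h.self, h0, sub_zero]
    rw [t1, t2]
    have t3 : 2 * -B w (J v) / -(2 * B w (J v)) = 1 := by field_simp
    rw [t3]
    simp
  rwa [e] at this

lemma iso_step2 [FiniteDimensional F V] (h : JSetup B J d) {G : Subgroup (V ≃ₗ[F] V)} (hG : HGJ B J G)
    {w v : V} (hX : w ∈ tvSet B h.alt G) (hw : B w (J w) = 0) (hv : B v (J v) = 0)
    (hne : B w (J v) ≠ 0 ∨ B w v ≠ 0) : v ∈ tvSet B h.alt G := by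
  classical
  set α := B w (J v) with hα
  set β := B w v with hβ
  have hN : α ^ 2 - d * β ^ 2 ≠ 0 := h.nrm_ne hne
  set p := α • w + β • J w + α • v - β • J v with hp
  obtain ⟨z, hz, hzn⟩ := h.exists_perp {w, J w, v, J v} (Finset.card_le_four.trans (by omega)) (-(B p (J p)))
  have hzJw : B z (J w) = 0 := hz w (by simp)
  have hzJJw : B z (J (J w)) = 0 := hz (J w) (by simp)
  have hzw : B z w = 0 := h.perp_of_J hzJJw
  have hzJv : B z (J v) = 0 := hz v (by simp)
  have hzJJv : B z (J (J v)) = 0 := hz (J v) (by simp)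
  have hzv : B z v = 0 := h.perp_of_J hzJJv
  have hzJp : B z (J p) = 0 := by
    simp only [hp, map_add, map_sub, map_smul, hzJw, hzJJw, hzJv, hzJJv, smul_zero, add_zero, sub_zero]
  have hpJz : B p (J z) = 0 := by rw [h.ssymm, hzJp]
  have hwz : B w z = 0 := by rw [h.swap, hzw, neg_zero]
  have hwJz : B w (J z) = 0 := by rw [h.ssymm, hzJw]
  have hvw : B v w = -β := by rw [h.swap]
  have hvJw : B v (J w) = α := by rw [h.ssymm]
  have h1 : B (p + z) (J (p + z)) = 0 := by
    simp only [map_add, LinearMap.add_apply, hzJp, hpJz, hzn]; ring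
  have h3 : B w (p + z) = 0 := by
    rw [map_add, hwz, add_zero, hp]
    simp only [map_add, map_sub, map_smul, smul_eq_mul, h.self, hw, ← hα, ← hβ]
    ring
  have h4 : B w (J (p + z)) = α ^ 2 - d * β ^ 2 := by
    rw [map_add, map_add, hwJz, add_zero, hp]
    simp only [map_add, map_sub, map_smul, smul_eq_mul, h.sq, h.self, hw, ← hα, ← hβ]
    ring
  have h5 : B (p + z) v = 0 := by
    rw [map_add, LinearMap.add_apply, hzv, add_zero, hp]
    simp only [map_add, map_sub, map_smul, LinearMap.add_apply, LinearMap.sub_apply, LinearMap.smul_apply,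
      smul_eq_mul, h.self, h.adj, hv, ← hα, ← hβ]
    ring
  have h6 : B (p + z) (J v) = α ^ 2 - d * β ^ 2 := by
    rw [map_add, LinearMap.add_apply, hzJv, add_zero, hp]
    simp only [map_add, map_sub, map_smul, LinearMap.add_apply, LinearMap.sub_apply, LinearMap.smul_apply,
      smul_eq_mul, h.self, h.BJJ, hv, ← hα, ← hβ]
    ring
  exact h.iso_step1 hG (h.iso_step1 hG hX hw h1 h3 (by rw [h4]; exact hN)) h1 hv h5 (by rw [h6]; exact hN)

lemma iso_all [FiniteDimensional F V] (h : JSetup B J d) {G : Subgroup (V ≃ₗ[F] V)} (hG : HGJ B J G)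
    {w : V} (hX : w ∈ tvSet B h.alt G) (hw : B w (J w) = 0) (hw0 : w ≠ 0) (v : V) (hv : B v (J v) = 0) :
    v ∈ tvSet B h.alt G := by
  classical
  by_cases hne : B w (J v) ≠ 0 ∨ B w v ≠ 0
  · exact h.iso_step2 hG hX hw hv hne
  by_cases hv0 : v = 0
  · rw [hv0]; exact tvSet_zero
  have e1 : ∃ p ∈ (⊤ : Submodule F V), B.flip w p ≠ 0 := by
    by_contra hcon
    push Not at hcon
    exact hw0 (h.nondeg.2 w fun x => by
      have := hcon x Submodule.mem_top
      rwa [LinearMap.BilinForm.flip_apply] at this)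
  have e2 : ∃ p ∈ (⊤ : Submodule F V), B.flip v p ≠ 0 := by
    by_contra hcon
    push Not at hcon
    exact hv0 (h.nondeg.2 v fun x => by
      have := hcon x Submodule.mem_top
      rwa [LinearMap.BilinForm.flip_apply] at this)
  obtain ⟨p, -, hpw, hpv⟩ := exists_both_ne_zero ⊤ (B.flip w) (B.flip v) e1 e2
  rw [LinearMap.BilinForm.flip_apply] at hpw hpv
  obtain ⟨z, hz, hzn⟩ := h.exists_perp {J w, J v, p} (Finset.card_le_three.trans (by omega)) (-(B p (J p)))
  have hzw : B z w = 0 := h.perp_of_J (hz (J w) (by simp))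
  have hzv : B z v = 0 := h.perp_of_J (hz (J v) (by simp))
  have hzJp : B z (J p) = 0 := hz p (by simp)
  have hpJz : B p (J z) = 0 := by rw [h.ssymm, hzJp]
  have h1 : B (p + z) (J (p + z)) = 0 := by
    simp only [map_add, LinearMap.add_apply, hzJp, hpJz, hzn]; ring
  have h3 : B w (p + z) ≠ 0 := by
    rw [h.swap, map_add, LinearMap.add_apply, hzw, add_zero]; exact neg_ne_zero.2 hpw
  have h5 : B (p + z) v ≠ 0 := by
    rw [map_add, LinearMap.add_apply, hzv, add_zero]; exact hpv
  exact h.iso_step2 hG (h.iso_step2 hG hX hw h1 (Or.inr h3)) h1 hv (Or.inr h5)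

lemma all_tv [FiniteDimensional F V] (h : JSetup B J d) {G : Subgroup (V ≃ₗ[F] V)}
    (hiso : ∀ v, B v (J v) = 0 → v ∈ tvSet B h.alt G) (x : V) : x ∈ tvSet B h.alt G := by
  classical
  by_cases hx : B x (J x) = 0
  · exact hiso x hx
  have h2 := h.two
  set p := (2 : F)⁻¹ • x + J x with hp
  obtain ⟨z, hz, hzn⟩ := h.exists_perp {x, J x} (Finset.card_le_two.trans (by omega)) (-(B p (J p)))
  have hzJx : B z (J x) = 0 := hz x (by simp)
  have hzJJx : B z (J (J x)) = 0 := hz (J x) (by simp)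
  have hzx : B z x = 0 := h.perp_of_J hzJJx
  have hzJp : B z (J p) = 0 := by
    simp only [hp, map_add, map_smul, hzJx, hzJJx, smul_zero, add_zero]
  have hpJz : B p (J z) = 0 := by rw [h.ssymm, hzJp]
  have hxJz : B x (J z) = 0 := by rw [h.ssymm, hzJx]
  have h1 : B (p + z) (J (p + z)) = 0 := by
    simp only [map_add, LinearMap.add_apply, hzJp, hpJz, hzn]; ring
  have hxJp : B x (J p) = B x (J x) / 2 := by
    simp only [hp, map_add, map_smul, smul_eq_mul, h.sq, h.self]
    field_simp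
    ring
  have hpx : B p x = - B x (J x) := by
    simp only [hp, map_add, map_smul, LinearMap.add_apply, LinearMap.smul_apply, smul_eq_mul, h.self, h.adj]
    ring
  have h3 : B (x - (p + z)) (J (x - (p + z))) = 0 := by
    have e1 : B (p + z) (J x) = B x (J x) / 2 := by rw [h.ssymm, map_add, map_add, hxJp, hxJz, add_zero]
    have e2 : B x (J (p + z)) = B x (J x) / 2 := by rw [map_add, map_add, hxJp, hxJz, add_zero]
    rw [map_sub, map_sub, LinearMap.sub_apply, map_sub, map_sub, h1, e1, e2]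
    field_simp
    ring
  have h4 : B (p + z) (x - (p + z)) ≠ 0 := by
    rw [map_sub, h.self, sub_zero, map_add, LinearMap.add_apply, hzx, add_zero, hpx]
    exact neg_ne_zero.2 hx
  have := tvSet_add (hiso _ h1) (hiso _ h3) h4
  rwa [add_sub_cancel] at this

end JSetup

/-- `φ` commutes or anticommutes with `J` -/
def StabJ (J : V →ₗ[F] V) (φ : V ≃ₗ[F] V) : Prop :=
  (∀ x, φ (J x) = J (φ x)) ∨ (∀ x, φ (J x) = - J (φ x))

namespace JSetup

lemma exists_iso_moved [FiniteDimensional F V] (h : JSetup B J d) {g : V ≃ₗ[F] V} (hgI : IsIsom B g)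
    (hns : ¬ StabJ J g) : ∃ w, B w (J w) = 0 ∧ B (g w) (J (g w)) ≠ 0 := by
  classical
  by_contra hcon
  push Not at hcon
  have O := h.os
  have h2 := h.two
  have hd := h.d_ne
  have hcon' : ∀ w, qF B J w = 0 → qF B J (g w) = 0 := by
    intro w hw
    rw [h.qF_eq_zero_iff] at hw ⊢
    exact hcon w hw
  have h4 : (4 : F) ≠ 0 := by
    have : (4 : F) = 2 * 2 := by norm_num
    rw [this]; exact mul_ne_zero h2 h2
  have hhalf : ∀ u z : V, sF B J z u = 0 → qF B J z = - qF B J u → sF B J (g u) (g z) = 0 := by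
    intro u z hzu hq
    have huz : sF B J u z = 0 := by rw [O.symm]; exact hzu
    have e1 := hcon' (u + z) (by rw [O.add, hq, huz]; ring)
    have e2 := hcon' (u - z) (by rw [O.sub, hq, huz]; ring)
    rw [map_add, O.add] at e1
    rw [map_sub, O.sub] at e2
    have : 2 * sF B J (g u) (g z) = 0 := by linear_combination e1 - e2
    rcases mul_eq_zero.1 this with h3 | h3
    · exact absurd h3 h2
    · exact h3
  have hpres : ∀ u x, qF B J u ≠ 0 → sF B J x u = 0 → sF B J (g x) (g u) = 0 := by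
    intro u x hu hxu
    obtain ⟨t, ht, hqt⟩ := O.exists_perp {u, x} (Finset.card_le_two.trans (by omega))
      (- qF B J u - qF B J x / 4)
    have htu := ht u (by simp)
    have htx := ht x (by simp)
    have hxt : sF B J x t = 0 := by rw [O.symm]; exact htx
    have e1 := hhalf u ((2 : F)⁻¹ • x + t) (by
      rw [map_add, map_smul, LinearMap.add_apply, LinearMap.smul_apply, hxu, htu]; simp) (by
      rw [O.add, O.smul, hqt, map_smul, LinearMap.smul_apply, hxt]
      field_simp
      ring)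
    have e2 := hhalf u ((2 : F)⁻¹ • x - t) (by
      rw [map_sub, map_smul, LinearMap.sub_apply, LinearMap.smul_apply, hxu, htu]; simp) (by
      rw [O.sub, O.smul, hqt, map_smul, LinearMap.smul_apply, hxt]
      field_simp
      ring)
    rw [O.symm]
    have e3 : g x = g ((2 : F)⁻¹ • x + t) + g ((2 : F)⁻¹ • x - t) := by
      rw [← map_add]
      congr 1
      have : (2 : F)⁻¹ • x + t + ((2 : F)⁻¹ • x - t) = ((2 : F)⁻¹ + (2 : F)⁻¹) • x := by module
      rw [this]
      have : (2 : F)⁻¹ + (2 : F)⁻¹ = 1 := by field_simp; norm_num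
      rw [this, one_smul]
    rw [e3, map_add, e1, e2, add_zero]
  obtain ⟨c, hc⟩ := Cfsg.Agent.S5644.simil_of_preserves O g hpres
  have hpol : ∀ x y, sF B J (g x) (g y) = (c : F) * sF B J x y := by
    intro x y
    have e1 := hc (x + y)
    rw [map_add, O.add, O.add, hc, hc] at e1
    linear_combination e1
  have hJg : ∀ y, J (g y) = (c : F) • g (J y) := by
    intro y
    have : J (g y) - (c : F) • g (J y) = 0 := by
      apply h.nondeg.2
      intro x
      have e1 := hpol (g⁻¹ x) y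
      rw [sF_apply, sF_apply, apply_inv_self', ← hgI (g⁻¹ x) (J y), apply_inv_self'] at e1
      rw [map_sub, map_smul, smul_eq_mul, e1, sub_self]
    exact sub_eq_zero.1 this
  obtain ⟨y₀, -, hy₀⟩ := O.exists_perp ∅ (by simp) 1
  have hy₀0 : g y₀ ≠ 0 := by
    intro h0
    have : y₀ = 0 := (LinearEquiv.map_eq_zero_iff g).1 h0
    rw [this, O.zero] at hy₀
    exact zero_ne_one hy₀
  have hc2 : (c : F) ^ 2 = 1 := by
    have e1 := h.sq (g y₀)
    rw [hJg, map_smul, hJg, h.sq, map_smul, smul_smul, smul_smul] at e1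
    have e2 : ((c : F) * (c : F) * d - d) • g y₀ = 0 := by rw [sub_smul, e1, sub_self]
    rcases smul_eq_zero.1 e2 with h3 | h3
    · have : ((c : F) ^ 2 - 1) * d = 0 := by linear_combination h3
      rcases mul_eq_zero.1 this with h5 | h5
      · linear_combination h5
      · exact absurd h5 hd
    · exact absurd h3 hy₀0
  have hc3 : ((c : F) - 1) * ((c : F) + 1) = 0 := by linear_combination hc2
  apply hns
  rcases mul_eq_zero.1 hc3 with h5 | h5
  · left
    intro x
    have : (c : F) = 1 := by linear_combination h5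
    rw [hJg, this, one_smul]
  · right
    intro x
    have : (c : F) = -1 := by linear_combination h5
    rw [hJg, this, neg_smul, one_smul, neg_neg]

/-- the maximality core -/
theorem core [FiniteDimensional F V] (h : JSetup B J d) (G : Subgroup (V ≃ₗ[F] V))
    (hG : ∀ φ : V ≃ₗ[F] V, IsIsom B φ → StabJ J φ → φ ∈ G)
    (φ0 : V ≃ₗ[F] V) (hφ0 : φ0 ∈ G) (hI : IsIsom B φ0) (hS : ¬ StabJ J φ0)
    (φ : V ≃ₗ[F] V) (hφ : IsIsom B φ) : φ ∈ G := by
  have hHG : HGJ B J G := fun ψ hψ hc => hG ψ hψ (Or.inl hc)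
  obtain ⟨w, hw, hgw⟩ := h.exists_iso_moved hI hS
  have hw0 : w ≠ 0 := by
    rintro rfl
    simp at hgw
  have hX := h.first_tv hHG hφ0 hI hw hgw
  exact mem_of_isIsom h.alt h.nondeg G (fun v c => h.all_tv (h.iso_all hHG hX hw hw0) v c) φ hφ

/-- a transvection is not in the stabiliser -/
lemma st_not_stab [FiniteDimensional F V] (h : JSetup B J d) {w : V} (hw0 : w ≠ 0) :
    ¬ StabJ J (st B h.alt w 1) := by
  have h2 := h.two
  have hd := h.d_ne
  have hind : ∀ a b : F, a • w + b • J w = 0 → a = 0 ∧ b = 0 := by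
    intro a b hab
    have e1 := congrArg J hab
    rw [map_add, map_smul, map_smul, h.sq, map_zero, smul_smul] at e1
    have e2 : (a ^ 2 - d * b ^ 2) • w = 0 := by
      have : (a ^ 2 - d * b ^ 2) • w = a • (a • w + b • J w) - b • (a • J w + (b * d) • w) := by module
      rw [this, hab, e1, smul_zero, smul_zero, sub_zero]
    by_contra hcon
    have hab' : a ≠ 0 ∨ b ≠ 0 := by
      by_contra h3
      push Not at h3
      exact hcon h3
    rcases smul_eq_zero.1 e2 with h3 | h3
    · exact h.nrm_ne hab' h3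
    · exact hw0 h3
  obtain ⟨x, hx⟩ : ∃ x, B x w ≠ 0 := by
    by_contra hcon
    push Not at hcon
    exact hw0 (h.nondeg.2 w hcon)
  rintro (hs | hs)
  · have e1 := hs x
    rw [st_apply, st_apply, map_add, map_smul, one_mul, one_mul] at e1
    have e2 : (B (J x) w) • w + (-(B x w)) • J w = 0 := by
      have : (B (J x) w) • w + (-(B x w)) • J w = (J x + (B (J x) w) • w) - (J x + (B x w) • J w) := by module
      rw [this, e1, sub_self]
    exact hx (neg_eq_zero.1 (hind _ _ e2).2)
  · have e1 := hs x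
    rw [st_apply, st_apply, map_add, map_smul, one_mul, one_mul] at e1
    -- apply `B · w`-free argument: compare after applying to a vector orthogonal to `w` and `J w`
    have e3 := hs w
    rw [st_apply, st_apply, h.self, mul_zero, zero_smul, add_zero] at e3
    have e4 : (B (J w) w) • w + (2 : F) • J w = 0 := by
      have : (B (J w) w) • w + (2 : F) • J w = (J w + (1 * B (J w) w) • w) - (- J w) := by module
      rw [this, e3, sub_self]
    exact h2 (hind _ _ e4).2

end JSetup

end Cfsg.Agent.Lib.Helper99
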