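import Mathlib
import Cfsg.Agent.Lib.Helper99.SpxBase
import Cfsg.Agent.Lib.Helper94.ExtA

set_option autoImplicit false
set_option linter.unusedSectionVars false
set_option linter.unusedVariables false

/-! Step 1 of the symplectic extension field theorem: the maximal intersection trick. -/

namespace Cfsg.Agent.Lib.Helper99.Spx

open Module
open LinearMap (BilinForm)
open Cfsg.Agent.Lib.Helper83.Ext
open Cfsg.Agent.Lib.Helper94 (IsIsom st st_apply st_isIsom alt_swap exists_move exists_perp_ne)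

variable {F K V : Type*} [Field F] [Field K] [Algebra F K] [AddCommGroup V] [Module F V] [Module K V]
  [IsScalarTower F K V]

/-- the `K`-point `K v` as an `F`-subspace. -/
def PP (F K : Type*) {V : Type*} [Field F] [Field K] [Algebra F K] [AddCommGroup V] [Module F V]
    [Module K V] [IsScalarTower F K V] (v : V) : Submodule F V :=
  (Submodule.span K {v}).restrictScalars F

lemma mem_PP {v x : V} : x ∈ PP F K v ↔ ∃ a : K, a • v = x := by
  simp [PP, Submodule.mem_span_singleton]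

/-- the image of a `K`-point. -/
def SS (K : Type*) {F V : Type*} [Field F] [Field K] [Algebra F K] [AddCommGroup V] [Module F V]
    [Module K V] [IsScalarTower F K V] (h : V ≃ₗ[F] V) (w : V) : Submodule F V :=
  (PP F K w).map (h : V →ₗ[F] V)

lemma mem_SS {h : V ≃ₗ[F] V} {w x : V} : x ∈ SS K h w ↔ ∃ c : K, h (c • w) = x := by
  simp only [SS, Submodule.mem_map, mem_PP]
  constructor
  · rintro ⟨y, ⟨c, rfl⟩, rfl⟩
    exact ⟨c, rfl⟩
  · rintro ⟨c, rfl⟩
    exact ⟨_, ⟨c, rfl⟩, rfl⟩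

structure Trip (K : Type*) {F V : Type*} [Field F] [Field K] [Algebra F K] [AddCommGroup V] [Module F V]
    [Module K V] [IsScalarTower F K V] (G : Subgroup (V ≃ₗ[F] V)) (h : V ≃ₗ[F] V) (w v : V) : Prop where
  hG : h ∈ G
  ne_bot : SS K h w ⊓ PP F K v ≠ ⊥
  not_le : ∃ c : K, h (c • w) ∉ PP F K v

/-- conjugate of a `K`-transvection. -/
noncomputable def AA (BK : BilinForm K V) (h : V ≃ₗ[F] V) (w : V) (c : K) : Module.End F V :=
  (h : V →ₗ[F] V) ∘ₗ TT BK w (LinearMap.mulLeft F c) ∘ₗ (h.symm : V →ₗ[F] V)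

lemma AA_apply (BK : BilinForm K V) (h : V ≃ₗ[F] V) (w : V) (c : K) (x : V) :
    AA BK h w c x = h ((c * BK (h.symm x) w) • w) := by
  simp [AA]

variable {BK : BilinForm K V} {ξ : K →ₗ[F] F} {G : Subgroup (V ≃ₗ[F] V)}

lemma AA_mem (hyp : Hyp BK ξ G) {h : V ≃ₗ[F] V} (hG : h ∈ G) (w : V) (c : K) :
    1 + AA BK h w c ∈ MS G := by
  have := MS_conj hG (T_mulLeft hyp w c)
  convert this using 1
  ext x
  simp [AA]

lemma AA_sq (hA : BK.IsAlt) (h : V ≃ₗ[F] V) (w : V) (c : K) : AA BK h w c * AA BK h w c = 0 := by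
  ext x
  simp [AA_apply, hA w]

lemma smul_AA (BK : BilinForm K V) (h : V ≃ₗ[F] V) (w : V) (c : K) (l : F) :
    l • AA BK h w c = AA BK h w (l • c) := by
  ext x
  simp only [LinearMap.smul_apply, AA_apply]
  rw [← map_smul, smul_mul_assoc, smul_assoc]

/-- isometries: moving `h` across. -/
lemma fd_symm_left (hyp : Hyp BK ξ G) {h : V ≃ₗ[F] V} (hG : h ∈ G) (x y : V) :
    fd BK ξ (h.symm x) y = fd BK ξ x (h y) := by
  have := hyp.iso h hG (h.symm x) y
  rw [LinearEquiv.apply_symm_apply] at this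
  exact this.symm

/-- the stabiliser algebra of `L = {l | h (l w) ∈ K v}`. -/
def EE (K : Type*) {F V : Type*} [Field F] [Field K] [Algebra F K] [AddCommGroup V] [Module F V]
    [Module K V] [IsScalarTower F K V] (h : V ≃ₗ[F] V) (w v : V) : Subalgebra F K where
  carrier := {e | ∀ l : K, h (l • w) ∈ PP F K v → h ((e * l) • w) ∈ PP F K v}
  mul_mem' := by
    intro a b ha hb l hl
    rw [mul_assoc]
    exact ha _ (hb _ hl)
  add_mem' := by
    intro a b ha hb l hl
    rw [add_mul, add_smul, map_add]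
    exact (PP F K v).add_mem (ha _ hl) (hb _ hl)
  algebraMap_mem' := by
    intro r l hl
    rw [← Algebra.smul_def, smul_assoc, map_smul]
    exact (PP F K v).smul_mem _ hl

lemma EE_eq_bot (hr : (finrank F K).Prime) {h : V ≃ₗ[F] V} {w v : V} (T : Trip K G h w v) :
    EE K h w v = ⊥ := by
  have := Subalgebra.isSimpleOrder_of_finrank_prime F K hr
  rcases eq_bot_or_eq_top (EE K h w v) with h1 | h1
  · exact h1
  · exfalso
    obtain ⟨c, hc⟩ := T.not_le
    obtain ⟨d, hd, hd0⟩ := (Submodule.ne_bot_iff _).1 T.ne_bot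
    obtain ⟨hdS, hdP⟩ := Submodule.mem_inf.1 hd
    obtain ⟨l, rfl⟩ := mem_SS.1 hdS
    have hl : l ≠ 0 := by
      rintro rfl
      simp at hd0
    have : c / l ∈ EE K h w v := by rw [h1]; trivial
    have h2 := this l hdP
    rw [div_mul_cancel₀ _ hl] at h2
    exact hc h2

/-- conversion to a non-perpendicular triple. -/
lemma convert [Finite K] [FiniteDimensional K V] (hyp : Hyp BK ξ G) {h : V ≃ₗ[F] V} {w v : V}
    (T : Trip K G h w v) :
    ∃ (h' : V ≃ₗ[F] V) (w' v' : V), Trip K G h' w' v' ∧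
      (∃ c a : K, fd BK ξ (h' (c • w')) (a • v') ≠ 0) ∧
      finrank F (SS K h w ⊓ PP F K v : Submodule F V) ≤ finrank F (SS K h' w' ⊓ PP F K v' : Submodule F V) := by
  have : FiniteDimensional F K := Module.Finite.of_finite
  have : FiniteDimensional F V := FiniteDimensional.trans F K V
  obtain ⟨c₁, hc₁⟩ := T.not_le
  set s₁ := h (c₁ • w) with hs₁
  have hs₁' : s₁ ∉ Submodule.span K {v} := fun hcon => hc₁ hcon
  obtain ⟨u, hu, hsu⟩ := exists_perp_ne hyp.alt hyp.nd (Submodule.span K {v}) hs₁'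
  have hvu : BK v u = 0 :=
    (LinearMap.BilinForm.mem_orthogonal_iff.1 hu) v (Submodule.mem_span_singleton_self v)
  obtain ⟨k, hk⟩ := exists_xi_ne hyp.xi (a := BK s₁ u * BK s₁ u) (mul_ne_zero hsu hsu)
  let t : V ≃ₗ[F] V := (st BK hyp.alt u k).restrictScalars F
  have htG : t ∈ G := mem_of_kisom hyp (st_isIsom BK hyp.alt u k)
  have ht : ∀ x, t x = x + (k * BK x u) • u := fun x => by simp [t, st_apply]
  have hkey : fd BK ξ (t s₁) s₁ ≠ 0 := by
    rw [ht, fd_apply, map_add, LinearMap.add_apply, hyp.alt s₁, zero_add, map_smul,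
      LinearMap.smul_apply, smul_eq_mul, alt_swap hyp.alt u s₁]
    intro hcon
    apply hk
    have e : k * BK s₁ u * -BK s₁ u = -(k * (BK s₁ u * BK s₁ u)) := by ring
    rw [e, map_neg, neg_eq_zero] at hcon
    exact hcon
  have hh : ∀ x, (h⁻¹ * t * h) x = h.symm (t (h x)) := fun x => rfl
  have hmap : (SS K h w ⊓ PP F K v).map (h.symm : V →ₗ[F] V) ≤ SS K (h⁻¹ * t * h) w ⊓ PP F K w := by
    rintro _ ⟨d, hd, rfl⟩
    obtain ⟨hdS, hdP⟩ := Submodule.mem_inf.1 hd
    obtain ⟨c, rfl⟩ := mem_SS.1 hdS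
    obtain ⟨a, ha⟩ := mem_PP.1 hdP
    refine Submodule.mem_inf.2 ⟨mem_SS.2 ⟨c, ?_⟩, mem_PP.2 ⟨c, by simp⟩⟩
    rw [hh, ht, ← ha]
    simp [hvu]
  refine ⟨h⁻¹ * t * h, w, w, ⟨G.mul_mem (G.mul_mem (G.inv_mem T.hG) htG) T.hG, ?_, ⟨c₁, ?_⟩⟩,
    ⟨c₁, c₁, ?_⟩, ?_⟩
  · obtain ⟨d, hd, hd0⟩ := (Submodule.ne_bot_iff _).1 T.ne_bot
    rw [Submodule.ne_bot_iff]
    exact ⟨h.symm d, hmap ⟨d, hd, rfl⟩, by simpa using hd0⟩
  · intro hcon
    obtain ⟨a, ha⟩ := mem_PP.1 hcon
    rw [hh, ← hs₁, LinearEquiv.eq_symm_apply] at ha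
    apply hkey
    rw [← ha, hs₁, hyp.iso h T.hG]
    simp [hyp.alt w]
  · rw [hh, fd_symm_left hyp T.hG]
    exact hkey
  · rw [← LinearEquiv.finrank_map_eq h.symm (SS K h w ⊓ PP F K v)]
    exact Submodule.finrank_mono hmap

/-- the main step. -/
lemma step [Finite K] [FiniteDimensional K V] (hyp : Hyp BK ξ G) (hr : (finrank F K).Prime)
    {h : V ≃ₗ[F] V} {w v : V} (T : Trip K G h w v)
    (hNP : ∃ c a : K, fd BK ξ (h (c • w)) (a • v) ≠ 0) :
    (∃ (v' : V) (n₀ : K), Out BK ξ G v' n₀) ∨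
    ∃ (h' : V ≃ₗ[F] V) (w' v' : V), Trip K G h' w' v' ∧
      finrank F (SS K h w ⊓ PP F K v : Submodule F V) < finrank F (SS K h' w' ⊓ PP F K v' : Submodule F V) := by
  have : FiniteDimensional F K := Module.Finite.of_finite
  have : FiniteDimensional F V := FiniteDimensional.trans F K V
  obtain ⟨c₀, a₀, hca⟩ := hNP
  have hκ₀ : BK (h.symm (a₀ • v)) w ≠ 0 := by
    intro hcon
    apply hca
    have := hyp.iso h T.hG (c₀ • w) (h.symm (a₀ • v))
    rw [LinearEquiv.apply_symm_apply] at this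
    rw [this, fd_apply, map_smul, LinearMap.smul_apply, alt_swap hyp.alt, hcon]
    simp
  set κ₀ := BK (h.symm (a₀ • v)) w with hκ₀def
  by_cases hE : ∀ a : K, BK (h.symm (a • v)) w / κ₀ ∈ EE K h w v
  · left
    rw [EE_eq_bot hr T] at hE
    obtain ⟨d, hd, hd0⟩ := (Submodule.ne_bot_iff _).1 T.ne_bot
    obtain ⟨hdS, hdP⟩ := Submodule.mem_inf.1 hd
    obtain ⟨l₁, rfl⟩ := mem_SS.1 hdS
    obtain ⟨x₀, hx₀⟩ := mem_PP.1 hdP
    have hx₀0 : x₀ ≠ 0 := by
      rintro rfl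
      rw [zero_smul] at hx₀
      exact hd0 hx₀.symm
    set v' := h (l₁ • w) with hv'
    obtain ⟨e, he⟩ : ∃ e, ξ e = 1 := by
      obtain ⟨t, ht⟩ := exists_xi_ne hyp.xi (a := (1 : K)) one_ne_zero
      exact ⟨(ξ (t * 1))⁻¹ • (t * 1), by rw [map_smul, smul_eq_mul, inv_mul_cancel₀ ht]⟩
    let Φ : K →ₗ[F] K := LinearMap.mulLeft F κ₀⁻¹ ∘ₗ ((BK.flip w).restrictScalars F) ∘ₗ
      (h.symm : V →ₗ[F] V) ∘ₗ ((LinearMap.toSpanSingleton K V v').restrictScalars F)
    have hΦ : ∀ t, Φ t = BK (h.symm (t • v')) w / κ₀ := by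
      intro t
      simp [Φ, div_eq_inv_mul]
    let μ : K →ₗ[F] F := ξ ∘ₗ LinearMap.mulLeft F e ∘ₗ Φ
    have hμ : ∀ t, Φ t = algebraMap F K (μ t) := by
      intro t
      have h1 : Φ t ∈ (⊥ : Subalgebra F K) := by
        rw [hΦ, ← hx₀, smul_smul]; exact hE _
      obtain ⟨r', hr'⟩ := Algebra.mem_bot.1 h1
      rw [← hr']
      congr 1
      simp only [μ, LinearMap.comp_apply, LinearMap.mulLeft_apply, ← hr']
      rw [mul_comm, ← Algebra.smul_def, map_smul, he, smul_eq_mul, mul_one]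
    obtain ⟨η, hη⟩ := Cfsg.Agent.Lib.Helper94.Ext.exists_dual_comp (V := K) ξ hyp.xi μ
    set n₀ := η 1 with hn₀
    have hn : ∀ t, μ t = ξ (n₀ * t) := by
      intro t
      rw [hη]
      congr 1
      have : η t = η (t • (1 : K)) := by simp
      rw [this, map_smul, smul_eq_mul, mul_comm]
    refine ⟨v', n₀, hd0, ?_, ?_, AA BK h w (l₁ / κ₀), AA_sq hyp.alt _ _ _, ?_, ?_⟩
    · intro hn0
      have h1 : μ (a₀ / x₀) = 0 := by rw [hn, hn0, zero_mul, map_zero]
      have h2 := hμ (a₀ / x₀)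
      rw [h1, map_zero, hΦ, ← hx₀, smul_smul, div_mul_cancel₀ _ hx₀0, ← hκ₀def, div_self hκ₀] at h2
      exact one_ne_zero h2
    · have h2 := hμ 1
      rw [hΦ, one_smul, hv', LinearEquiv.symm_apply_apply, map_smul, LinearMap.smul_apply, hyp.alt w,
        smul_zero, zero_div] at h2
      have h3 : μ 1 = 0 := by
        apply (algebraMap F K).injective
        rw [← h2, map_zero]
      rw [hn, mul_one] at h3
      exact h3
    · intro l
      rw [smul_AA]
      exact AA_mem hyp T.hG _ _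
    · intro t
      rw [AA_apply, ← hn]
      have h2 := hμ t
      rw [hΦ] at h2
      have e1 : l₁ / κ₀ * BK (h.symm (t • v')) w = algebraMap F K (μ t) * l₁ := by
        rw [← h2]; ring
      rw [e1, ← Algebra.smul_def, smul_assoc, map_smul]
  · right
    push Not at hE
    obtain ⟨a, ha⟩ := hE
    have : ∃ l : K, h (l • w) ∈ PP F K v ∧ h ((BK (h.symm (a • v)) w / κ₀ * l) • w) ∉ PP F K v := by
      by_contra hcon
      push Not at hcon
      exact ha hcon
    obtain ⟨l, hl, hl'⟩ := this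
    obtain ⟨z, hzG, hz⟩ := AA_mem hyp T.hG w (l / κ₀)
    have hzx : ∀ x, z x = x + h ((l / κ₀ * BK (h.symm x) w) • w) := fun x => by
      have := LinearMap.congr_fun hz x
      simpa [AA_apply] using this
    have hlt : SS K h w ⊓ PP F K v < SS K z v ⊓ PP F K v := by
      refine lt_of_le_of_ne ?_ ?_
      · intro d hd
        obtain ⟨hdS, hdP⟩ := Submodule.mem_inf.1 hd
        obtain ⟨c, rfl⟩ := mem_SS.1 hdS
        obtain ⟨a', ha'⟩ := mem_PP.1 hdP
        refine Submodule.mem_inf.2 ⟨mem_SS.2 ⟨a', ?_⟩, hdP⟩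
        rw [ha', hzx]
        simp [hyp.alt w]
      · intro heq
        have hmem : z (a₀ • v) ∈ SS K z v ⊓ PP F K v := by
          refine Submodule.mem_inf.2 ⟨mem_SS.2 ⟨a₀, rfl⟩, ?_⟩
          rw [hzx, ← hκ₀def, div_mul_cancel₀ _ hκ₀]
          exact (PP F K v).add_mem (mem_PP.2 ⟨a₀, rfl⟩) hl
        rw [← heq] at hmem
        obtain ⟨c, hc⟩ := mem_SS.1 (Submodule.mem_inf.1 hmem).1
        rw [hzx, ← hκ₀def, div_mul_cancel₀ _ hκ₀] at hc
        have h1 : a₀ • v = h ((c - l) • w) := by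
          rw [sub_smul, map_sub, hc]; abel
        apply hκ₀
        rw [hκ₀def, h1]
        simp [hyp.alt w]
    refine ⟨z, v, v, ⟨hzG, ne_bot_of_gt hlt, ⟨a, ?_⟩⟩, Submodule.finrank_lt_finrank_of_lt hlt⟩
    intro hcon
    rw [hzx] at hcon
    apply hl'
    have h2 := (PP F K v).sub_mem hcon (mem_PP.2 ⟨a, rfl⟩)
    rw [add_sub_cancel_left] at h2
    have e : BK (h.symm (a • v)) w / κ₀ * l = l / κ₀ * BK (h.symm (a • v)) w := by ring
    rw [e]
    exact h2

theorem exists_out [Finite K] [FiniteDimensional K V] (hyp : Hyp BK ξ G) (hr : (finrank F K).Prime)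
    (hd : 2 ≤ finrank K V) {g : V ≃ₗ[F] V} (hg : g ∈ G) (hns : ¬ IsSemi K g) :
    ∃ (v : V) (n₀ : K), Out BK ξ G v n₀ := by
  have : FiniteDimensional F K := Module.Finite.of_finite
  have : FiniteDimensional F V := FiniteDimensional.trans F K V
  have main : ∀ n : ℕ, ∀ (h : V ≃ₗ[F] V) (w v : V), Trip K G h w v →
      finrank F V - finrank F (SS K h w ⊓ PP F K v : Submodule F V) = n →
      ∃ (v : V) (n₀ : K), Out BK ξ G v n₀ := by
    intro n
    induction' n using Nat.strong_induction_on with n ih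
    intro h w v T hn
    obtain ⟨h1, w1, v1, T1, hNP, hle⟩ := convert hyp T
    rcases step hyp hr T1 hNP with hout | ⟨h2, w2, v2, T2, hlt⟩
    · exact hout
    · have hle2 := Submodule.finrank_le (SS K h2 w2 ⊓ PP F K v2 : Submodule F V)
      exact ih _ (by omega) h2 w2 v2 T2 rfl
  obtain ⟨w, k, hk⟩ := exists_nonpoint hd hns
  have hw : w ≠ 0 := by
    rintro rfl
    exact hk 0 (by simp)
  refine main _ g w (g w) ⟨hg, ?_, ⟨k, ?_⟩⟩ rfl
  · rw [Submodule.ne_bot_iff]
    refine ⟨g w, Submodule.mem_inf.2 ⟨mem_SS.2 ⟨1, by simp⟩, mem_PP.2 ⟨1, by simp⟩⟩, by simpa using hw⟩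
  · intro hcon
    obtain ⟨a, ha⟩ := mem_PP.1 hcon
    exact hk a ha.symm

end Cfsg.Agent.Lib.Helper99.Spx
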