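import Mathlib
import Cfsg.Agent.Lib.Helper99.SpxBase
import Cfsg.Agent.Lib.Helper99.SpxS1
import Cfsg.Agent.Lib.Helper1.SpxALL
import Cfsg.Agent.Lib.Helper1.SpxWQ
import Cfsg.Agent.Lib.Helper1.SpxT1
import Cfsg.Agent.Lib.Helper1.SpxT2
import Cfsg.Agent.Lib.Helper59.SpxR

set_option autoImplicit false

/-! Assembly of the abstract symplectic extension field theorem. -/

namespace Cfsg.Agent.Lib.Helper99.Spx

open Module
open LinearMap (BilinForm)
open Cfsg.Agent.Lib.Helper83.Ext
open Cfsg.Agent.Lib.Helper94 (IsIsom st st_apply st_isIsom alt_swap exists_move mem_of_isIsom)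

variable {F K V : Type*} [Field F] [Field K] [Algebra F K] [AddCommGroup V] [Module F V] [Module K V]
  [IsScalarTower F K V]
variable {BK : BilinForm K V} {ξ : K →ₗ[F] F} {G : Subgroup (V ≃ₗ[F] V)}

theorem core [Finite K] [FiniteDimensional K V] (hyp : Hyp BK ξ G) (hr : (finrank F K).Prime)
    (hd : 2 ≤ finrank K V) (hd2 : finrank F K = 2 → 4 ≤ finrank K V) {g : V ≃ₗ[F] V} (hg : g ∈ G)
    (hns : ¬ IsSemi K g) (φ : V ≃ₗ[F] V) (hφ : IsIsom (fd BK ξ) φ) : φ ∈ G := by
  have : Finite F := Finite.of_injective _ (algebraMap F K).injective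
  have : FiniteDimensional F K := Module.Finite.of_finite
  have : FiniteDimensional F V := FiniteDimensional.trans F K V
  have hall : AllSt BK ξ G := by
    apply allSt_of_hasSt hyp
    by_cases hq : ∃ l : F, l ≠ 0 ∧ l ≠ 1
    · obtain ⟨v, n₀, hout⟩ := exists_out hyp hr hd hg hns
      exact hasSt_of_out_of_three hyp hout hq
    · push Not at hq
      have hF : ∀ l : F, l = 0 ∨ l = 1 := fun l => by
        by_cases h : l = 0
        · exact Or.inl h
        · exact Or.inr (hq l h)
      by_cases hr2 : finrank F K = 2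
      · exact hasSt_of_rel_all hyp hF hr2 (hd2 hr2)
          (fun x y hx hy => rel_all hyp hF hr2 hd hg hns x y hx hy)
      · have hr3 : 3 ≤ finrank F K := by
          have := hr.two_le
          omega
        obtain ⟨v, n₀, hout⟩ := exists_out hyp hr hd hg hns
        exact hasSt_of_out_of_two hyp hout hF hr hr3
  apply mem_of_isIsom (fd_isAlt hyp.alt ξ) (fd_nondegenerate hyp.alt hyp.nd hyp.xi) G _ φ hφ
  intro v c
  obtain ⟨g', hg', he⟩ := hall v c
  have : g' = st (fd BK ξ) (fd_isAlt hyp.alt ξ) v c :=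
    LinearEquiv.toLinearMap_injective (he.trans (st_coe hyp.alt v c).symm)
  rwa [← this]

end Cfsg.Agent.Lib.Helper99.Spx
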