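import Mathlib
import Cfsg.Prelude.Def_GeometricClasses
import Cfsg.Agent.Lib.Helper99.SpxCore
import Cfsg.Agent.Lib.Helper59.SpxFORM
import Cfsg.Agent.Lib.Helper94.SympWrap

set_option autoImplicit false
set_option linter.unusedSectionVars false
set_option linter.unusedVariables false

/-! The matrix wrapper for the symplectic extension field theorem. -/

namespace Cfsg.Agent.Lib.Helper99.Spx

open Module
open LinearMap (BilinForm)
open Cfsg.Agent.Lib.Helper83.Ext
open Cfsg.Agent.Lib.Helper94 (IsIsom st st_apply st_isIsom alt_swap exists_move glEquiv glEquiv_apply sympB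
  sympB_apply sympB_isAlt sympB_nondegenerate sp_maximal_of_core)

section abs

variable {F K V : Type*} [Field F] [Field K] [Algebra F K] [AddCommGroup V] [Module F V] [Module K V]
  [IsScalarTower F K V]

/-- some `F`-transvection is not semilinear. -/
lemma exists_not_semi [FiniteDimensional F K] [FiniteDimensional K V] {BK : BilinForm K V} (hA : BK.IsAlt)
    (hN : BK.Nondegenerate) {ξ : K →ₗ[F] F} (hξ : ξ ≠ 0) (hr : 2 ≤ finrank F K) (hd : 2 ≤ finrank K V) :
    ∃ φ : V ≃ₗ[F] V, IsIsom (fd BK ξ) φ ∧ ¬ IsSemi K φ := by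
  obtain ⟨v, hv⟩ : ∃ c : V, c ≠ 0 := by
    obtain ⟨w, hw⟩ := exists_not_mem_line (K := K) hd (0 : V)
    exact ⟨w, fun h => hw 0 (by simp [h])⟩
  obtain ⟨u₀, hu₀⟩ : ∃ u₀, BK u₀ v ≠ 0 := by
    by_contra hcon
    push Not at hcon
    exact hv (hN.2 v hcon)
  obtain ⟨t, ht⟩ := exists_xi_ne hξ hu₀
  obtain ⟨k, hk⟩ := exists_not_mem_line (K := F) (V := K) hr (1 : K)
  refine ⟨st (fd BK ξ) (fd_isAlt hA ξ) v 1, st_isIsom _ _ _ _, ?_⟩
  intro hs
  obtain ⟨k', hk'⟩ := hs k
  have h1 := hk' (t • u₀)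
  simp only [st_apply, fd_apply, one_mul, map_smul, LinearMap.smul_apply, smul_eq_mul] at h1
  set b := t * BK u₀ v with hb
  have hb0 : b ≠ 0 := by
    intro h0
    rw [h0, map_zero] at ht
    exact ht rfl
  have h2 := congrArg (fun x => BK x v) h1
  simp only [map_add, map_smul, LinearMap.add_apply, LinearMap.smul_apply, smul_eq_mul, BK_smulF_left,
    hA v, smul_zero, add_zero, ← hb] at h2
  have hkk : k = k' := mul_right_cancel₀ hb0 h2
  rw [← hkk, smul_add, add_right_inj] at h1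
  have h3 : (algebraMap F K (ξ (k * b)) - k * algebraMap F K (ξ b)) • v = 0 := by
    rw [sub_smul, mul_smul, algebraMap_smul, algebraMap_smul, h1, sub_self]
  have h4 := sub_eq_zero.1 ((smul_eq_zero.1 h3).resolve_right hv)
  apply hk (ξ (k * b) / ξ b)
  rw [Algebra.smul_def, mul_one, map_div₀, h4, mul_div_assoc, div_self, mul_one]
  rw [Ne, map_eq_zero]
  exact ht

end abs

section absm

variable {F KT : Type*} [Field F] [Field KT] [Algebra F KT] {m : ℕ}
  [Module KT (Fin m ⊕ Fin m → F)] [IsScalarTower F KT (Fin m ⊕ Fin m → F)]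

/-- the group of isometries. -/
def isoGrp {F V : Type*} [Field F] [AddCommGroup V] [Module F V] (B : BilinForm F V) :
    Subgroup (V ≃ₗ[F] V) where
  carrier := {g | IsIsom B g}
  mul_mem' := fun ha hb => ha.mul hb
  one_mem' := IsIsom.one B
  inv_mem' := fun ha => ha.inv

variable (KT) in
theorem wrapAbs [Finite KT] (hm : 7 ≤ m) (hr : (finrank F KT).Prime)
    (N : Subgroup (Matrix.GeneralLinearGroup (Fin m ⊕ Fin m) F))
    (hN : ∀ g, g ∈ N ↔ IsSemi KT (glEquiv (Fin m ⊕ Fin m) F g))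
    (hsa : ∀ (k : KT) (x y : Fin m ⊕ Fin m → F), sympB m F (k • x) y = sympB m F x (k • y))
    (halt : ∀ (k : KT) (v : Fin m ⊕ Fin m → F), sympB m F (k • v) v = 0) :
    Cfsg.Geo.IsMaximalIn (Cfsg.spGL m F) (N ⊓ Cfsg.spGL m F) := by
  have : FiniteDimensional F KT := Module.Finite.of_finite
  have : Finite F := Finite.of_injective _ (algebraMap F KT).injective
  have : FiniteDimensional KT (Fin m ⊕ Fin m → F) := Module.Finite.of_finite
  have hmul := Module.finrank_mul_finrank F KT (Fin m ⊕ Fin m → F)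
  rw [Module.finrank_fintype_fun_eq_card, Fintype.card_sum, Fintype.card_fin] at hmul
  have hr2 := hr.two_le
  have hd : 2 ≤ finrank KT (Fin m ⊕ Fin m → F) := by
    by_contra hcon
    have h01 : finrank KT (Fin m ⊕ Fin m → F) = 0 ∨ finrank KT (Fin m ⊕ Fin m → F) = 1 := by omega
    rcases h01 with h | h
    · rw [h] at hmul; omega
    · rw [h, mul_one] at hmul
      rw [hmul] at hr
      have h2 : (2 : ℕ) ∣ m + m := ⟨m, by ring⟩
      rcases (Nat.dvd_prime hr).1 h2 with h3 | h3 <;> omega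
  have hd2 : finrank F KT = 2 → 4 ≤ finrank KT (Fin m ⊕ Fin m → F) := by
    intro h
    rw [h] at hmul
    omega
  obtain ⟨ξ, hξ⟩ : ∃ ξ : KT →ₗ[F] F, ξ ≠ 0 := by
    have h1 : (1 : KT) ∉ (⊥ : Submodule F KT) := by simp
    obtain ⟨φ, hφ1, -⟩ := Submodule.exists_le_ker_of_notMem h1
    exact ⟨φ, fun h => hφ1 (by rw [h]; rfl)⟩
  obtain ⟨BK, hA, hNd, hfd⟩ := exists_BK (K := KT) (sympB m F) (sympB_isAlt m) (sympB_nondegenerate m)
    hsa halt ξ hξ
  refine sp_maximal_of_core m N (IsSemi KT) hN ?_ ?_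
  · rw [← hfd]
    exact exists_not_semi hA hNd hξ hr2 hd
  · intro G hG φ0 hφ0 hφ0I hφ0S φ hφ
    have hyp : Hyp BK ξ (G ⊓ isoGrp (sympB m F)) :=
      { alt := hA
        nd := hNd
        xi := hξ
        iso := by
          intro g hg
          rw [hfd]
          exact hg.2
        semi := by
          intro g hs hi
          rw [hfd] at hi
          exact ⟨hG g hi hs, hi⟩ }
    exact (core hyp hr hd hd2 (g := φ0) ⟨hφ0, hφ0I⟩ hφ0S φ (by rw [hfd]; exact hφ)).1

end absm

section conc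

variable {F : Type*} [Field F] [Fintype F] {ι : Type} [Fintype ι] [DecidableEq ι] {r : ℕ}
  (K : Subalgebra F (Matrix ι ι F))

/-- the subalgebra as a bare type, carrying only the instances declared below. -/
def KT (_hK : Cfsg.Geo.IsFieldSubalgebra r K) (_hn : Nonempty ι) : Type _ := ↥K

variable {K} (hK : Cfsg.Geo.IsFieldSubalgebra r K) (hn : Nonempty ι)

noncomputable instance : Field (KT K hK hn) :=
  IsField.toField (R := ↥K)
    { exists_pair_ne := ⟨0, 1, fun h => zero_ne_one (congrArg Subtype.val h)⟩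
      mul_comm := fun x y => Subtype.ext (hK.comm x.1 x.2 y.1 y.2)
      mul_inv_cancel := fun {a} ha => by
        obtain ⟨y, hy, hxy⟩ := hK.inv a.1 a.2 (fun h => ha (Subtype.ext h))
        exact ⟨⟨y, hy⟩, Subtype.ext hxy⟩ }

noncomputable instance : Algebra F (KT K hK hn) := (inferInstance : Algebra F ↥K)

noncomputable instance : Module (KT K hK hn) (ι → F) :=
  Module.compHom (ι → F)
    (((Matrix.toLinAlgEquiv' (R := F) (n := ι)).toAlgHom.comp K.val).toRingHom : ↥K →+* _)

/-- the underlying matrix. -/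
def KT.mat (k : KT K hK hn) : Matrix ι ι F := Subtype.val (p := fun x => x ∈ K) k

lemma KT.mat_mem (k : KT K hK hn) : k.mat ∈ K := Subtype.property (p := fun x => x ∈ K) k

lemma KT.smul_def (k : KT K hK hn) (v : ι → F) : k • v = k.mat.mulVec v := rfl

lemma KT.smul_mat (a : F) (k : KT K hK hn) : (a • k).mat = a • k.mat := rfl

instance : IsScalarTower F (KT K hK hn) (ι → F) := ⟨by
  intro a k v
  rw [KT.smul_def, KT.smul_def, KT.smul_mat, Matrix.smul_mulVec]⟩

instance : Finite (KT K hK hn) := (inferInstance : Finite ↥K)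

lemma KT.finrank_eq : finrank F (KT K hK hn) = r := hK.finrank_eq

/-- an element of the subalgebra as an element of the field. -/
def KT.mk (m : Matrix ι ι F) (hm : m ∈ K) : KT K hK hn := (⟨m, hm⟩ : ↥K)

lemma KT.mat_mk (m : Matrix ι ι F) (hm : m ∈ K) : (KT.mk hK hn m hm).mat = m := rfl

lemma mem_normalizer_iff (g : GL ι F) :
    g ∈ Cfsg.Geo.subalgebraNormalizer K ↔ IsSemi (KT K hK hn) (glEquiv ι F g) := by
  have hgg : ((g⁻¹ : GL ι F) : Matrix ι ι F) * (g : Matrix ι ι F) = 1 := by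
    rw [← Units.val_mul, inv_mul_cancel, Units.val_one]
  have hgg' : (g : Matrix ι ι F) * ((g⁻¹ : GL ι F) : Matrix ι ι F) = 1 := by
    rw [← Units.val_mul, mul_inv_cancel, Units.val_one]
  constructor
  · intro h k
    refine ⟨KT.mk hK hn _ ((h k.mat).1 k.mat_mem), fun v => ?_⟩
    rw [glEquiv_apply, glEquiv_apply, KT.smul_def, KT.smul_def, KT.mat_mk, Matrix.mulVec_mulVec,
      Matrix.mulVec_mulVec, mul_assoc, hgg, mul_one]
  · intro h
    have hf : ∀ m ∈ K, (g : Matrix ι ι F) * m * ((g⁻¹ : GL ι F) : Matrix ι ι F) ∈ K := by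
      intro m hm
      obtain ⟨k', hk'⟩ := h (KT.mk hK hn m hm)
      have h1 : (g : Matrix ι ι F) * m = k'.mat * (g : Matrix ι ι F) := by
        apply Matrix.mulVec_injective
        funext v
        have := hk' v
        rw [glEquiv_apply, glEquiv_apply, KT.smul_def, KT.smul_def, KT.mat_mk, Matrix.mulVec_mulVec,
          Matrix.mulVec_mulVec] at this
        exact this
      rw [h1, mul_assoc, hgg', mul_one]
      exact k'.mat_mem
    intro m
    refine ⟨hf m, fun hm => ?_⟩
    let φ : ↥K → ↥K := fun x => ⟨_, hf x.1 x.2⟩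
    have hinj : Function.Injective φ := by
      intro x y hxy
      have h2 : (g : Matrix ι ι F) * x.1 * ((g⁻¹ : GL ι F) : Matrix ι ι F)
          = (g : Matrix ι ι F) * y.1 * ((g⁻¹ : GL ι F) : Matrix ι ι F) :=
        congrArg Subtype.val hxy
      apply Subtype.ext
      calc x.1 = ((g⁻¹ : GL ι F) : Matrix ι ι F) * ((g : Matrix ι ι F) * x.1 *
            ((g⁻¹ : GL ι F) : Matrix ι ι F)) * (g : Matrix ι ι F) := by
            rw [mul_assoc, mul_assoc, hgg, mul_one, ← mul_assoc, hgg, one_mul]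
        _ = y.1 := by
            rw [h2, mul_assoc, mul_assoc, hgg, mul_one, ← mul_assoc, hgg, one_mul]
    obtain ⟨x, hx⟩ := (Finite.injective_iff_surjective.1 hinj) ⟨_, hm⟩
    have h2 : (g : Matrix ι ι F) * x.1 * ((g⁻¹ : GL ι F) : Matrix ι ι F)
        = (g : Matrix ι ι F) * m * ((g⁻¹ : GL ι F) : Matrix ι ι F) :=
      congrArg Subtype.val hx
    have h3 : m = x.1 := by
      calc m = ((g⁻¹ : GL ι F) : Matrix ι ι F) * ((g : Matrix ι ι F) * m *
            ((g⁻¹ : GL ι F) : Matrix ι ι F)) * (g : Matrix ι ι F) := by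
            rw [mul_assoc, mul_assoc, hgg, mul_one, ← mul_assoc, hgg, one_mul]
        _ = x.1 := by
            rw [← h2, mul_assoc, mul_assoc, hgg, mul_one, ← mul_assoc, hgg, one_mul]
    rw [h3]
    exact x.2

end conc

theorem wrap {F : Type*} [Field F] [Fintype F] (m : ℕ) (hm : 7 ≤ m) (r : ℕ) (hr : r.Prime)
    (K : Subalgebra F (Matrix (Fin m ⊕ Fin m) (Fin m ⊕ Fin m) F)) (hK : Cfsg.Geo.IsFieldSubalgebra r K)
    (hsa : Cfsg.Geo.IsSelfAdjointFor (Cfsg.sympForm m F) K)
    (halt : ∀ k ∈ K, ∀ v : (Fin m ⊕ Fin m → F), Cfsg.sympForm m F (Matrix.mulVec k v) v = 0) :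
    Cfsg.Geo.IsMaximalIn (Cfsg.spGL m F) (Cfsg.Geo.subalgebraNormalizer K ⊓ Cfsg.spGL m F) := by
  have hn : Nonempty (Fin m ⊕ Fin m) := ⟨Sum.inl ⟨0, by omega⟩⟩
  refine wrapAbs (KT K hK hn) hm (by rw [KT.finrank_eq]; exact hr) _ (mem_normalizer_iff hK hn) ?_ ?_
  · intro k x y
    rw [sympB_apply, sympB_apply, KT.smul_def, KT.smul_def]
    exact hsa k.mat k.mat_mem x y
  · intro k v
    rw [sympB_apply, KT.smul_def]
    exact halt k.mat k.mat_mem v

end Cfsg.Agent.Lib.Helper99.Spx
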